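import Mathlib
import Cfsg.Agent.H43.D1.Classes
import Cfsg.Agent.H39.SmallDeg.Integral

/-!
Cosets of the automizer among the residues, and eigenprojections of `x` on any index type.
-/

set_option autoImplicit false
set_option linter.unusedSectionVars false

namespace Cfsg.Agent.H40.SmallDeg

open Cfsg.Agent.H43.D1

attribute [local instance] Fintype.ofFinite Classical.propDecidable

variable {p : ℕ} [hp : Fact p.Prime] {G : Type*} [Group G] [Finite G] (S : Setup p G)

/-- The units of a coset of the automizer. -/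
noncomputable def coset (c₀ : (ZMod p)ˣ) : Finset (ZMod p) :=
  (Finset.univ : Finset S.act.range).image fun a : S.act.range => ((a : (ZMod p)ˣ) : ZMod p) * (c₀ : ZMod p)

theorem card_coset (c₀ : (ZMod p)ˣ) : (coset S c₀).card = Nat.card S.act.range := by
  rw [coset, Finset.card_image_of_injective _ fun a b h => Subtype.ext (Units.ext
    (mul_right_cancel₀ c₀.ne_zero h)), Finset.card_univ, Nat.card_eq_fintype_card]

theorem mem_coset {c₀ c : (ZMod p)ˣ} : (c : ZMod p) ∈ coset S c₀ ↔ c * c₀⁻¹ ∈ S.act.range := by
  simp only [coset, Finset.mem_image, Finset.mem_univ, true_and]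
  constructor
  · rintro ⟨a, ha⟩
    have : c = (a : (ZMod p)ˣ) * c₀ := Units.ext ha.symm
    rw [this, mul_inv_cancel_right]
    exact a.2
  · intro h
    exact ⟨⟨_, h⟩, by rw [Units.val_mul, Units.inv_mul_cancel_right]⟩

theorem zero_not_mem_coset (c₀ : (ZMod p)ˣ) : (0 : ZMod p) ∉ coset S c₀ := by
  simp [coset, Finset.mem_image]

/-- The eigenprojection of `x` for the exponent `c` in a representation over a valuation ring. -/
noncomputable def eig {O : ValuationSubring ℂ} {ι : Type*} [Fintype ι] [DecidableEq ι]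
    (B : G →* Matrix ι ι O) (c : ZMod p) : Matrix ι ι ℂ :=
  (p : ℂ)⁻¹ • ∑ i : ZMod p, H39.SmallDeg.rt (-(i * c)) • H31.Defect.toK O ι (B (S.x ^ i.val))

end Cfsg.Agent.H40.SmallDeg
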