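import Mathlib.LinearAlgebra.Matrix.Kronecker
import Mathlib.LinearAlgebra.Vandermonde
import Mathlib.LinearAlgebra.Dimension.OrzechProperty
import Mathlib.Data.Nat.Prime.Factorial
import Mathlib.Data.Nat.Choose.Dvd
import Mathlib.FieldTheory.Finite.Basic
import Mathlib.Algebra.CharP.Lemmas
import Mathlib.LinearAlgebra.Matrix.CharP
import Mathlib.RingTheory.Polynomial.Pochhammer
import Mathlib.Algebra.CharP.Basic
import Mathlib.GroupTheory.OrderOfElement
import Mathlib.LinearAlgebra.FiniteDimensional.Basic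
import Mathlib.LinearAlgebra.FiniteDimensional.Lemmas
import Mathlib.Data.ZMod.Units
import Mathlib.Algebra.Field.ZMod

/-!
Eigenvectors in the tensor square of a full Jordan block of size `d < p` in characteristic `p`
that are normalised by a `p'`-group: the block is identified with the polynomial functions of
degree `< d` on the prime field, the tensor square with functions of two variables.
-/

set_option autoImplicit false

namespace Cfsg.Agent.H40.SmallDeg

open Matrix Polynomial

namespace Funcs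

variable {p : ℕ} [Fact p.Prime] {k : Type*} [Field k] [CharP k p] {d : ℕ}

theorem cast_eq_mod (n : ℕ) : ((n % p : ℕ) : k) = (n : k) := by
  rw [CharP.natCast_eq_natCast (R := k) p]
  exact Nat.mod_modEq n p

/-- A polynomial of degree `< d < p` vanishing on the prime field is zero. -/
theorem coeff_unique (hd : d ≤ p) {c : Fin d → k} (h : ∀ n : ℕ, ∑ i : Fin d, c i * (n : k) ^ (i : ℕ) = 0) :
    c = 0 := by
  have hinj : Function.Injective fun x : Fin d => ((x : ℕ) : k) := by
    intro x y hxy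
    exact Fin.ext (((CharP.natCast_eq_natCast (R := k) p).1 hxy).eq_of_lt_of_lt
      (lt_of_lt_of_le x.2 hd) (lt_of_lt_of_le y.2 hd))
  exact Matrix.eq_zero_of_forall_index_sum_mul_pow_eq_zero hinj fun x => h x

theorem vec_unique (hd : d ≤ p) {ι : Type*} {v : Fin d → ι → k}
    (h : ∀ n : ℕ, ∑ i : Fin d, ((n : k) ^ (i : ℕ)) • v i = 0) : v = 0 := by
  funext i t
  have := coeff_unique (p := p) hd (c := fun j => v j t) fun n => by
    have := congrFun (h n) t
    simpa [Finset.sum_apply, mul_comm] using this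
  exact congrFun this i

variable (Z : Matrix (Fin d) (Fin d) k) (u : Fin d → k)

/-- The vector coefficients of `n ↦ Z ^ n u`. -/
noncomputable def wv (i : Fin d) : Fin d → k :=
  ∑ m : Fin d, (((m : ℕ).factorial : k)⁻¹ * (descPochhammer k m).coeff i) • ((Z - 1) ^ (m : ℕ)) *ᵥ u

theorem pow_mulVec_eq (hd : d ≤ p) (hZ : (Z - 1) ^ d = 0) (n : ℕ) :
    (Z ^ n) *ᵥ u = ∑ i : Fin d, ((n : k) ^ (i : ℕ)) • wv Z u i := by
  have hchoose : ∀ m : Fin d, ((n.choose m : ℕ) : k) =
      ∑ i : Fin d, (n : k) ^ (i : ℕ) * (((m : ℕ).factorial : k)⁻¹ * (descPochhammer k m).coeff i) := by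
    intro m
    have hf : (((m : ℕ).factorial : ℕ) : k) ≠ 0 := by
      rw [Ne, CharP.cast_eq_zero_iff k p, Nat.Prime.dvd_factorial (Fact.out : p.Prime)]
      have := m.2; omega
    have hdeg : (descPochhammer k m).natDegree < d := by rw [descPochhammer_natDegree]; exact m.2
    have h1 : (descPochhammer k m).eval (n : k) =
        ∑ i : Fin d, (n : k) ^ (i : ℕ) * (descPochhammer k m).coeff i := by
      rw [Polynomial.eval_eq_sum_range' hdeg,
        ← Fin.sum_univ_eq_sum_range (fun i => (descPochhammer k (m : ℕ)).coeff i * (n : k) ^ i) d]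
      exact Finset.sum_congr rfl fun i _ => mul_comm _ _
    rw [descPochhammer_eval_eq_descFactorial, Nat.descFactorial_eq_factorial_mul_choose, Nat.cast_mul] at h1
    calc ((n.choose m : ℕ) : k)
        = (((m : ℕ).factorial : ℕ) : k)⁻¹ * ((((m : ℕ).factorial : ℕ) : k) * (n.choose m : ℕ)) := by
          rw [← mul_assoc, inv_mul_cancel₀ hf, one_mul]
      _ = _ := by
          rw [h1, Finset.mul_sum]
          exact Finset.sum_congr rfl fun i _ => by ring
  have hvan : ∀ m, d ≤ m → (Z - 1) ^ m = 0 := fun m hm => pow_eq_zero_of_le hm hZ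
  have hexp : Z ^ n = ∑ m : Fin d, (n.choose m : ℕ) • (Z - 1) ^ (m : ℕ) := by
    conv_lhs => rw [← sub_add_cancel Z 1, (Commute.one_right _).add_pow]
    rw [Fin.sum_univ_eq_sum_range (fun m => (n.choose m) • (Z - 1) ^ m)]
    simp only [one_pow, mul_one]
    have hN : ∀ s : ℕ, ∑ m ∈ Finset.range s, (Z - 1) ^ m * (n.choose m : Matrix (Fin d) (Fin d) k) =
        ∑ m ∈ Finset.range s, (n.choose m) • (Z - 1) ^ m := fun s =>
      Finset.sum_congr rfl fun m _ => by rw [nsmul_eq_mul]; exact ((n.choose m).cast_commute _).eq.symm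
    rw [hN]
    rcases Nat.lt_or_ge n d with h | h
    · refine Finset.sum_subset (fun m hm => ?_) fun m _ hm => ?_
      · rw [Finset.mem_range] at hm ⊢; omega
      · rw [Finset.mem_range] at hm; rw [Nat.choose_eq_zero_of_lt (by omega), zero_smul]
    · refine (Finset.sum_subset (fun m hm => ?_) fun m _ hm => ?_).symm
      · rw [Finset.mem_range] at hm ⊢; omega
      · rw [Finset.mem_range] at hm; rw [hvan m (by omega), smul_zero]
  rw [hexp, Matrix.sum_mulVec]
  simp only [wv, Finset.smul_sum, smul_smul]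
  rw [Finset.sum_comm]
  refine Finset.sum_congr rfl fun m _ => ?_
  rw [← Finset.sum_smul, ← hchoose, ← Nat.cast_smul_eq_nsmul k, Matrix.smul_mulVec]

theorem span_wv (hd : d ≤ p) (hZ : (Z - 1) ^ d = 0) (hu : (Z - 1) ^ (d - 1) *ᵥ u ≠ 0) :
    ⊤ ≤ Submodule.span k (Set.range (wv Z u)) := by
  have hli : LinearIndependent k fun m : Fin d => ((Z - 1) ^ (m : ℕ)) *ᵥ u := by
    rw [Fintype.linearIndependent_iff]
    intro c hc
    have key : ∀ m : ℕ, ∀ hm : m < d, c ⟨m, hm⟩ = 0 := by
      intro m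
      induction m using Nat.strong_induction_on with
      | _ m ih =>
        intro hm
        have h := congrArg (fun v => ((Z - 1) ^ (d - 1 - m)) *ᵥ v) hc
        simp only [Matrix.mulVec_sum, Matrix.mulVec_smul, Matrix.mulVec_mulVec, ← pow_add,
          Matrix.mulVec_zero] at h
        rw [Finset.sum_eq_single ⟨m, hm⟩] at h
        · rw [show d - 1 - m + m = d - 1 by omega] at h
          exact (smul_eq_zero.1 h).resolve_right hu
        · intro b _ hb
          rcases Nat.lt_or_ge (b : ℕ) m with h' | h'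
          · rw [show c b = 0 from ih b h' b.2, zero_smul]
          · have hb' : (b : ℕ) ≠ m := fun e => hb (Fin.ext e)
            rw [pow_eq_zero_of_le (by omega) hZ, Matrix.zero_mulVec, smul_zero]
        · simp
    exact fun i => key i i.2
  have htop := hli.span_eq_top_of_card_eq_finrank' (by simp)
  rw [← htop, Submodule.span_le]
  rintro v ⟨m, rfl⟩
  have hmem : ∀ n : ℕ, (Z ^ n) *ᵥ u ∈ Submodule.span k (Set.range (wv Z u)) := fun n => by
    rw [pow_mulVec_eq Z u hd hZ n]
    exact Submodule.sum_mem _ fun i _ => Submodule.smul_mem _ _ (Submodule.subset_span ⟨i, rfl⟩)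
  show ((Z - 1) ^ (m : ℕ)) *ᵥ u ∈ _
  generalize (m : ℕ) = r
  have : ∀ r n : ℕ, ((Z - 1) ^ r * Z ^ n) *ᵥ u ∈ Submodule.span k (Set.range (wv Z u)) := by
    intro r
    induction r with
    | zero => intro n; rw [pow_zero, one_mul]; exact hmem n
    | succ r ih =>
      intro n
      rw [pow_succ, mul_assoc, sub_mul, one_mul, ← pow_succ', mul_sub, Matrix.sub_mulVec]
      exact Submodule.sub_mem _ (ih _) (ih _)
  simpa using this r 0

/-- A basis whose `i`-th vector is the coefficient of `n ^ i` in `Z ^ n u`. -/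
theorem exists_basis (hd : d ≤ p) (hZ : (Z - 1) ^ d = 0) (hu : (Z - 1) ^ (d - 1) *ᵥ u ≠ 0) :
    ∃ b : Module.Basis (Fin d) k (Fin d → k),
      ∀ n : ℕ, (Z ^ n) *ᵥ u = ∑ i : Fin d, ((n : k) ^ (i : ℕ)) • b i := by
  have hsp := span_wv Z u hd hZ hu
  refine ⟨basisOfTopLeSpanOfCardEqFinrank (wv Z u) hsp (by simp), fun n => ?_⟩
  rw [coe_basisOfTopLeSpanOfCardEqFinrank, pow_mulVec_eq Z u hd hZ n]

end Funcs

open Funcs

/-- The functional `ψ` with `ψ x = φ Z ^ x`, separating, reaching every monomial of degree `< d`. -/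
theorem exists_psi {p : ℕ} [Fact p.Prime] {k : Type*} [Field k] [CharP k p] {d e : ℕ}
    (he : d + e = p) (hd : 1 ≤ d) {L : Type*} [Group L] (τ : L →* Matrix (Fin d) (Fin d) k)
    (act : L →* (ZMod p)ˣ) (hact : ∀ l, act l ^ e = 1)
    (Z : Matrix (Fin d) (Fin d) k) (hZ : (Z - 1) ^ d = 0)
    (hconj : ∀ l, τ l * Z = Z ^ ((act l : ZMod p).val) * τ l)
    (β : L → k) (u : Fin d → k) (hu : ((Z - 1) ^ (d - 1)) *ᵥ u ≠ 0) (huw : ∀ l, τ l *ᵥ u = β l • u) :
    ∃ ψ : ℕ → (Fin d → k),
      (∀ x, ψ x ᵥ* Z = ψ (x + 1)) ∧ (∀ x, ψ (x % p) = ψ x) ∧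
      (∀ l x, ψ ((act l : ZMod p).val * x) ᵥ* τ l = β l • ψ x) ∧
      (∀ v, (∀ x, ψ x ⬝ᵥ v = 0) → v = 0) ∧
      (∀ m, m < d → ∃ v, ∀ x, ψ x ⬝ᵥ v = (x : k) ^ m) := by
  classical
  have hdp : d ≤ p := by omega
  obtain ⟨b, hb⟩ := exists_basis Z u hdp hZ hu
  set top : Fin d := ⟨d - 1, by omega⟩ with htop
  let φ : Fin d → k := fun i => b.repr (Pi.single i 1) top
  have hφ : ∀ v, φ ⬝ᵥ v = b.repr v top := by
    intro v
    conv_rhs => rw [pi_eq_sum_univ' v]
    rw [map_sum, Finsupp.finsetSum_apply]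
    simp only [dotProduct, φ, map_smul, Finsupp.smul_apply, smul_eq_mul]
    exact Finset.sum_congr rfl fun i _ => mul_comm _ _
  -- values on the basis
  have hval : ∀ x : ℕ, ∀ j : Fin d,
      φ ⬝ᵥ ((Z ^ x) *ᵥ b j) = ((d - 1).choose j : k) * (x : k) ^ (d - 1 - (j : ℕ)) := by
    intro x
    suffices h : (fun j : Fin d => φ ⬝ᵥ ((Z ^ x) *ᵥ b j) -
        ((d - 1).choose j : k) * (x : k) ^ (d - 1 - (j : ℕ))) = 0 from
      fun j => sub_eq_zero.1 (congrFun h j)
    refine coeff_unique (p := p) hdp fun y => ?_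
    have h1 : φ ⬝ᵥ ((Z ^ (x + y)) *ᵥ u) = ((x + y : ℕ) : k) ^ (d - 1) := by
      rw [hφ, hb, map_sum, Finsupp.finsetSum_apply]
      simp [Finsupp.single_apply, htop]
    rw [pow_add, ← Matrix.mulVec_mulVec, hb y, Matrix.mulVec_sum, dotProduct_sum, Nat.cast_add,
      add_comm (x : k), add_pow, show d - 1 + 1 = d by omega,
      ← Fin.sum_univ_eq_sum_range (fun i => (y : k) ^ i * (x : k) ^ (d - 1 - i) * ((d - 1).choose i : k))] at h1
    simp only [Matrix.mulVec_smul, dotProduct_smul, smul_eq_mul] at h1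
    rw [← sub_eq_zero, ← Finset.sum_sub_distrib] at h1
    rw [← h1]
    exact Finset.sum_congr rfl fun i _ => by ring
  -- eigenvectors
  have hpp : ∀ (l : L) (y : ℕ), τ l * Z ^ y = Z ^ ((act l : ZMod p).val * y) * τ l := by
    intro l y
    induction y with
    | zero => simp
    | succ y ih =>
      rw [pow_succ, ← mul_assoc, ih, mul_assoc, hconj, ← mul_assoc, ← pow_add, Nat.mul_succ]
  have heig : ∀ (l : L) (j : Fin d),
      τ l *ᵥ b j = (β l * (((act l : ZMod p).val : ℕ) : k) ^ (j : ℕ)) • b j := by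
    intro l
    suffices h : (fun j : Fin d =>
        τ l *ᵥ b j - (β l * (((act l : ZMod p).val : ℕ) : k) ^ (j : ℕ)) • b j) = 0 from
      fun j => sub_eq_zero.1 (congrFun h j)
    refine vec_unique (p := p) hdp fun y => ?_
    have h1 := congrArg (fun M => M *ᵥ u) (hpp l y)
    simp only [← Matrix.mulVec_mulVec, huw, Matrix.mulVec_smul, hb, Matrix.mulVec_sum, Finset.smul_sum,
      smul_smul, Nat.cast_mul, mul_pow] at h1
    rw [← sub_eq_zero, ← Finset.sum_sub_distrib] at h1
    rw [← h1]
    refine Finset.sum_congr rfl fun i _ => ?_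
    rw [smul_sub, smul_smul]
    congr 2
    ring
  have hφτ : ∀ l, φ ᵥ* τ l = β l • φ := by
    intro l
    have h1 : ∀ v, (φ ᵥ* τ l) ⬝ᵥ v = (β l • φ) ⬝ᵥ v := by
      intro v
      rw [← Matrix.dotProduct_mulVec, smul_dotProduct, hφ, hφ, smul_eq_mul]
      conv_lhs => rw [← b.sum_repr v]
      simp only [Matrix.mulVec_sum, Matrix.mulVec_smul, heig, map_sum, map_smul, Finsupp.finsetSum_apply,
        b.repr_self, Finsupp.smul_apply, Finsupp.single_apply, smul_eq_mul, mul_ite, mul_zero, mul_one,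
        Finset.sum_ite_eq', Finset.mem_univ, if_true]
      have ha1 : (act l) ^ (d - 1) = 1 := by
        have h2 : (act l) ^ (d - 1) * (act l) ^ e = 1 := by
          rw [← pow_add, show d - 1 + e = p - 1 by omega]
          exact ZMod.units_pow_card_sub_one_eq_one p (act l)
        rwa [hact, mul_one] at h2
      have ha2 : (((act l : ZMod p).val : ℕ) : k) ^ (d - 1) = 1 := by
        have h2 := congrArg (fun a : (ZMod p)ˣ => ZMod.castHom (dvd_refl p) k (a : ZMod p)) ha1
        simpa [ZMod.natCast_val] using h2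
      rw [show ((top : Fin d) : ℕ) = d - 1 from rfl, ha2, mul_one, mul_comm]
    exact funext fun i => by simpa [dotProduct_single] using h1 (Pi.single i 1)
  have hZp : Z ^ p = 1 := by
    have h : (Z - 1) ^ p = 0 := pow_eq_zero_of_le hdp hZ
    haveI : Nonempty (Fin d) := ⟨top⟩
    rwa [sub_pow_char_of_commute p (Commute.one_right Z), one_pow, sub_eq_zero] at h
  refine ⟨fun x => φ ᵥ* Z ^ x, fun x => by rw [Matrix.vecMul_vecMul, ← pow_succ], fun x => ?_,
    fun l x => ?_, fun v hv => ?_, fun m hm => ?_⟩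
  · change φ ᵥ* Z ^ (x % p) = φ ᵥ* Z ^ x
    rw [← pow_eq_pow_mod x hZp]
  · change φ ᵥ* Z ^ _ ᵥ* τ l = _
    rw [Matrix.vecMul_vecMul, ← hpp, ← Matrix.vecMul_vecMul, hφτ, Matrix.smul_vecMul]
  · rw [← b.sum_repr v] at hv ⊢
    have h0 : (fun j : Fin d => b.repr v (Fin.rev j) * ((d - 1).choose (Fin.rev j : Fin d) : k)) = 0 := by
      refine coeff_unique (p := p) hdp fun x => ?_
      have h1 := hv x
      rw [← Matrix.dotProduct_mulVec, Matrix.mulVec_sum, dotProduct_sum] at h1
      simp only [Matrix.mulVec_smul, dotProduct_smul, hval, smul_eq_mul] at h1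
      rw [← h1, ← Equiv.sum_comp Fin.revPerm]
      refine Finset.sum_congr rfl fun j _ => ?_
      simp only [Fin.revPerm_apply, Fin.rev_rev]
      rw [show ((Fin.rev j : Fin d) : ℕ) = d - 1 - (j : ℕ) by rw [Fin.val_rev]; omega]
      ring
    refine Finset.sum_eq_zero fun j _ => ?_
    have h2 := congrFun h0 (Fin.rev j)
    simp only [Fin.rev_rev, Pi.zero_apply] at h2
    rw [(mul_eq_zero.1 h2).resolve_right ?_, zero_smul]
    rw [CharP.cast_eq_zero_iff k p]
    exact (Nat.Prime.coprime_iff_not_dvd (Fact.out : p.Prime)).1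
      (Nat.Prime.coprime_choose_of_lt (Fact.out : p.Prime) (by omega) (by have := j.2; omega))
  · refine ⟨((((d - 1).choose (d - 1 - m) : ℕ) : k))⁻¹ • b ⟨d - 1 - m, by omega⟩, fun x => ?_⟩
    rw [dotProduct_smul, ← Matrix.dotProduct_mulVec, hval, smul_eq_mul, ← mul_assoc, inv_mul_cancel₀, one_mul]
    · congr 1
      simp only
      omega
    · rw [Ne, CharP.cast_eq_zero_iff k p]
      exact (Nat.Prime.coprime_iff_not_dvd (Fact.out : p.Prime)).1
        (Nat.Prime.coprime_choose_of_lt (Fact.out : p.Prime) (by omega) (by omega))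

/-- Symmetric or antisymmetric eigenvectors in the tensor square killed by the `e`-th power. -/
theorem kernel_count {p : ℕ} [Fact p.Prime] {k : Type*} [Field k] [CharP k p] {d e : ℕ}
    (he : d + e = p) (hd : 2 ≤ d) (hep : e ∣ p - 1) (hp2 : 2 < p)
    {L : Type*} [Group L] [Finite L] (hL : ¬ p ∣ Nat.card L) (τ : L →* Matrix (Fin d) (Fin d) k)
    (act : L →* (ZMod p)ˣ) (hrange : Nat.card act.range = e)
    (Z : Matrix (Fin d) (Fin d) k) (hZ : (Z - 1) ^ d = 0)
    (hconj : ∀ l, τ l * Z = Z ^ ((act l : ZMod p).val) * τ l)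
    (β : L → k) (u : Fin d → k) (hu : ((Z - 1) ^ (d - 1)) *ᵥ u ≠ 0) (huw : ∀ l, τ l *ᵥ u = β l • u)
    (c : ℕ) (odd : Bool) :
    ∃ s : Fin ((((Finset.range e) ×ˢ (Finset.range d)).filter fun q =>
        q.1 + q.2 < d ∧ (q.2 % 2 = if odd then 1 else 0) ∧ e ∣ q.1 + q.2 + c).card) → (Fin d × Fin d → k),
      LinearIndependent k s ∧ ∀ n, (∀ i j, s n (j, i) = (if odd then -1 else 1) * s n (i, j)) ∧
        (∀ l, Matrix.kronecker (τ l) (τ l) *ᵥ s n = (β l ^ 2 * (((act l : ZMod p).val : k)) ^ c) • s n) ∧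
        ((Matrix.kronecker Z Z - 1) ^ e) *ᵥ s n = 0 := by
  classical
  have _ := hep
  have _ := hL
  have hp : p.Prime := Fact.out
  have hdp : d ≤ p := by omega
  have h2 : (2 : k) ≠ 0 := fun h => by
    have h' : ((2 : ℕ) : k) = 0 := by simpa using h
    rw [CharP.cast_eq_zero_iff k p] at h'
    exact absurd (Nat.le_of_dvd (by norm_num) h') (by omega)
  have hact : ∀ l, act l ^ e = 1 := by
    intro l
    have h := pow_card_eq_one' (x := (⟨act l, l, rfl⟩ : act.range))
    rw [hrange] at h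
    exact congrArg Subtype.val h
  obtain ⟨ψ, hψZ, hψp, hψτ, hsep, hmon⟩ := exists_psi he (by omega) τ act hact Z hZ hconj β u hu huw
  -- evaluation of a tensor
  let E : (Fin d × Fin d → k) →ₗ[k] (ℕ × ℕ → k) :=
    { toFun := fun F xy => ∑ ij : Fin d × Fin d, ψ xy.1 ij.1 * ψ xy.2 ij.2 * F ij
      map_add' := fun F G => funext fun xy => by
        simp only [Pi.add_apply, mul_add, Finset.sum_add_distrib]
      map_smul' := fun a F => funext fun xy => by
        simp only [Pi.smul_apply, smul_eq_mul, RingHom.id_apply, Finset.mul_sum]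
        exact Finset.sum_congr rfl fun i _ => by ring }
  have hE₀ : ∀ F x y, E F (x, y) = ∑ ij : Fin d × Fin d, ψ x ij.1 * ψ y ij.2 * F ij := fun _ _ _ => rfl
  have hE : ∀ F x y, E F (x, y) = ∑ i : Fin d, ψ x i * (ψ y ⬝ᵥ fun j => F (i, j)) := by
    intro F x y
    rw [hE₀, Fintype.sum_prod_type]
    simp only [dotProduct, Finset.mul_sum, mul_assoc]
  have hEinj : ∀ F, (∀ x y, E F (x, y) = 0) → F = 0 := by
    intro F hF
    have h1 : ∀ y, (fun i => ψ y ⬝ᵥ fun j => F (i, j)) = (0 : Fin d → k) := fun y =>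
      hsep _ fun x => (hE F x y).symm.trans (hF x y)
    funext ij
    exact congrFun (hsep (fun j => F (ij.1, j)) fun y => congrFun (h1 y) ij.1) ij.2
  have hkron : ∀ (A : Matrix (Fin d) (Fin d) k) F x y,
      E (Matrix.kronecker A A *ᵥ F) (x, y) =
        ∑ ij : Fin d × Fin d, (ψ x ᵥ* A) ij.1 * (ψ y ᵥ* A) ij.2 * F ij := by
    intro A F x y
    have h := Matrix.dotProduct_mulVec (fun ij : Fin d × Fin d => ψ x ij.1 * ψ y ij.2)
      (Matrix.kronecker A A) F
    rw [hE₀]
    refine (h.trans (Finset.sum_congr rfl fun ij _ => ?_))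
    congr 1
    simp only [Matrix.vecMul, dotProduct, Matrix.kronecker, Matrix.kroneckerMap_apply,
      Fintype.sum_prod_type, Finset.sum_mul_sum]
    exact Finset.sum_congr rfl fun i _ => Finset.sum_congr rfl fun j _ => by ring
  have hEZ : ∀ F x y, E (Matrix.kronecker Z Z *ᵥ F) (x, y) = E F (x + 1, y + 1) := fun F x y => by
    rw [hkron, hψZ, hψZ, hE₀]
  have hEτ : ∀ l F x y, E (Matrix.kronecker (τ l) (τ l) *ᵥ F)
      ((act l : ZMod p).val * x, (act l : ZMod p).val * y) = β l ^ 2 * E F (x, y) := fun l F x y => by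
    rw [hkron, hψτ, hψτ, hE₀, Finset.mul_sum]
    exact Finset.sum_congr rfl fun i _ => by simp only [Pi.smul_apply, smul_eq_mul]; ring
  have hEswap : ∀ F x y, E (fun ij => F (ij.2, ij.1)) (x, y) = E F (y, x) := by
    intro F x y
    rw [hE₀, hE₀]
    refine Fintype.sum_equiv (Equiv.prodComm _ _) _ _ fun ij => ?_
    simp only [Equiv.prodComm_apply, Prod.fst_swap, Prod.snd_swap, Prod.swap]
    ring
  -- preimages
  let P : ℕ → ℕ → (ℕ × ℕ → k) := fun i j xy =>
    ((xy.1 : k) + (xy.2 : k)) ^ i * ((xy.1 : k) - (xy.2 : k)) ^ j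
  have hrangeP : ∀ i j, i + j < d → P i j ∈ LinearMap.range E := by
    intro i j hij
    have hM : ∀ m n, m < d → n < d →
        (fun xy : ℕ × ℕ => (xy.1 : k) ^ m * (xy.2 : k) ^ n) ∈ LinearMap.range E := by
      intro m n hm hn
      obtain ⟨v, hv⟩ := hmon m hm
      obtain ⟨w, hw⟩ := hmon n hn
      refine ⟨fun ij => v ij.1 * w ij.2, funext fun xy => ?_⟩
      change (∑ ij : Fin d × Fin d, _) = _
      rw [← hv, ← hw, dotProduct, dotProduct, Finset.sum_mul_sum, Fintype.sum_prod_type]
      exact Finset.sum_congr rfl fun i _ => Finset.sum_congr rfl fun j _ => by ring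
    have hexp : P i j = ∑ m ∈ Finset.range (i + 1), ∑ n ∈ Finset.range (j + 1),
        ((i.choose m : k) * (j.choose n : k) * (-1) ^ (j - n)) •
          fun xy : ℕ × ℕ => (xy.1 : k) ^ (m + n) * (xy.2 : k) ^ (i - m + (j - n)) := by
      funext xy
      simp only [P, add_pow, sub_eq_add_neg, Finset.sum_mul_sum, Finset.sum_apply, Pi.smul_apply,
        smul_eq_mul]
      refine Finset.sum_congr rfl fun m _ => Finset.sum_congr rfl fun n _ => ?_
      rw [neg_pow, pow_add, pow_add]
      ring
    rw [hexp]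
    refine Submodule.sum_mem _ fun m hm => Submodule.sum_mem _ fun n hn =>
      Submodule.smul_mem _ _ (hM _ _ ?_ ?_)
    all_goals (rw [Finset.mem_range] at hm hn; omega)
  have hpre : ∀ q : ℕ × ℕ, ∃ F, q.1 + q.2 < d → E F = P q.1 q.2 := by
    intro q
    by_cases hq : q.1 + q.2 < d
    · obtain ⟨F, hF⟩ := hrangeP q.1 q.2 hq
      exact ⟨F, fun _ => hF⟩
    · exact ⟨0, fun h => absurd h hq⟩
  choose pre hpre using hpre
  have hkill : ∀ m i j, i < m → i + j < d →
      ((Matrix.kronecker Z Z - 1) ^ m) *ᵥ pre (i, j) = 0 := by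
    intro m
    induction m with
    | zero => intro i j hi; omega
    | succ m ih =>
      intro i j hi hij
      have hstep : (Matrix.kronecker Z Z - 1) *ᵥ pre (i, j) =
          ∑ t ∈ Finset.range i, ((i.choose t : k) * 2 ^ (i - t)) • pre (t, j) := by
        refine sub_eq_zero.1 (hEinj _ fun x y => ?_)
        rw [map_sub, Pi.sub_apply, Matrix.sub_mulVec, Matrix.one_mulVec, map_sub, Pi.sub_apply, hEZ,
          hpre _ hij, map_sum, Finset.sum_apply]
        have hs : ∀ t ∈ Finset.range i,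
            E (((i.choose t : k) * 2 ^ (i - t)) • pre (t, j)) (x, y) =
              (((x : k) + y) ^ t * 2 ^ (i - t) * (i.choose t : k)) * ((x : k) - y) ^ j := by
          intro t ht
          rw [Finset.mem_range] at ht
          rw [map_smul, Pi.smul_apply, hpre _ (show t + j < d by omega), smul_eq_mul]
          simp only [P]
          ring
        rw [Finset.sum_congr rfl hs, ← Finset.sum_mul]
        simp only [P, Nat.cast_add, Nat.cast_one]
        rw [show ((x : k) + 1 + ((y : k) + 1)) = ((x : k) + y) + 2 by ring, add_pow, Finset.sum_range_succ,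
          Nat.sub_self, Nat.choose_self]
        ring
      rw [pow_succ, ← Matrix.mulVec_mulVec, hstep, Matrix.mulVec_sum]
      refine Finset.sum_eq_zero fun t ht => ?_
      rw [Finset.mem_range] at ht
      rw [Matrix.mulVec_smul, ih t j (by omega) (by omega), smul_zero]
  -- the family
  set T := ((Finset.range e) ×ˢ (Finset.range d)).filter fun q =>
    q.1 + q.2 < d ∧ (q.2 % 2 = if odd then 1 else 0) ∧ e ∣ q.1 + q.2 + c with hT
  let g : Fin T.card → ℕ × ℕ := fun n => ((T.equivFin.symm n : T) : ℕ × ℕ)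
  have hg : Function.Injective g := Subtype.val_injective.comp T.equivFin.symm.injective
  have hmem : ∀ n, ((g n).1 < e ∧ (g n).2 < d) ∧ ((g n).1 + (g n).2 < d ∧
      ((g n).2 % 2 = if odd then 1 else 0) ∧ e ∣ (g n).1 + (g n).2 + c) := by
    intro n
    have h := (T.equivFin.symm n).2
    change g n ∈ T at h
    simp only [hT, Finset.mem_filter, Finset.mem_product, Finset.mem_range] at h
    exact h
  refine ⟨fun n => pre (g n), ?_, fun n => ?_⟩
  · rw [Fintype.linearIndependent_iff]
    intro a ha n₀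
    have hP : ∀ x y : ℕ, ∑ n, a n * P (g n).1 (g n).2 (x, y) = 0 := by
      intro x y
      have h := congrFun (congrArg E ha) (x, y)
      simp only [map_sum, map_smul, map_zero, Finset.sum_apply, Pi.smul_apply, Pi.zero_apply,
        smul_eq_mul, fun n => hpre _ (hmem n).2.1] at h
      exact h
    let C : Fin d → Fin d → k := fun i j => ∑ n, if g n = ((i : ℕ), (j : ℕ)) then a n else 0
    have hC : ∀ U V : ℕ, ∑ j : Fin d, (∑ i : Fin d, C i j * (U : k) ^ (i : ℕ)) * (V : k) ^ (j : ℕ) = 0 := by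
      intro U V
      set h := (p + 1) / 2 with hh
      have hhalf : (2 : k) * (h : k) = 1 := by
        have hodd : p % 2 = 1 := hp.eq_two_or_odd.resolve_left (by omega)
        have : ((2 * h : ℕ) : k) = ((p + 1 : ℕ) : k) := by congr 1; omega
        simpa [Nat.cast_mul, CharP.cast_eq_zero] using this
      have h1 := hP (h * (U + V)) (h * (U + (p - 1) * V))
      have hx : ((h * (U + V) : ℕ) : k) + ((h * (U + (p - 1) * V) : ℕ) : k) = U := by
        push_cast [Nat.cast_sub hp.one_le, CharP.cast_eq_zero k p]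
        linear_combination (U : k) * hhalf
      have hy : ((h * (U + V) : ℕ) : k) - ((h * (U + (p - 1) * V) : ℕ) : k) = V := by
        push_cast [Nat.cast_sub hp.one_le, CharP.cast_eq_zero k p]
        linear_combination (V : k) * hhalf
      simp only [P, hx, hy] at h1
      rw [← h1]
      simp only [C, Finset.sum_mul, ite_mul, zero_mul]
      rw [Finset.sum_comm]
      rw [Finset.sum_comm]
      rw [Finset.sum_congr rfl fun j _ => Finset.sum_comm, Finset.sum_comm]
      refine Finset.sum_congr rfl fun n _ => ?_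
      rw [Finset.sum_eq_single ⟨(g n).2, (hmem n).1.2⟩, Finset.sum_eq_single ⟨(g n).1, by have := (hmem n).2.1; omega⟩]
      · simp only [if_true]; ring
      · intro i _ hi
        rw [if_neg]
        intro h
        exact hi (Fin.ext (congrArg Prod.fst h).symm)
      · simp
      · intro j _ hj
        refine Finset.sum_eq_zero fun i _ => ?_
        rw [if_neg]
        intro h
        exact hj (Fin.ext (congrArg Prod.snd h).symm)
      · simp
    have hC0 : ∀ i j, C i j = 0 := by
      intro i j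
      have h1 : ∀ U : ℕ, ∑ i : Fin d, C i j * (U : k) ^ (i : ℕ) = 0 := fun U =>
        congrFun (coeff_unique (p := p) hdp fun V => hC U V) j
      exact congrFun (coeff_unique (p := p) hdp (c := fun i => C i j) h1) i
    have h0 := hC0 ⟨(g n₀).1, by have := (hmem n₀).2.1; omega⟩ ⟨(g n₀).2, (hmem n₀).1.2⟩
    simp only [C, Prod.mk.eta] at h0
    rw [Finset.sum_eq_single n₀] at h0
    · simpa using h0
    · intro m _ hm; rw [if_neg fun h => hm (hg h)]
    · simp
  · obtain ⟨⟨hie, -⟩, hij, hpar, hdvd⟩ := hmem n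
    set i := (g n).1 with hi
    set j := (g n).2 with hj
    have hF : E (pre (g n)) = P i j := hpre _ hij
    refine ⟨?_, fun l => ?_, ?_⟩
    · have hsign : ((-1 : k)) ^ j = if odd then -1 else 1 := by
        rw [neg_one_pow_eq_pow_mod_two, hpar]; cases odd <;> simp
      have h : (fun ij => pre (g n) (ij.2, ij.1)) = (if odd then (-1 : k) else 1) • pre (g n) := by
        refine sub_eq_zero.1 (hEinj _ fun x y => ?_)
        rw [map_sub, Pi.sub_apply, hEswap, map_smul, Pi.smul_apply, hF, ← hsign, smul_eq_mul]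
        simp only [P]
        rw [show (y : k) - x = (-1) * ((x : k) - y) by ring, mul_pow]
        ring
      intro a b
      exact congrFun h (a, b)
    · refine sub_eq_zero.1 (hEinj _ fun x y => ?_)
      set a := (act l : ZMod p).val with hadef
      obtain ⟨t, ht⟩ : ∃ t : ℕ, (a * t) % p = 1 % p := by
        refine ⟨(((act l)⁻¹ : (ZMod p)ˣ) : ZMod p).val, ?_⟩
        rw [← ZMod.val_natCast, ← ZMod.val_natCast]
        congr 1
        rw [Nat.cast_mul, hadef, ZMod.natCast_zmod_val, ZMod.natCast_zmod_val, Units.mul_inv, Nat.cast_one]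
      have hper : ∀ F x y, E F (x, y) = E F (x % p, y % p) := fun F x y => by
        rw [hE₀, hE₀, hψp, hψp]
      have hx : ∀ z, (a * (t * z)) % p = z % p := fun z => by
        rw [← mul_assoc, Nat.mul_mod, ht, ← Nat.mul_mod, one_mul]
      rw [hper, ← hx x, ← hx y, ← hper, map_sub, Pi.sub_apply, hEτ, map_smul, Pi.smul_apply, hF,
        smul_eq_mul]
      simp only [P]
      have hac : (a : k) ^ c * (a : k) ^ (i + j) = 1 := by
        obtain ⟨r, hr⟩ := hdvd
        rw [← pow_add, show c + (i + j) = e * r by omega, pow_mul]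
        have h3 := congrArg (fun b : (ZMod p)ˣ => ZMod.castHom (dvd_refl p) k (b : ZMod p)) (hact l)
        simp only [Units.val_pow_eq_pow_val, map_pow, Units.val_one, map_one] at h3
        rw [show (a : k) = ZMod.castHom (dvd_refl p) k (act l : ZMod p) by
          rw [hadef, ZMod.natCast_val, ZMod.castHom_apply], h3, one_pow]
      rw [sub_eq_zero]
      push_cast
      rw [show (a : k) * ((t : k) * x) + (a : k) * ((t : k) * y) = (a : k) * ((t : k) * x + (t : k) * y) by ring,
        show (a : k) * ((t : k) * x) - (a : k) * ((t : k) * y) = (a : k) * ((t : k) * x - (t : k) * y) by ring,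
        mul_pow, mul_pow]
      rw [pow_add] at hac
      linear_combination (-(β l ^ 2 * (((t : k) * x + (t : k) * y) ^ i) * (((t : k) * x - (t : k) * y) ^ j))) * hac
    · exact hkill e i j hie hij

end Cfsg.Agent.H40.SmallDeg
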