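import Mathlib
import Cfsg.Agent.H26.CharOrtho

/-!
Intertwiners out of pairwise distinct irreducible matrix representations.
-/

set_option autoImplicit false
set_option linter.unusedSectionVars false

namespace Cfsg.Agent.H40.SmallDeg

open Matrix
open scoped ComplexConjugate

attribute [local instance] Fintype.ofFinite Classical.propDecidable

variable {G : Type*} [Group G] [Finite G] {d : ℕ} {ι : Type*} [Fintype ι] [DecidableEq ι]

/-- An intertwiner out of an irreducible representation killing a nonzero vector vanishes. -/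
theorem eq_zero_of_mulVec_eq_zero (A : G →* Matrix (Fin d) (Fin d) ℂ)
    (hschur : ∀ Φ : Matrix (Fin d) (Fin d) ℂ, (∀ g, Commute Φ (A g)) → ∃ c : ℂ, Φ = c • 1)
    (B : G →* Matrix ι ι ℂ) {Ψ : Matrix ι (Fin d) ℂ} (hΨ : ∀ g, B g * Ψ = Ψ * A g)
    {w : Fin d → ℂ} (hw : w ≠ 0) (h0 : Ψ *ᵥ w = 0) : Ψ = 0 := by
  obtain ⟨i₀, hi₀⟩ : ∃ i, w i ≠ 0 := Function.ne_iff.1 hw
  set φ : Fin d → ℂ := Pi.single i₀ (w i₀)⁻¹ with hφ
  set X : Matrix (Fin d) (Fin d) ℂ := Matrix.vecMulVec w φ with hX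
  set M : Matrix (Fin d) (Fin d) ℂ := ∑ g : G, A g * X * A g⁻¹ with hM
  have hcomm : ∀ h, Commute M (A h) := by
    intro h
    show M * A h = A h * M
    rw [hM, Finset.sum_mul, Finset.mul_sum]
    refine (Fintype.sum_equiv (Equiv.mulLeft h) _ _ fun g => ?_).symm
    show A h * (A g * X * A g⁻¹) = A (h * g) * X * A (h * g)⁻¹ * A h
    rw [mul_assoc (A (h * g) * X), ← map_mul A (h * g)⁻¹ h,
      show (h * g)⁻¹ * h = g⁻¹ by group, map_mul]
    simp only [mul_assoc]
  obtain ⟨c, hc⟩ := hschur M hcomm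
  have htrX : X.trace = 1 := by
    rw [hX, Matrix.trace_vecMulVec, hφ, dotProduct, Finset.sum_eq_single i₀
      (fun b _ hb => by rw [Pi.single_eq_of_ne hb, mul_zero])
      (fun h => absurd (Finset.mem_univ _) h), Pi.single_eq_same, mul_inv_cancel₀ hi₀]
  have htr : c * (d : ℂ) = (Nat.card G : ℂ) := by
    have h := congrArg Matrix.trace hc
    rw [hM, Matrix.trace_sum, Finset.sum_congr rfl fun g _ => show (A g * X * A g⁻¹).trace = 1 by
      rw [Matrix.trace_mul_comm, ← mul_assoc, ← map_mul, inv_mul_cancel, map_one, one_mul, htrX],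
      Finset.sum_const, Finset.card_univ, nsmul_eq_mul, mul_one, Matrix.trace_smul,
      Matrix.trace_one, Fintype.card_fin, smul_eq_mul, ← Nat.card_eq_fintype_card] at h
    exact h.symm
  have hc0 : c ≠ 0 := fun h => by
    rw [h, zero_mul] at htr
    exact Nat.cast_ne_zero.2 Nat.card_pos.ne' htr.symm
  have hzero : Ψ * M = 0 := by
    rw [hM, Matrix.mul_sum]
    refine Finset.sum_eq_zero fun g _ => ?_
    rw [← Matrix.mul_assoc, ← Matrix.mul_assoc, ← hΨ, Matrix.mul_assoc (B g), hX,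
      Matrix.mul_vecMulVec, h0]
    ext i j
    simp [Matrix.mul_apply, Matrix.vecMulVec_apply]
  rw [hc, Matrix.mul_smul, Matrix.mul_one, smul_eq_zero] at hzero
  exact hzero.resolve_left hc0

/-- The images of intertwiners out of distinct irreducible representations are independent. -/
theorem images_independent {κ : Type*} [Fintype κ] (θ : κ → Cfsg.IrrCharacter G)
    (hθ : Function.Injective θ) (A : κ → (G →* Matrix (Fin d) (Fin d) ℂ))
    (htr : ∀ q g, (A q g).trace = (θ q).1 g)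
    (hschur : ∀ q, ∀ Φ : Matrix (Fin d) (Fin d) ℂ, (∀ g, Commute Φ (A q g)) → ∃ c : ℂ, Φ = c • 1)
    (B : G →* Matrix ι ι ℂ) (Ψ : κ → Matrix ι (Fin d) ℂ)
    (hΨ : ∀ q g, B g * Ψ q = Ψ q * A q g) (w : κ → (Fin d → ℂ))
    (h : ∑ q, Ψ q *ᵥ w q = 0) (q : κ) : Ψ q *ᵥ w q = 0 := by
  set M : κ → Matrix (Fin d) (Fin d) ℂ := fun r => ∑ g : G, conj ((θ q).1 g) • A r g with hM
  have hcomm : ∀ r h, Commute (M r) (A r h) := by
    intro r h
    show M r * A r h = A r h * M r
    simp only [hM, Finset.sum_mul, Finset.mul_sum]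
    refine (Fintype.sum_equiv (MulAut.conj h).toEquiv _ _ fun g => ?_).symm
    show A r h * (conj ((θ q).1 g) • A r g) =
      conj ((θ q).1 (h * g * h⁻¹)) • A r (h * g * h⁻¹) * A r h
    rw [H26.irr_conj, Matrix.mul_smul, Matrix.smul_mul, ← map_mul, ← map_mul]
    simp [mul_assoc]
  choose c hc using fun r => hschur r (M r) (hcomm r)
  have hd : ∀ r, c r * (d : ℂ) = if r = q then (Nat.card G : ℂ) else 0 := by
    intro r
    have h1 := congrArg Matrix.trace (hc r)
    rw [hM, Matrix.trace_sum, Matrix.trace_smul, Matrix.trace_one, Fintype.card_fin,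
      smul_eq_mul] at h1
    rw [← h1]
    have h2 := H26.classInner_irr (θ r) (θ q)
    rw [Cfsg.classInner] at h2
    simp only [hθ.eq_iff] at h2
    have hG : (Nat.card G : ℂ) ≠ 0 := Nat.cast_ne_zero.2 Nat.card_pos.ne'
    rw [inv_mul_eq_iff_eq_mul₀ hG, mul_ite, mul_one, mul_zero] at h2
    rw [← h2]
    refine Finset.sum_congr rfl fun g _ => ?_
    rw [Matrix.trace_smul, htr, smul_eq_mul, mul_comm]
  have hC : ∀ r, (∑ g : G, conj ((θ q).1 g) • B g) * Ψ r = c r • Ψ r := by
    intro r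
    rw [Matrix.sum_mul, Finset.sum_congr rfl fun g _ => show
        (conj ((θ q).1 g) • B g) * Ψ r = Ψ r * (conj ((θ q).1 g) • A r g) by
      rw [Matrix.smul_mul, hΨ, Matrix.mul_smul], ← Matrix.mul_sum]
    show Ψ r * M r = _
    rw [hc, Matrix.mul_smul, Matrix.mul_one]
  have h1 := congrArg (fun v => (∑ g : G, conj ((θ q).1 g) • B g) *ᵥ v) h
  simp only [Matrix.mulVec_sum, Matrix.mulVec_mulVec, hC, Matrix.smul_mulVec,
    Matrix.mulVec_zero] at h1
  have hz : ∀ r, r ≠ q → c r • (Ψ r *ᵥ w r) = 0 := by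
    intro r hr
    rcases Nat.eq_zero_or_pos d with hd0 | hd0
    · subst hd0
      rw [show w r = 0 from Subsingleton.elim _ _, Matrix.mulVec_zero, smul_zero]
    · have := hd r
      rw [if_neg hr, mul_eq_zero] at this
      rw [this.resolve_right (Nat.cast_ne_zero.2 hd0.ne'), zero_smul]
  rw [Finset.sum_eq_single q (fun r _ hr => hz r hr) (fun h => absurd (Finset.mem_univ _) h),
    smul_eq_zero] at h1
  refine h1.resolve_left fun h0 => ?_
  have := hd q
  rw [if_pos rfl, h0, zero_mul] at this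
  exact Nat.cast_ne_zero.2 Nat.card_pos.ne' this.symm

end Cfsg.Agent.H40.SmallDeg
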