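import Mathlib
import Cfsg.Agent.H43.D1.SmallDegree

/-!
# Centrality from a module with a short Jordan chain
-/

set_option autoImplicit false
set_option maxHeartbeats 1600000
set_option linter.unusedSectionVars false

namespace Cfsg.Agent.H40.SmallDeg

open Module Cfsg.Agent.H43.D1

variable {k : Type*} [Field k] {G : Type*} [Group G] [Fintype G] {p : ℕ} [hp : Fact p.Prime]
  [CharP k p] {U : Type*} [AddCommGroup U] [Module k U] [FiniteDimensional k U]

theorem adjRep_delta_pow_nil (ρ : G →* Module.End k U) {x : G} (hx : orderOf x = p) {r : ℕ}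
    (hr : delta ρ x ^ r = 0) (hr2 : 2 * r ≤ p) : delta (adjRep ρ) x ^ (p - 1) = 0 := by
  set l := LinearMap.mulLeft k (delta ρ x) with hl
  set R := LinearMap.mulRight k (delta ρ x⁻¹) with hR0
  have hinvr : delta ρ x⁻¹ ^ r = 0 := by
    have e : delta ρ x⁻¹ = -ρ x⁻¹ * delta ρ x := by
      simp only [delta, mul_sub, mul_one, neg_mul, ← map_mul, inv_mul_cancel, map_one]
      abel
    have hc : Commute (-ρ x⁻¹) (delta ρ x) :=
      ((((Commute.refl x).inv_left).map ρ).sub_right (Commute.one_right _)).neg_left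
    rw [e, hc.mul_pow, hr, mul_zero]
  have hR : Commute l (LinearMap.mulRight k (ρ x⁻¹)) := LinearMap.commute_mulLeft_right _ _
  have hsum : delta (adjRep ρ) x = l * LinearMap.mulRight k (ρ x⁻¹) + R := by
    refine LinearMap.ext fun a => ?_
    show ρ x * a * ρ x⁻¹ - a = (ρ x - 1) * (a * ρ x⁻¹) + a * (ρ x⁻¹ - 1)
    simp only [sub_mul, mul_sub, one_mul, mul_one, mul_assoc]
    abel
  have hlr : Commute l R := LinearMap.commute_mulLeft_right _ _
  have hRr : Commute (LinearMap.mulRight k (ρ x⁻¹)) R := by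
    refine LinearMap.ext fun a => ?_
    show a * delta ρ x⁻¹ * ρ x⁻¹ = a * ρ x⁻¹ * delta ρ x⁻¹
    simp only [delta, mul_assoc, sub_mul, mul_sub, mul_one]
  rw [hsum]
  refine (hlr.mul_left hRr).add_pow_eq_zero_of_add_le_succ_of_pow_eq_zero
    (m := r) (n := r) ?_ ?_ (by omega)
  · rw [hR.mul_pow, hl, LinearMap.pow_mulLeft, hr, LinearMap.mulLeft_zero_eq_zero,
      zero_mul]
  · rw [hR0, LinearMap.pow_mulRight, hinvr, LinearMap.mulRight_zero_eq_zero]


theorem delta_restrict_pow (ρ : G →* Module.End k U) (Y : Submodule k U)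
    (hY : ∀ g, ∀ z ∈ Y, ρ g z ∈ Y) {x : G} {r : ℕ} (hr : delta ρ x ^ r = 0) :
    delta (restrictRep ρ Y hY) x ^ r = 0 := by
  have e : ∀ (j : ℕ) (z : Y), (((delta (restrictRep ρ Y hY) x ^ j) z : Y) : U) =
      (delta ρ x ^ j) (z : U) := by
    intro j
    induction j with
    | zero => intro z; simp
    | succ j ihj =>
      intro z
      rw [pow_succ', pow_succ', Module.End.mul_apply, Module.End.mul_apply, ← ihj]
      rfl
  exact LinearMap.ext fun z => Subtype.ext (by rw [e, hr]; simp)

/-- An operator of the centralizer of `x` is scalar on an irreducible module with a short chain. -/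
theorem scalar_of_nil [IsAlgClosed k] (S : Setup p G) (ρ : G →* Module.End k U) (hρ : IsIrred ρ)
    {r : ℕ} (hr : delta ρ S.x ^ r = 0) (hr2 : 2 * r ≤ p) (hdp : finrank k U < p) (hgen : ∀ H : Subgroup G, H.Normal → S.x ∈ H → H = ⊤)
    (V : Subgroup S.L) (hV : ∀ v ∈ V, Commute (v : G) S.x) [V.Normal] (v : V) :
    ∃ c : k, ρ ((v : S.L) : G) = c • 1 := by
  classical
  have := hρ.1
  let _ : Fintype S.L := Fintype.ofFinite _
  have hd0 : 0 < finrank k U := finrank_pos
  set α := adjRep ρ
  set δ := delta α S.x with hδ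
  set D := LinearMap.range δ with hD
  have hm : (Nat.card S.L : k) ≠ 0 := fun h =>
    S.not_dvd ((CharP.cast_eq_zero_iff k p _).1 h)
  have hVp : ¬ p ∣ Nat.card V := fun h => S.not_dvd (h.trans V.card_subgroup_dvd_card)
  set φ : V →* Module.End k U := ρ.comp (S.L.subtype.comp V.subtype)
  set B := Submodule.span k (Set.range φ) with hB
  have hBx : ∀ b ∈ B, ρ S.x * b = b * ρ S.x := by
    intro b hb
    induction hb using Submodule.span_induction with
    | mem a ha =>
      obtain ⟨w, rfl⟩ := ha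
      exact (((hV w w.2).map ρ).symm : Commute (ρ S.x) (φ w)).eq
    | zero => simp
    | add a b _ _ ha hb => rw [mul_add, add_mul, ha, hb]
    | smul c a _ ha => rw [mul_smul_comm, smul_mul_assoc, ha]
  have hBmul : ∀ a ∈ B, ∀ b ∈ B, a * b ∈ B := by
    intro a ha b hb
    induction ha using Submodule.span_induction with
    | mem a ha =>
      obtain ⟨w, rfl⟩ := ha
      induction hb using Submodule.span_induction with
      | mem b hb =>
        obtain ⟨w', rfl⟩ := hb
        exact Submodule.subset_span ⟨w * w', map_mul φ w w'⟩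
      | zero => rw [mul_zero]; exact B.zero_mem
      | add a b _ _ ha hb => rw [mul_add]; exact B.add_mem ha hb
      | smul c a _ ha => rw [mul_smul_comm]; exact B.smul_mem c ha
    | zero => rw [zero_mul]; exact B.zero_mem
    | add a b _ _ ha hb => rw [add_mul]; exact B.add_mem ha hb
    | smul c a _ ha => rw [smul_mul_assoc]; exact B.smul_mem c ha
  have hB1 : (1 : Module.End k U) ∈ B := Submodule.subset_span ⟨1, map_one φ⟩
  have hBD : ∀ b ∈ B, b ∈ D → b = 0 := by
    rintro b hb ⟨a, ha⟩
    refine eq_zero_of_trace_form hVp φ (by omega) hb fun b' hb' => ?_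
    have hbb := hBx _ (hBmul b' hb' b hb)
    have h1 : LinearMap.trace k U (b' * b * ρ S.x) = 0 := by
      have e : b * ρ S.x = ρ S.x * a - a * ρ S.x := by
        rw [← ha, hδ, delta, LinearMap.sub_apply, Module.End.one_apply, sub_mul, adjRep_apply,
          mul_assoc (ρ S.x * a), ← map_mul, inv_mul_cancel, map_one, mul_one]
      rw [mul_assoc, e, mul_sub, map_sub, ← mul_assoc, ← hBx b' hb', mul_assoc,
        LinearMap.trace_mul_comm k (ρ S.x), mul_assoc, sub_self]
    have h2 : IsNilpotent (b' * b * (ρ S.x - 1)) := by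
      refine Commute.isNilpotent_mul_left ?_ ⟨p, delta_pow_eq_zero ρ S.orderOf_x⟩
      exact (Commute.sub_right (Commute.symm hbb) (Commute.one_right _))
    have h3 := (LinearMap.isNilpotent_trace_of_isNilpotent h2).eq_zero
    rw [mul_sub, mul_one, map_sub, h1, zero_sub, neg_eq_zero] at h3
    exact h3
  have hBL : ∀ l : S.L, ∀ b ∈ B, α (l : G) b ∈ B := by
    intro l b hb
    induction hb using Submodule.span_induction with
    | mem a ha =>
      obtain ⟨w, rfl⟩ := ha
      refine Submodule.subset_span ⟨MulAut.conjNormal l w, ?_⟩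
      show ρ ((l : G) * ((w : S.L) : G) * (l : G)⁻¹) = _
      rw [map_mul, map_mul, adjRep_apply]
      rfl
    | zero => rw [map_zero]; exact B.zero_mem
    | add a b _ _ ha hb => rw [map_add]; exact B.add_mem ha hb
    | smul c a _ ha => rw [map_smul]; exact B.smul_mem c ha
  have hDinv : ∀ l ∈ S.L, ∀ d ∈ D, α l d ∈ D := by
    rintro l hl _ ⟨w, rfl⟩
    have h : α l (δ w) = α (l * S.x * l⁻¹) (α l w) - α l w := by
      rw [← Module.End.mul_apply (α (l * S.x * l⁻¹)), ← map_mul, inv_mul_cancel_right, map_mul,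
        Module.End.mul_apply, hδ, delta, LinearMap.sub_apply, Module.End.one_apply, map_sub]
    rw [h]
    exact sub_mem_range α (S.le_norm l hl) _
  -- an equivariant projection on `B` killing `D`
  obtain ⟨π₀, hπ0B, hπ0D, hπ0mem⟩ : ∃ π₀ : Module.End k (Module.End k U),
      (∀ b ∈ B, π₀ b = b) ∧ (∀ d ∈ D, π₀ d = 0) ∧ ∀ a, π₀ a ∈ B := by
    have hdisj : Disjoint B D := Submodule.disjoint_def.2 hBD
    obtain ⟨C, hC⟩ := Submodule.exists_isCompl (B ⊔ D)
    have hcompl : IsCompl B (D ⊔ C) := by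
      constructor
      · exact Disjoint.disjoint_sup_right_of_disjoint_sup_left hdisj hC.disjoint
      · rw [codisjoint_iff, ← sup_assoc]; exact hC.codisjoint.eq_top
    exact ⟨B.subtype ∘ₗ B.projectionOnto (D ⊔ C) hcompl,
      fun b hb => congrArg Subtype.val (Submodule.projectionOnto_apply_of_mem_left hcompl hb),
      fun d hd => congrArg Subtype.val (Submodule.projectionOnto_apply_of_mem_right hcompl
        (Submodule.mem_sup_left hd)),
      fun a => (B.projectionOnto (D ⊔ C) hcompl a).2⟩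
  set E1 : Module.End k (Module.End k U) :=
    (Nat.card S.L : k)⁻¹ • ∑ l : S.L, α (l : G) * π₀ * α (l : G)⁻¹ with hE1
  have hE1mem : ∀ a, E1 a ∈ B := by
    intro a
    rw [hE1, LinearMap.smul_apply, LinearMap.sum_apply]
    exact B.smul_mem _ (B.sum_mem fun l _ => hBL l _ (hπ0mem _))
  have hE1B : ∀ b ∈ B, E1 b = b := by
    intro b hb
    rw [hE1, LinearMap.smul_apply, LinearMap.sum_apply,
      Finset.sum_congr rfl fun (l : S.L) _ => show (α (l : G) * π₀ * α (l : G)⁻¹) b = b by
        rw [Module.End.mul_apply, Module.End.mul_apply]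
        rw [hπ0B _ (by simpa using hBL l⁻¹ b hb), ← Module.End.mul_apply, ← map_mul, mul_inv_cancel,
          map_one, Module.End.one_apply],
      Finset.sum_const, Finset.card_univ, ← Nat.card_eq_fintype_card, ← Nat.cast_smul_eq_nsmul k,
      smul_smul, inv_mul_cancel₀ hm, one_smul]
  have hE1D : ∀ d ∈ D, E1 d = 0 := by
    intro d hd
    rw [hE1, LinearMap.smul_apply, LinearMap.sum_apply, Finset.sum_eq_zero fun l _ => ?_, smul_zero]
    rw [Module.End.mul_apply, Module.End.mul_apply,
      hπ0D _ (hDinv _ (S.L.inv_mem l.2) d hd), map_zero]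
  have hfixB : ∀ u ∈ S.P, ∀ b ∈ B, α u b = b := by
    intro u hu b hb
    obtain ⟨n, rfl⟩ := (mem_powers_iff_mem_zpowers (x := S.x)).2 hu
    rw [adjRep_fixed_iff, map_pow]
    exact ((show Commute (ρ S.x) b from hBx b hb).pow_left n).eq
  have hE1P : ∀ u ∈ S.P, ∀ a, E1 (α u a) = E1 a := by
    intro u hu a
    rw [← sub_eq_zero, ← map_sub]
    exact hE1D _ (sub_mem_range α hu a)
  have hE1L : ∀ (l : S.L) a, E1 (α (l : G) a) = α (l : G) (E1 a) := by
    intro l a
    rw [hE1, LinearMap.smul_apply, LinearMap.smul_apply, LinearMap.sum_apply, LinearMap.sum_apply,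
      map_smul, map_sum]
    congr 1
    refine Fintype.sum_equiv (Equiv.mulLeft l⁻¹) _ _ fun m => ?_
    simp only [Module.End.mul_apply, Equiv.coe_mulLeft, Subgroup.coe_mul, Subgroup.coe_inv]
    simp only [← Module.End.mul_apply, ← mul_assoc, ← map_mul]
    simp
  have hE1N : ∀ g ∈ S.N, α g * E1 * α g⁻¹ = E1 := by
    intro g hg
    obtain ⟨l, hl, u, hu, rfl⟩ := S.mem_N_iff.1 hg
    refine LinearMap.ext fun a => ?_
    rw [Module.End.mul_apply, Module.End.mul_apply, mul_inv_rev, map_mul α u⁻¹, Module.End.mul_apply,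
      hE1P _ (S.P.inv_mem hu), map_mul, Module.End.mul_apply, hfixB u hu _ (hE1mem _),
      show E1 (α l⁻¹ a) = α l⁻¹ (E1 a) from hE1L ⟨l⁻¹, S.L.inv_mem hl⟩ a,
      ← Module.End.mul_apply, ← map_mul, mul_inv_cancel, map_one, Module.End.one_apply]
  -- the transfer to `G`
  let F : G ⧸ S.N → Module.End k (Module.End k U) := fun c => α c.out * E1 * α c.out⁻¹
  have hFact : ∀ (g : G) (c : G ⧸ S.N), F (g • c) = α g * F c * α g⁻¹ := by
    intro g c
    obtain ⟨n, hn⟩ := QuotientGroup.mk_out_eq_mul S.N (g * c.out)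
    have hgc : g • c = QuotientGroup.mk (g * c.out) := by
      conv_lhs => rw [← QuotientGroup.out_eq' c]
      rfl
    show α (g • c).out * E1 * α (g • c).out⁻¹ = _
    rw [hgc, hn]
    simp only [F, map_mul, mul_inv_rev]
    calc α g * α c.out * α (n : G) * E1 * (α (n : G)⁻¹ * (α c.out⁻¹ * α g⁻¹))
        = α g * α c.out * (α (n : G) * E1 * α (n : G)⁻¹) * (α c.out⁻¹ * α g⁻¹) := by
          simp only [mul_assoc]
      _ = _ := by rw [hE1N n n.2]; simp only [mul_assoc]
  set E : Module.End k (Module.End k U) := ∑ c : G ⧸ S.N, F c with hE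
  have hEcomm : ∀ g, α g * E = E * α g := by
    intro g
    have h : α g * E * α g⁻¹ = E := by
      rw [hE, Finset.mul_sum, Finset.sum_mul]
      exact Fintype.sum_equiv (MulAction.toPerm g) _ _ fun c => (hFact g c).symm
    conv_rhs => rw [← h]
    rw [mul_assoc, ← map_mul, inv_mul_cancel, map_one, mul_one]
  have hK : ∀ a, normP α S.x a = 0 := fun a => by
    rw [normP_eq_pow α S.orderOf_x, adjRep_delta_pow_nil ρ S.orderOf_x hr hr2, LinearMap.zero_apply]
  have hEmod : ∀ a, E a - E1 a ∈ D := by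
    intro a
    set c₀ : G ⧸ S.N := QuotientGroup.mk (1 : G)
    have hF0 : F c₀ = E1 := hE1N _ (by
      obtain ⟨n, hn⟩ := QuotientGroup.mk_out_eq_mul S.N (1 : G)
      rw [hn, one_mul]; exact n.2)
    rw [hE, ← Finset.add_sum_erase _ _ (Finset.mem_univ c₀), LinearMap.add_apply, hF0,
      add_sub_cancel_left]
    refine sum_free_mem α _ (fun u a ha => ?_) (fun u a ha hua => ?_) _
      (fun u a _ => hFact (u : G) a) (hK a)
    · refine Finset.mem_erase.2 ⟨fun h => (Finset.mem_erase.1 ha).1 ?_, Finset.mem_univ _⟩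
      rw [← inv_smul_smul u a, h]
      exact QuotientGroup.eq.2 (by simpa using S.P_le_N u.2)
    · induction a using QuotientGroup.induction_on with
      | H g =>
        by_contra hu
        have hg : g ∈ S.N := by
          refine S.mem_N_of_fix u.2 (fun h => hu (Subtype.ext h)) ?_
          have h2 : (QuotientGroup.mk g : G ⧸ S.N) = QuotientGroup.mk ((u : G) * g) := hua.symm
          rw [QuotientGroup.eq] at h2
          simpa [mul_assoc] using h2
        exact (Finset.mem_erase.1 ha).1 (QuotientGroup.eq.2 (by simpa using hg))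
  have hEδ : Commute E δ := by
    rw [hδ, delta]
    exact (show Commute E (α S.x) from (hEcomm S.x).symm).sub_right (Commute.one_right _)
  have hstep : ∀ (i : ℕ) a, ∃ a', E ((δ ^ (i + 1)) a) = (δ ^ (i + 2)) a' := by
    intro i a
    obtain ⟨a', ha'⟩ := hEmod a
    refine ⟨a', ?_⟩
    have hE1δ : δ (E1 a) = 0 := by
      rw [hδ, delta, LinearMap.sub_apply, Module.End.one_apply,
        hfixB _ (Subgroup.mem_zpowers S.x) _ (hE1mem a), sub_self]
    rw [← Module.End.mul_apply, (hEδ.pow_right _).eq, Module.End.mul_apply,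
      show E a = E1 a + δ a' by rw [ha']; abel, map_add, pow_succ, Module.End.mul_apply,
      hE1δ, map_zero, zero_add, ← pow_succ, ← Module.End.mul_apply, ← pow_succ]
  have hiter : ∀ (n i : ℕ) a, ∃ a', (E ^ n) ((δ ^ (i + 1)) a) = (δ ^ (i + 1 + n)) a' := by
    intro n
    induction n with
    | zero => exact fun i a => ⟨a, rfl⟩
    | succ n ih =>
      intro i a
      obtain ⟨a', ha'⟩ := hstep i a
      obtain ⟨a'', ha''⟩ := ih (i + 1) a'
      exact ⟨a'', by rw [pow_succ, Module.End.mul_apply, ha', ha'',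
        show i + 1 + 1 + n = i + 1 + (n + 1) by ring]⟩
  obtain ⟨n, hn, hcompl⟩ : ∃ n, p ≤ n ∧
      IsCompl (LinearMap.ker (E ^ n)) (LinearMap.range (E ^ n)) :=
    (Filter.eventually_atTop.1 E.eventually_isCompl_ker_pow_range_pow).elim
      fun n h => ⟨max n p, le_max_right _ _, h _ (le_max_left _ _)⟩
  have hDker : ∀ d ∈ D, (E ^ n) d = 0 := by
    rintro _ ⟨a, rfl⟩
    obtain ⟨a', ha'⟩ := hiter n 0 a
    rw [zero_add, pow_one] at ha'
    rw [ha', pow_eq_zero_of_le (by omega) (delta_pow_eq_zero α S.orderOf_x), LinearMap.zero_apply]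
  -- the image is fixed by the group
  have hYfix : ∀ y ∈ LinearMap.range (E ^ n), ∀ g, α g y = y := by
    intro y hy
    have hinv : ∀ g, ∀ z ∈ LinearMap.range (E ^ n), α g z ∈ LinearMap.range (E ^ n) := by
      rintro g _ ⟨z, rfl⟩
      exact ⟨α g z, (LinearMap.congr_fun ((show Commute (α g) E from hEcomm g).pow_right n).eq z).symm⟩
    have hx : ∀ z ∈ LinearMap.range (E ^ n), α S.x z = z := by
      intro z hz
      rw [← sub_eq_zero]
      exact Submodule.disjoint_def.1 hcompl.disjoint _
        (LinearMap.mem_ker.2 (hDker _ ⟨z, rfl⟩))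
        (Submodule.sub_mem _ (hinv _ z hz) hz)
    let H : Subgroup G :=
      { carrier := {g | ∀ z ∈ LinearMap.range (E ^ n), α g z = z}
        one_mem' := fun z _ => by rw [map_one, Module.End.one_apply]
        mul_mem' := fun {a b} ha hb z hz => by
          rw [map_mul, Module.End.mul_apply, hb z hz, ha z hz]
        inv_mem' := fun {a} ha z hz => by
          conv_lhs => rw [← ha z hz]
          rw [← Module.End.mul_apply, ← map_mul, inv_mul_cancel, map_one, Module.End.one_apply] }
    have hH : H = ⊤ := hgen H ⟨fun h hh g z hz => by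
      rw [map_mul, map_mul, Module.End.mul_apply, Module.End.mul_apply, hh _ (hinv g⁻¹ z hz),
        ← Module.End.mul_apply, ← map_mul, mul_inv_cancel, map_one, Module.End.one_apply]⟩ hx
    exact fun g => (hH ▸ Subgroup.mem_top g : g ∈ H) y hy
  have hscal : ∀ y ∈ LinearMap.range (E ^ n), ∃ c : k, y = c • 1 := by
    intro y hy
    obtain ⟨c, hc⟩ := Module.End.exists_eigenvalue y
    refine ⟨c, ?_⟩
    rcases hρ.2 (Module.End.eigenspace y c) (fun g u hu => by
      rw [Module.End.mem_eigenspace_iff] at hu ⊢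
      rw [← Module.End.mul_apply, ← (adjRep_fixed_iff ρ g y).1 (hYfix y hy g), Module.End.mul_apply,
        hu, map_smul]) with h | h
    · exact absurd h hc
    · exact LinearMap.ext fun u =>
        Module.End.mem_eigenspace_iff.1 (h ▸ Submodule.mem_top : u ∈ Module.End.eigenspace y c)
  -- the image of `B`
  have hmodB : ∀ (j : ℕ), ∀ b ∈ B, (E ^ j) b - b ∈ D := by
    intro j
    induction j with
    | zero => intro b _; simp
    | succ j ih =>
      intro b hb
      have hED : E ((E ^ j) b - b) ∈ D := by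
        obtain ⟨a, ha⟩ := ih b hb
        obtain ⟨a', ha'⟩ := hstep 0 a
        rw [zero_add, pow_one] at ha'
        rw [← ha, ha']
        exact ⟨δ a', by simp [sq]⟩
      have hEb := hEmod b
      rw [hE1B b hb] at hEb
      have := D.add_mem hED hEb
      rwa [map_sub, sub_add_sub_cancel, ← Module.End.mul_apply, ← pow_succ'] at this
  obtain ⟨c₁, hc₁⟩ := hscal _ ⟨1, rfl⟩
  have hvB : ρ ((v : S.L) : G) ∈ B := Submodule.subset_span ⟨v, rfl⟩
  obtain ⟨c₂, hc₂⟩ := hscal _ ⟨ρ ((v : S.L) : G), rfl⟩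
  refine ⟨c₂, ?_⟩
  have h1 := hmodB n 1 hB1
  rw [hc₁] at h1
  have hone : c₁ = 1 := by
    by_contra hne
    have h0 := hBD _ (B.sub_mem (B.smul_mem c₁ hB1) hB1) h1
    rw [show c₁ • (1 : Module.End k U) - 1 = (c₁ - 1) • 1 by rw [sub_smul, one_smul], smul_eq_zero] at h0
    exact one_ne_zero (h0.resolve_left (sub_ne_zero.2 hne))
  have h2 := hmodB n _ hvB
  rw [hc₂] at h2
  exact (sub_eq_zero.1 (hBD _ (B.sub_mem (B.smul_mem c₂ hB1) hvB) h2)).symm

/-- In a perfect group generated by the conjugates of `x`, the centralizer of `x` in the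
complement becomes central as soon as there is a small nontrivial module. -/
theorem central_of_nil {k : Type*} [Field k] [IsAlgClosed k] {G : Type*} [Group G] [Fintype G]
    {p : ℕ} [hp : Fact p.Prime] [CharP k p] (S : Setup p G)
    (hgen : ∀ H : Subgroup G, H.Normal → S.x ∈ H → H = ⊤) (hperf : commutator G = ⊤)
    (hcent : ∀ H : Subgroup G, H.Normal → S.x ∉ H → H ≤ Subgroup.center G)
    {r : ℕ} (hr2 : 2 * r ≤ p) :
    ∀ (n : ℕ) (W : Type*) [AddCommGroup W] [Module k W] [FiniteDimensional k W]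
      (ρ : G →* Module.End k W), finrank k W = n → delta ρ S.x ^ r = 0 → finrank k W < p → ρ S.x ≠ 1 →
      ∀ (v : S.V) (g : G), Commute ((v : S.L) : G) g := by
  intro n
  induction n using Nat.strong_induction_on with
  | _ n ih =>
  intro W _ _ _ ρ hn hr hd hx v g
  by_cases hirr : IsIrred ρ
  · obtain ⟨c, hc⟩ := scalar_of_nil S ρ hirr hr hr2 hd hgen S.V (fun w hw => S.commute_of_mem_V hw) v
    have hK : ρ.ker ≤ Subgroup.center G :=
      hcent _ inferInstance fun h => hx (MonoidHom.mem_ker.1 h)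
    set w : G := ((v : S.L) : G)
    have hmem : ∀ a : G, w * a * w⁻¹ * a⁻¹ ∈ Subgroup.center G := by
      intro a
      refine hK ?_
      rw [MonoidHom.mem_ker, map_mul, map_mul, map_mul, hc, smul_mul_assoc, one_mul,
        show c • ρ a * ρ w⁻¹ = ρ a * (ρ w * ρ w⁻¹) by
          rw [hc, smul_mul_assoc, smul_mul_assoc, one_mul, mul_smul_comm],
        ← map_mul ρ w, mul_inv_cancel, map_one, mul_one, ← map_mul, mul_inv_cancel, map_one]
    clear ih
    let f : G →* Subgroup.center G :=
      { toFun := fun a => ⟨_, hmem a⟩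
        map_one' := Subtype.ext (by simp)
        map_mul' := fun a b => Subtype.ext (by
          show w * (a * b) * w⁻¹ * (a * b)⁻¹ = (w * a * w⁻¹ * a⁻¹) * (w * b * w⁻¹ * b⁻¹)
          have hc := Subgroup.mem_center_iff.1 (hmem b) a⁻¹
          calc w * (a * b) * w⁻¹ * (a * b)⁻¹
              = (w * a * w⁻¹) * ((w * b * w⁻¹ * b⁻¹) * a⁻¹) := by group
            _ = (w * a * w⁻¹) * (a⁻¹ * (w * b * w⁻¹ * b⁻¹)) := by rw [hc]
            _ = _ := by group) }
    have h1 : f g = 1 := by
      have hle : commutator G ≤ f.ker := by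
        rw [commutator_def, Subgroup.commutator_le]
        intro a _ b _
        rw [MonoidHom.mem_ker, map_commutatorElement, commutatorElement_eq_one_iff_commute]
        exact Subtype.ext (Subgroup.mem_center_iff.1 (f b).2 _)
      exact MonoidHom.mem_ker.1 (hle (hperf ▸ Subgroup.mem_top g))
    have h2 : w * g * w⁻¹ * g⁻¹ = 1 := congrArg Subtype.val h1
    exact mul_inv_eq_iff_eq_mul.1 (mul_inv_eq_one.1 h2)
  have hWn : Nontrivial W := by
    by_contra h
    rw [not_nontrivial_iff_subsingleton] at h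
    exact hx (LinearMap.ext fun z => Subsingleton.elim _ _)
  obtain ⟨U, hU, hU0, hU1⟩ : ∃ U : Submodule k W, (∀ g, ∀ z ∈ U, ρ g z ∈ U) ∧ U ≠ ⊥ ∧ U ≠ ⊤ := by
    by_contra hc
    refine hirr ⟨hWn, fun U hU => ?_⟩
    by_contra h
    rw [not_or] at h
    exact hc ⟨U, hU, h.1, h.2⟩
  set σ₁ := restrictRep ρ U hU
  let σ₂ : G →* Module.End k (W ⧸ U) :=
    { toFun := fun a => U.mapQ U (ρ a) (hU a)
      map_one' := Submodule.linearMap_qext _ (LinearMap.ext fun z => by simp)
      map_mul' := fun a b => Submodule.linearMap_qext _ (LinearMap.ext fun z => by simp) }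
  by_cases h1 : σ₁ S.x = 1
  swap
  · exact ih _ (hn ▸ Submodule.finrank_lt hU1) U σ₁ rfl
      (delta_restrict_pow ρ U hU hr) ((Submodule.finrank_le U).trans_lt hd) h1 v g
  by_cases h2 : σ₂ S.x = 1
  swap
  · have hlt : finrank k (W ⧸ U) < finrank k W := by
      have := U.finrank_quotient_add_finrank
      have : 0 < finrank k U := Nat.pos_of_ne_zero fun h => hU0 (Submodule.finrank_eq_zero.1 h)
      omega
    refine ih _ (hn ▸ hlt) (W ⧸ U) σ₂ rfl ?_ (hlt.trans hd) h2 v g
    have e : ∀ (j : ℕ) z, (delta σ₂ S.x ^ j) (Submodule.Quotient.mk z) =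
        Submodule.Quotient.mk ((delta ρ S.x ^ j) z) := by
      intro j
      induction j with
      | zero => intro z; simp
      | succ j ihj =>
        intro z
        rw [pow_succ', Module.End.mul_apply, ihj, pow_succ', Module.End.mul_apply]
        simp [delta, σ₂]
    exact Submodule.linearMap_qext _ (LinearMap.ext fun z => by simp [e, hr])
  exfalso
  have hs1 : σ₁.ker = ⊤ := hgen _ inferInstance h1
  have hs2 : σ₂.ker = ⊤ := hgen _ inferInstance h2
  have hU' : ∀ a, ∀ z ∈ U, ρ a z = z := fun a z hz =>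
    congrArg Subtype.val (LinearMap.congr_fun (MonoidHom.mem_ker.1 (hs1 ▸ Subgroup.mem_top a : a ∈ σ₁.ker))
      ⟨z, hz⟩)
  have hQ : ∀ a z, ρ a z - z ∈ U := fun a z =>
    (Submodule.Quotient.eq U).1 (LinearMap.congr_fun
      (MonoidHom.mem_ker.1 (hs2 ▸ Subgroup.mem_top a : a ∈ σ₂.ker)) (Submodule.Quotient.mk z))
  have hcomm : ∀ a b : G, ρ (a * b) = ρ (b * a) := by
    intro a b
    refine LinearMap.ext fun z => ?_
    rw [map_mul, map_mul, Module.End.mul_apply, Module.End.mul_apply]
    have e1 : ρ a (ρ b z) = ρ b z - z + ρ a z := by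
      conv_lhs => rw [show ρ b z = (ρ b z - z) + z by abel]
      rw [map_add, hU' a _ (hQ b z)]
    have e2 : ρ b (ρ a z) = ρ a z - z + ρ b z := by
      conv_lhs => rw [show ρ a z = (ρ a z - z) + z by abel]
      rw [map_add, hU' b _ (hQ a z)]
    rw [e1, e2]; abel
  refine hx (MonoidHom.mem_ker.1 (?_ : S.x ∈ ρ.ker))
  have hle : commutator G ≤ ρ.ker := by
    rw [commutator_def, Subgroup.commutator_le]
    intro a _ b _
    rw [MonoidHom.mem_ker, commutatorElement_def, map_mul, map_mul, hcomm a b,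
      ← map_mul, ← map_mul]
    simp [mul_assoc]
  exact hle (hperf ▸ Subgroup.mem_top _)

end Cfsg.Agent.H40.SmallDeg
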