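import Mathlib
import Cfsg.Agent.H40.SmallDeg.Basic
import Cfsg.Agent.H40.SmallDeg.Modular
import Cfsg.Agent.H39.SmallDeg.Eigen
import Cfsg.Agent.H42.SmallFaithful.Reduce

/-!
# The eigenvalues of an element of order `p` in a faithful representation of degree below `p - 1`
-/

set_option autoImplicit false
set_option maxHeartbeats 1000000
set_option linter.unusedSectionVars false

namespace Cfsg.Agent.H40.SmallDeg

open Module IsLocalRing Cfsg.Agent.H43.D1
open Cfsg.Agent.H43 (irr_charDegree_spec irr_charDegree_pos)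
open scoped ComplexConjugate

attribute [local instance] Fintype.ofFinite Classical.propDecidable

universe u

variable {p : ℕ} [hp : Fact p.Prime] {G : Type u} [Group G] [Finite G] (S : Setup p G)

theorem stabImage_le (θ : Cfsg.IrrCharacter S.V) : stabImage S.act θ ≤ S.act.range := by
  rintro _ ⟨l, rfl, -⟩
  exact ⟨l, rfl⟩

/-- The multiplicities through the local data. -/
theorem mult_eq_sum (χ : Cfsg.IrrCharacter G) {d : ℕ} (A : G →* Matrix (Fin d) (Fin d) ℂ)
    (htr : ∀ g, (A g).trace = χ.1 g) (c : ZMod p) :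
    H39.SmallDeg.mult S.x A c =
      ∑ θ : Cfsg.IrrCharacter S.V, S.mv χ θ c * Cfsg.charDegree θ.1 := by
  have h : (H39.SmallDeg.mult S.x A c : ℂ) =
      ((∑ θ : Cfsg.IrrCharacter S.V, S.mv χ θ c * Cfsg.charDegree θ.1 : ℕ) : ℂ) := by
    rw [H39.SmallDeg.mult_eq S.orderOf_x htr, Nat.cast_sum]
    simp only [Nat.cast_mul, ← S.mv_spec, mul_assoc, Finset.sum_mul, ← Finset.mul_sum]
    congr 1
    rw [Finset.sum_comm]
    refine Finset.sum_congr rfl fun j _ => ?_
    have h := S.value_eq_sum_sv χ j 1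
    simp only [OneMemClass.coe_one, mul_one, irr_charDegree_spec] at h
    rw [h, Finset.mul_sum]
    refine Finset.sum_congr rfl fun θ _ => ?_
    rw [H39.SmallDeg.rt]
    ring
  exact_mod_cast h

theorem charDegree_twist (θ : Cfsg.IrrCharacter S.V) (l : S.L) :
    Cfsg.charDegree (kerTwist S.act l θ).1 = Cfsg.charDegree θ.1 := by
  have h : ((Cfsg.charDegree (kerTwist S.act l θ).1 : ℕ) : ℂ) = Cfsg.charDegree θ.1 := by
    rw [← irr_charDegree_spec, ← irr_charDegree_spec, kerTwist_apply, map_one]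
  exact_mod_cast h

/-- The two possible shapes of a character of degree below `p - 1`. -/
theorem shape_cases {χ : Cfsg.IrrCharacter G} (hd : Cfsg.charDegree χ.1 + 1 < p)
    (hx : χ.1 S.x ≠ χ.1 1) :
    ∃ (θ : Cfsg.IrrCharacter S.V) (c₀ : (ZMod p)ˣ), 2 * S.fN θ + 1 ≤ p ∧
      (∀ θ', θ' ∉ S.orb θ → ∀ c, S.mv χ θ' c = 0) ∧
      (((∀ θ' ∈ S.orb θ, S.partDim χ θ' + S.fN θ = p) ∧ S.mv χ θ 0 = 1 ∧
          ∀ c : (ZMod p)ˣ, S.mv χ θ c = if c₀⁻¹ * c ∈ stabImage S.act θ then 0 else 1) ∨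
        ((∀ θ', S.mv χ θ' 0 = 0) ∧ (∀ θ' ∈ S.orb θ, S.partDim χ θ' = S.fN θ) ∧
          ∀ θ' ∈ S.orb θ, ∀ c, S.mv χ θ' c ≠ 0 → c ∈ coset S c₀)) := by
  classical
  have hd0 := irr_charDegree_pos χ
  obtain ⟨θ, hθ⟩ := S.exists_mem_supp (χ := χ) fun h => by
    have := Nat.le_of_dvd hd0 h
    omega
  obtain ⟨e, ε, b, he, hε, hbe, hav, hb⟩ := (S.gram_av θ).2 (S.count_main.2.1 θ)
  have hout : ∀ θ', θ' ∉ S.orb θ → ∀ c, S.mv χ θ' c = 0 := by
    intro θ' h c
    have hns : χ ∉ S.supp θ' := fun hm => h (S.mem_orb_of_mem_supp hθ hm)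
    simp only [Setup.mem_supp, not_exists, not_not] at hns
    obtain ⟨h0, -⟩ := S.eq_zero_of_mv hns (by omega)
    rcases eq_or_ne c 0 with rfl | hc
    · exact h0
    · have := hns (Units.mk0 c hc)
      rw [Units.val_mk0, S.av_eq_mv_sub, h0] at this
      omega
  have htw : ∀ θ' ∈ S.orb θ, ∃ l : S.L, ∀ c : (ZMod p)ˣ,
      S.av χ θ' (c : ZMod p) = S.av χ θ (((S.act l)⁻¹ * c : (ZMod p)ˣ) : ZMod p) := by
    intro θ' h
    obtain ⟨l, -, rfl⟩ := Finset.mem_image.1 h
    exact ⟨l, fun c => by rw [S.av_twist, Units.val_mul]⟩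
  have hθorb : θ ∈ S.orb θ := Finset.mem_image.2 ⟨1, Finset.mem_univ _, kerTwist_one _ _⟩
  have hfp := S.fN_lt θ
  have hf0 := S.fN_pos θ
  -- the constant pattern is impossible
  have hconst : ∀ a : ℤ, (a = 1 ∨ a = -1) → ¬ ∀ c : (ZMod p)ˣ, S.av χ θ (c : ZMod p) = a := by
    intro a ha hall
    have hallo : ∀ θ' ∈ S.orb θ, ∀ c : (ZMod p)ˣ, S.av χ θ' (c : ZMod p) = a := by
      intro θ' h c
      obtain ⟨l, hl⟩ := htw θ' h
      rw [hl, hall]
    have hD : ∀ θ' ∈ S.orb θ, (S.partDim χ θ' : ℤ) = p * S.mv χ θ' 0 - ((p : ℤ) - 1) * a := by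
      intro θ' h
      rw [S.partDim_eq, Finset.sum_congr rfl fun c _ => hallo θ' h c, Finset.sum_const,
        Finset.card_univ, ZMod.card_units, nsmul_eq_mul, Nat.cast_sub hp.out.one_lt.le, Nat.cast_one]
    rcases ha with rfl | rfl
    · have hm1 : ∀ θ' ∈ S.orb θ, S.partDim χ θ' = 1 := by
        intro θ' h
        have hD' := hD θ' h
        have hle := S.partDim_le χ θ'
        have hmv : 1 ≤ S.mv χ θ' 0 := by
          have := hallo θ' h 1
          rw [S.av_eq_mv_sub] at this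
          omega
        have h1 : S.mv χ θ' 0 = 1 := by
          by_contra hne
          have h2 : p * 2 ≤ p * S.mv χ θ' 0 := Nat.mul_le_mul_left p (by omega)
          omega
        rw [h1, Nat.cast_one] at hD'
        omega
      refine hx ?_
      have h0 : ∀ θ', S.sv χ θ' ((1 : (ZMod p)ˣ) : ZMod p) = S.sv χ θ' 0 := by
        intro θ'
        by_cases h : θ' ∈ S.orb θ
        · rw [S.sv_eq_neg_sum, ← S.sum_mv_cast, ← Nat.cast_sum, show ∑ c : ZMod p, S.mv χ θ' c =
            S.partDim χ θ' from rfl, hm1 θ' h]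
          simp only [hallo θ' h, Int.cast_one, one_mul, Units.val_one, Nat.cast_one]
          rw [sum_units_stdAddChar_one, neg_neg]
        · rw [S.sv_eq_zero_of_not_mem_orb hθ h, ← S.sum_mv_cast]
          simp [hout θ' h]
      have h1 := S.value_eq_sum_sv χ ((1 : (ZMod p)ˣ) : ZMod p) 1
      have h2 := S.value_eq_sum_sv χ 0 1
      simp only [h0] at h1
      rw [← h2] at h1
      simpa [ZMod.val_one] using h1
    · have h1 := hD θ hθorb
      have hle := S.partDim_le χ θ
      have hm : (0 : ℤ) ≤ (p : ℤ) * S.mv χ θ 0 := by positivity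
      omega
  obtain ⟨j, hej⟩ : ∃ j, e j = χ := by
    by_contra hn
    simp only [not_exists] at hn
    obtain ⟨c, hc⟩ := S.mem_supp.1 hθ
    have hbc : ∀ c : (ZMod p)ˣ, S.av χ θ (c : ZMod p) = b χ := fun c => by
      rw [hav, if_neg (hn _), add_zero]
    rw [hbc] at hc
    exact hconst _ ((hb χ).resolve_left hc) hbc
  subst hej
  obtain ⟨c₀, rfl⟩ := QuotientGroup.mk_surjective j
  have haj : ∀ c : (ZMod p)ˣ, S.av (e (QuotientGroup.mk c₀)) θ (c : ZMod p) =
      if c₀⁻¹ * c ∈ stabImage S.act θ then ε else 0 := fun c => by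
    rw [hav, hbe, zero_add]
    simp only [he.eq_iff, eq_comm (b := (QuotientGroup.mk c₀ : _ ⧸ _)), QuotientGroup.eq]
  have h2f : 2 * S.fN θ + 1 ≤ p := by
    have hnt : Nontrivial ((ZMod p)ˣ ⧸ stabImage S.act θ) := by
      by_contra h
      rw [not_nontrivial_iff_subsingleton] at h
      exact hconst ε hε fun c => by
        rw [haj, if_pos (QuotientGroup.eq.1 (Subsingleton.elim _ _))]
    have ht : 2 ≤ S.tN θ := by
      rw [Setup.tN, Nat.card_eq_fintype_card]
      exact Fintype.one_lt_card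
    have h1 : 2 * S.fN θ ≤ p - 1 := by
      rw [← S.tN_mul_fN θ]
      exact Nat.mul_le_mul_right _ ht
    omega
  have hsum : ∀ θ' ∈ S.orb θ,
      ∑ c : (ZMod p)ˣ, S.av (e (QuotientGroup.mk c₀)) θ' (c : ZMod p) = ε * S.fN θ := by
    intro θ' h
    obtain ⟨l, hl⟩ := htw θ' h
    rw [Finset.sum_congr rfl fun c _ => hl c,
      Fintype.sum_equiv (Equiv.mulLeft (S.act l)⁻¹)
        (fun c : (ZMod p)ˣ => S.av (e (QuotientGroup.mk c₀)) θ
          (((S.act l)⁻¹ * c : (ZMod p)ˣ) : ZMod p))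
        (fun c : (ZMod p)ˣ => S.av (e (QuotientGroup.mk c₀)) θ (c : ZMod p)) fun c => rfl]
    simp only [haj, Finset.sum_ite, Finset.sum_const_zero, add_zero, Finset.sum_const, nsmul_eq_mul]
    rw [mul_comm]
    congr 1
    rw [Nat.cast_inj, Setup.fN, ← Fintype.card_subtype, ← Nat.card_eq_fintype_card]
    exact Nat.card_congr ((Equiv.mulLeft c₀⁻¹).subtypeEquiv fun c => Iff.rfl)
  refine ⟨θ, c₀, h2f, hout, ?_⟩
  rcases hε with rfl | rfl
  · left
    have horb : ∀ θ' ∈ S.orb θ, S.mv (e (QuotientGroup.mk c₀)) θ' 0 = 1 ∧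
        S.partDim (e (QuotientGroup.mk c₀)) θ' + S.fN θ = p := by
      intro θ' h
      have h1 := S.partDim_eq (e (QuotientGroup.mk c₀)) θ'
      rw [hsum θ' h, one_mul] at h1
      have hle := S.partDim_le (e (QuotientGroup.mk c₀)) θ'
      have hm : S.mv (e (QuotientGroup.mk c₀)) θ' 0 = 1 := by
        rcases Nat.lt_or_ge (S.mv (e (QuotientGroup.mk c₀)) θ' 0) 2 with h2 | h2
        · rcases Nat.eq_zero_or_pos (S.mv (e (QuotientGroup.mk c₀)) θ' 0) with h0 | h0
          · rw [h0] at h1; push_cast at h1; omega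
          · omega
        · have : p * 2 ≤ p * S.mv (e (QuotientGroup.mk c₀)) θ' 0 := Nat.mul_le_mul_left p h2
          omega
      refine ⟨hm, ?_⟩
      rw [hm, Nat.cast_one, mul_one] at h1
      omega
    refine ⟨fun θ' h => (horb θ' h).2, (horb θ hθorb).1, fun c => ?_⟩
    have h := haj c
    rw [S.av_eq_mv_sub, (horb θ hθorb).1] at h
    split_ifs at h ⊢ <;> omega
  · right
    have horb : ∀ θ' ∈ S.orb θ, S.mv (e (QuotientGroup.mk c₀)) θ' 0 = 0 ∧
        S.partDim (e (QuotientGroup.mk c₀)) θ' = S.fN θ := by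
      intro θ' h
      have h1 := S.partDim_eq (e (QuotientGroup.mk c₀)) θ'
      rw [hsum θ' h] at h1
      have hle := S.partDim_le (e (QuotientGroup.mk c₀)) θ'
      have hm : S.mv (e (QuotientGroup.mk c₀)) θ' 0 = 0 := by
        by_contra hne
        have : p * 1 ≤ p * S.mv (e (QuotientGroup.mk c₀)) θ' 0 := Nat.mul_le_mul_left p (by omega)
        omega
      rw [hm] at h1
      exact ⟨hm, by push_cast at h1; omega⟩
    refine ⟨fun θ' => ?_, fun θ' h => (horb θ' h).2, fun θ' h c hc => ?_⟩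
    · by_cases h : θ' ∈ S.orb θ
      · exact (horb θ' h).1
      · exact hout θ' h 0
    · rcases eq_or_ne c 0 with rfl | hc0
      · exact absurd (horb θ' h).1 hc
      obtain ⟨l, hl⟩ := htw θ' h
      have h1 := hl (Units.mk0 c hc0)
      rw [haj, S.av_eq_mv_sub, (horb θ' h).1, Units.val_mk0] at h1
      split_ifs at h1 with hin
      · rw [← Units.val_mk0 hc0, mem_coset]
        have h2 := S.act.range.mul_mem (⟨l, rfl⟩ : S.act l ∈ S.act.range) (stabImage_le S θ hin)
        rwa [show S.act l * (c₀⁻¹ * ((S.act l)⁻¹ * Units.mk0 c hc0)) = Units.mk0 c hc0 * c₀⁻¹ by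
          rw [mul_left_comm, mul_inv_cancel_left, mul_comm]] at h2
      · omega

theorem charDegree_eq_orb {χ : Cfsg.IrrCharacter G} {θ : Cfsg.IrrCharacter S.V} {D : ℕ}
    (hout : ∀ θ', θ' ∉ S.orb θ → ∀ c, S.mv χ θ' c = 0)
    (horb : ∀ θ' ∈ S.orb θ, S.partDim χ θ' = D) :
    Cfsg.charDegree χ.1 = (S.orb θ).card * Cfsg.charDegree θ.1 * D := by
  classical
  rw [S.charDegree_eq_sum_partDim χ, ← Finset.sum_subset (Finset.subset_univ (S.orb θ))
    (fun θ' _ h => by simp [Setup.partDim, hout θ' h]), mul_assoc, mul_comm (Cfsg.charDegree θ.1),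
    ← smul_eq_mul (S.orb θ).card, ← Finset.sum_const]
  refine Finset.sum_congr rfl fun θ' h => ?_
  obtain ⟨l, -, rfl⟩ := Finset.mem_image.1 h
  rw [horb _ h, charDegree_twist]

theorem sum_pow_eq (χ : Cfsg.IrrCharacter G) :
    ∑ i : ZMod p, χ.1 (S.x ^ i.val) =
      (p : ℂ) * ((∑ θ : Cfsg.IrrCharacter S.V, S.mv χ θ 0 * Cfsg.charDegree θ.1 : ℕ) : ℂ) := by
  rw [Nat.cast_sum, Finset.mul_sum]
  simp only [Nat.cast_mul, ← S.mv_spec, mul_zero, neg_zero, AddChar.map_zero_eq_one, mul_one,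
    ← mul_assoc, mul_inv_cancel₀ (Nat.cast_ne_zero.2 hp.out.ne_zero : (p : ℂ) ≠ 0), one_mul,
    Finset.sum_mul]
  rw [Finset.sum_comm]
  refine Finset.sum_congr rfl fun j _ => ?_
  have h := S.value_eq_sum_sv χ j 1
  simpa [irr_charDegree_spec] using h

section Small

variable {O : ValuationSubring ℂ}

theorem red_aeval_qPoly (hO : (p : O) ∈ maximalIdeal O) {d : ℕ} (Z : Matrix (Fin d) (Fin d) O)
    (T : Finset (ZMod p)) :
    ∀ i j, O.valuation ((Polynomial.aeval (H31.Defect.toK O (Fin d) Z) (H39.SmallDeg.qPoly T)) i j -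
      H31.Defect.toK O (Fin d) ((Z - 1) ^ T.card) i j) < 1 := by
  classical
  induction T using Finset.induction_on with
  | empty => intro i j; simp [H39.SmallDeg.qPoly]
  | insert a T ha ih =>
    intro i j
    have hval : O.valuation (1 - H39.SmallDeg.rt a) < 1 := by
      rcases eq_or_ne a 0 with rfl | h
      · simp [H39.SmallDeg.rt_zero]
      · rw [Valuation.map_sub_swap, H39.SmallDeg.val_rt_sub_one h]
        exact H39.SmallDeg.val_pi_lt_one hO
    set Zc := H31.Defect.toK O (Fin d) Z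
    have hZc : H39.SmallDeg.IntMat O Zc := fun i j => (O.valuation_le_one_iff _).2 (Z i j).2
    set Q := Polynomial.aeval Zc (H39.SmallDeg.qPoly T) with hQ
    have e : Polynomial.aeval Zc (H39.SmallDeg.qPoly (insert a T)) =
        (1 - H39.SmallDeg.rt a) • Q + (Zc - 1) * Q := by
      rw [hQ, H39.SmallDeg.qPoly, Finset.prod_insert ha, map_mul, map_sub, Polynomial.aeval_X,
        Polynomial.aeval_C, Algebra.algebraMap_eq_smul_one, ← H39.SmallDeg.qPoly, sub_smul, one_smul,
        sub_mul, sub_mul, smul_mul_assoc, one_mul]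
      abel
    have e2 : H31.Defect.toK O (Fin d) ((Z - 1) ^ (insert a T).card) =
        (Zc - 1) * H31.Defect.toK O (Fin d) ((Z - 1) ^ T.card) := by
      rw [Finset.card_insert_of_notMem ha, pow_succ', map_mul, map_sub, map_one]
    rw [e, e2, Matrix.add_apply, add_sub_assoc]
    refine lt_of_le_of_lt (Valuation.map_add _ _ _) (max_lt ?_ ?_)
    · rw [Matrix.smul_apply, smul_eq_mul, map_mul]
      exact lt_of_le_of_lt (mul_le_of_le_one_right zero_le (H39.SmallDeg.intMat_qPoly hZc T i j)) hval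
    · rw [← Matrix.sub_apply, ← mul_sub, Matrix.mul_apply]
      refine Valuation.map_sum_lt _ zero_ne_one.symm fun l _ => ?_
      rw [map_mul]
      exact lt_of_le_of_lt (mul_le_of_le_one_left zero_le ((hZc.sub H39.SmallDeg.IntMat.one) i l))
        (ih l j)

/-- The reduction has a chain no longer than the number of eigenvalues. -/
theorem red_pow_eq_zero (hO : (p : O) ∈ maximalIdeal O) {d : ℕ}
    (R : G →* Matrix (Fin d) (Fin d) O) (T : Finset (ZMod p))
    (hT : ∀ c, c ∉ T → H39.SmallDeg.mult S.x ((H31.Defect.toK O (Fin d)).toMonoidHom.comp R) c = 0) :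
    (H31.Defect.red O (Fin d) (R S.x) - 1) ^ T.card = 0 := by
  have h0 : Polynomial.aeval (H31.Defect.toK O (Fin d) (R S.x)) (H39.SmallDeg.qPoly T) = 0 := by
    have e := H39.SmallDeg.aeval_eq_sum (A := (H31.Defect.toK O (Fin d)).toMonoidHom.comp R)
      S.orderOf_x T
    refine Eq.trans e (Finset.sum_eq_zero fun c _ => ?_)
    by_cases hc : c ∈ T
    · rw [H39.SmallDeg.qPoly_eval_eq_zero hc, zero_smul]
    · rw [(H39.SmallDeg.mult_eq_zero_iff S.orderOf_x).1 (hT c hc), smul_zero]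
  rw [← map_one (H31.Defect.red O (Fin d)), ← map_sub, ← map_pow]
  ext i j
  have h := red_aeval_qPoly hO (R S.x) T i j
  rw [h0, Matrix.zero_apply, zero_sub, Valuation.map_neg] at h
  rw [H31.Defect.red, RingHom.mapMatrix_apply, Matrix.map_apply, Matrix.zero_apply,
    residue_eq_zero_iff]
  exact (O.valuation_lt_one_iff _).2 h

end Small

/-- The Sylow setting of a normal subgroup containing `x`. -/
noncomputable def subSetup (G₀ : Subgroup G) (hx : S.x ∈ G₀) : Setup p G₀ where
  x := ⟨S.x, hx⟩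
  L := S.L.subgroupOf G₀
  orderOf_x := by rw [Subgroup.orderOf_mk, S.orderOf_x]
  not_sq h := S.not_sq (h.trans G₀.card_subgroup_dvd_card)
  le_norm l hl := by
    obtain ⟨i, hi⟩ := Subgroup.mem_zpowers_iff.1 (S.le_norm _ hl)
    exact Subgroup.mem_zpowers_iff.2 ⟨i, Subtype.ext (by simpa using hi)⟩
  not_dvd h := S.not_dvd (h.trans (Subgroup.card_dvd_of_injective
    ({ toFun := fun l : S.L.subgroupOf G₀ => (⟨((l : G₀) : G), l.2⟩ : S.L)
       map_one' := rfl
       map_mul' := fun _ _ => rfl } : S.L.subgroupOf G₀ →* S.L)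
    (fun a b h => Subtype.ext (Subtype.ext (congrArg (fun l : S.L => (l : G)) h)))))
  exists_mul g hg := by
    obtain ⟨i, hi⟩ := Subgroup.mem_zpowers_iff.1 hg
    have h1 : (g : G) * S.x * (g : G)⁻¹ ∈ Subgroup.zpowers S.x :=
      Subgroup.mem_zpowers_iff.2 ⟨i, by simpa using congrArg Subtype.val hi⟩
    obtain ⟨l, hl, u, hu, hlu⟩ := S.exists_mul g h1
    obtain ⟨j, rfl⟩ := Subgroup.mem_zpowers_iff.1 hu
    have hl' : l ∈ G₀ := by
      rw [show l = (g : G) * (S.x ^ j)⁻¹ by rw [hlu]; group]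
      exact G₀.mul_mem g.2 (G₀.inv_mem (G₀.zpow_mem hx j))
    exact ⟨⟨l, hl'⟩, hl, ⟨S.x, hx⟩ ^ j, Subgroup.zpow_mem _ (Subgroup.mem_zpowers _) j,
      Subtype.ext (by simpa using hlu)⟩

theorem subSetup_range_le (G₀ : Subgroup G) (hx : S.x ∈ G₀) :
    (subSetup S G₀ hx).act.range ≤ S.act.range := by
  rintro _ ⟨l, rfl⟩
  refine ⟨⟨((l : G₀) : G), l.2⟩, Units.ext (S.x_pow_val_inj ?_)⟩
  rw [← S.act_spec]
  simpa [subSetup] using congrArg Subtype.val ((subSetup S G₀ hx).act_spec l)

theorem subSetup_gen (hnn : ¬ S.P.Normal) (G₀ : Subgroup G) (hG₀ : G₀ = Subgroup.normalClosure {S.x})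
    (hx : S.x ∈ G₀) :
    (∀ H : Subgroup G₀, H.Normal → (subSetup S G₀ hx).x ∈ H → H = ⊤) ∧
      ¬ (subSetup S G₀ hx).P.Normal := by
  set T := subSetup S G₀ hx
  haveI hG₀n : G₀.Normal := hG₀ ▸ inferInstance
  have hgen : ∀ H : Subgroup G₀, H.Normal → T.x ∈ H → H = ⊤ := by
    intro H hH hxH
    have hPH : T.P ≤ H := Subgroup.zpowers_le.2 hxH
    have hall : ∀ z : G₀, orderOf z = p → z ∈ H := by
      intro z hz
      obtain ⟨c, hc⟩ := H42.SmallFaithful.exists_conj_mem T hz
      have := hH.conj_mem _ (hPH hc) c⁻¹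
      simpa [mul_assoc] using this
    have hle : G₀ ≤ H.map G₀.subtype := by
      refine le_trans (le_of_eq hG₀) ((Subgroup.closure_le _).2 fun z hz => ?_)
      obtain ⟨a, rfl, ha⟩ := Group.mem_conjugatesOfSet_iff.1 hz
      obtain ⟨c, rfl⟩ := isConj_iff.1 ha
      have hzmem : c * S.x * c⁻¹ ∈ G₀ := hG₀n.conj_mem _ hx c
      refine ⟨⟨_, hzmem⟩, hall _ ?_, rfl⟩
      rw [Subgroup.orderOf_mk, show orderOf (c * S.x * c⁻¹) = orderOf S.x from
        (MulAut.conj c).orderOf_eq _, S.orderOf_x]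
    rw [eq_top_iff]
    rintro z -
    obtain ⟨z', hz', e⟩ := hle z.2
    rwa [← Subtype.ext e]
  refine ⟨hgen, fun hn => hnn ?_⟩
  have htop := hgen T.P hn (Subgroup.mem_zpowers _)
  have heq : S.P = G₀ := by
    refine Subgroup.eq_of_le_of_card_ge (Subgroup.zpowers_le.2 hx) ?_
    rw [← Subgroup.card_top (G := G₀), ← htop, T.card_P, S.card_P]
  rw [heq]
  exact hG₀n

/-- Central elements act by a scalar, and conversely. -/
theorem mem_center_of_norm (χ : Cfsg.IrrCharacter G) (hfaith : ∀ g, χ.1 g = χ.1 1 → g = 1) {g : G}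
    (hg : ‖χ.1 g‖ = (Cfsg.charDegree χ.1 : ℝ)) : g ∈ Subgroup.center G := by
  have h1 := irr_charDegree_spec χ
  obtain ⟨n, ρ, -, hρ⟩ := χ.2
  have hn : Module.finrank ℂ (Fin n → ℂ) = Cfsg.charDegree χ.1 := by
    rw [← congrFun hρ 1, Representation.char_one] at h1
    exact_mod_cast h1
  rw [← congrFun hρ g] at hg
  have hs := H25.apply_eq_smul_id_of_norm_eq ρ g (by rw [hg, hn])
  rw [Subgroup.mem_center_iff]
  intro x
  have hc : ρ (x * g) = ρ (g * x) := by
    rw [map_mul, map_mul, hs]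
    ext v
    simp
  have h1 : ρ ((g * x)⁻¹ * (x * g)) = 1 := by rw [map_mul, hc, ← map_mul, inv_mul_cancel, map_one]
  have h2 : (g * x)⁻¹ * (x * g) = 1 := by
    refine hfaith _ ?_
    rw [← hρ, Representation.character, Representation.character, h1, map_one ρ]
  exact (inv_mul_eq_one.1 h2).symm

/-- The shape of a faithful character of degree between `(p - 1) / 2` and `p - 1`. -/
theorem shape (hnn : ¬ S.P.Normal) (χ : Cfsg.IrrCharacter G)
    (hfaith : ∀ g, χ.1 g = χ.1 1 → g = 1) (hlo : p ≤ 2 * Cfsg.charDegree χ.1)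
    (hhi : Cfsg.charDegree χ.1 + 1 < p) :
    (∀ v : S.V, ((v : S.L) : G) ∈ Subgroup.center G) ∧
      Cfsg.charDegree χ.1 + Nat.card S.act.range = p ∧
      ∃ c₀ : (ZMod p)ˣ, ∀ {d : ℕ} (A : G →* Matrix (Fin d) (Fin d) ℂ),
        (∀ g, (A g).trace = χ.1 g) → ∀ c,
          H39.SmallDeg.mult S.x A c = if c ∈ coset S c₀ then 0 else 1 := by
  classical
  set d := Cfsg.charDegree χ.1 with hd
  have hx : χ.1 S.x ≠ χ.1 1 := fun h => S.x_ne_one (hfaith _ h)
  obtain ⟨θ, c₀, h2f, hout, hA | hB⟩ := shape_cases S hhi hx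
  · obtain ⟨hpd, hm0, hmc⟩ := hA
    have hdeg := charDegree_eq_orb S hout (D := p - S.fN θ) fun θ' h => by
      have := hpd θ' h; omega
    have hone : (S.orb θ).card * Cfsg.charDegree θ.1 = 1 := by
      have h1 : 0 < (S.orb θ).card * Cfsg.charDegree θ.1 := Nat.mul_pos (Finset.card_pos.2
        ⟨θ, Finset.mem_image.2 ⟨1, Finset.mem_univ _, kerTwist_one _ _⟩⟩) (irr_charDegree_pos θ)
      by_contra hne
      have : 2 * (p - S.fN θ) ≤ (S.orb θ).card * Cfsg.charDegree θ.1 * (p - S.fN θ) :=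
        Nat.mul_le_mul_right _ (by omega)
      omega
    rw [hone, one_mul] at hdeg
    have hs1 := Nat.eq_one_of_mul_eq_one_right hone
    have hθ1 := Nat.eq_one_of_mul_eq_one_left hone
    have hfe : S.fN θ = Nat.card S.act.range := by
      have := S.card_orb_mul_fN θ
      rwa [hs1, one_mul] at this
    have horb : S.orb θ = {θ} := by
      obtain ⟨a, ha⟩ := Finset.card_eq_one.1 hs1
      have : θ ∈ S.orb θ := Finset.mem_image.2 ⟨1, Finset.mem_univ _, kerTwist_one _ _⟩
      rw [ha, Finset.mem_singleton] at this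
      rw [ha, this]
    have hzero : ∀ θ', θ' ≠ θ → ∀ c, S.mv χ θ' c = 0 := fun θ' h =>
      hout θ' (by simpa [horb] using h)
    have hstab : stabImage S.act θ = S.act.range :=
      Subgroup.eq_of_le_of_card_ge (stabImage_le S θ) (le_of_eq hfe.symm)
    refine ⟨fun v => ?_, by omega, c₀, fun {d'} A htr c => ?_⟩
    · refine mem_center_of_norm χ hfaith ?_
      have h := S.value_eq_sum_sv χ 0 v
      rw [Finset.sum_eq_single θ (fun θ' _ h' => by
        rw [← S.sum_mv_cast]; simp [hzero θ' h']) (fun h' => absurd (Finset.mem_univ _) h'),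
        ← S.sum_mv_cast, ← Nat.cast_sum, show ∑ c : ZMod p, S.mv χ θ c = S.partDim χ θ from rfl,
        ZMod.val_zero, pow_zero, one_mul] at h
      have hpdθ := hpd θ (Finset.mem_image.2 ⟨1, Finset.mem_univ _, kerTwist_one _ _⟩)
      rw [h, norm_mul, Complex.norm_natCast, show S.partDim χ θ = d by omega]
      have hθn : ‖θ.1 v‖ = 1 := by
        obtain ⟨n, ρ, -, hρ⟩ := θ.2
        have hn : Module.finrank ℂ (Fin n → ℂ) = 1 := by
          have := irr_charDegree_spec θ
          rw [← congrFun hρ 1, Representation.char_one] at this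
          rw [← hθ1]
          exact_mod_cast this
        obtain ⟨b, μ, -, h2, h3⟩ := H25.exists_eigenbasis ρ v
        rw [← hρ, h3]
        haveI : Subsingleton (Fin (Module.finrank ℂ (Fin n → ℂ))) := by rw [hn]; infer_instance
        rw [Fintype.sum_subsingleton _ ⟨0, by omega⟩]
        exact Complex.norm_eq_one_of_pow_eq_one (h2 _) (orderOf_pos v).ne'
      rw [hθn, mul_one]
    · rw [mult_eq_sum S χ A htr, Finset.sum_eq_single θ (fun θ' _ h' => by
        rw [hzero θ' h', zero_mul]) (fun h' => absurd (Finset.mem_univ _) h'), hθ1, mul_one]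
      rcases eq_or_ne c 0 with rfl | hc
      · rw [hm0, if_neg (zero_not_mem_coset S c₀)]
      · rw [← Units.val_mk0 hc, hmc, hstab]
        by_cases hmem : c₀⁻¹ * Units.mk0 c hc ∈ S.act.range
        · rw [if_pos hmem, if_pos ((mem_coset S).2 (by rwa [mul_comm]))]
        · rw [if_neg hmem, if_neg fun h => hmem (by rw [mul_comm]; exact (mem_coset S).1 h)]
  exfalso
  obtain ⟨hz, hpd, -⟩ := hB
  have hdeg := charDegree_eq_orb S hout (D := S.fN θ) hpd
  rw [mul_right_comm, S.card_orb_mul_fN θ] at hdeg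
  -- pass to the normal closure of `x`
  set G₀ : Subgroup G := Subgroup.normalClosure {S.x} with hG₀
  have hx₀ : S.x ∈ G₀ := Subgroup.subset_normalClosure rfl
  set T := subSetup S G₀ hx₀ with hT
  obtain ⟨hgen, hTP⟩ := subSetup_gen S hnn G₀ hG₀ hx₀
  have hχ₀ : Cfsg.IsCharacter G₀ (χ.1 ∘ G₀.subtype) :=
    H26.isCharacter_comp (H26.irr_isCharacter χ) _
  obtain ⟨m, hm, hres⟩ := H26.exists_nat_coeffs hχ₀
  obtain ⟨ψ, hψm, hψx⟩ : ∃ ψ : Cfsg.IrrCharacter G₀, m ψ ≠ 0 ∧ ψ.1 T.x ≠ ψ.1 1 := by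
    by_contra hc
    simp only [not_exists, not_and, not_not] at hc
    refine hx ?_
    have h1 := congrFun hres T.x
    have h2 := congrFun hres 1
    simp only [Finset.sum_apply, Pi.smul_apply, Function.comp_apply] at h1 h2
    refine h1.trans (Eq.trans ?_ h2.symm)
    refine Finset.sum_congr rfl fun ψ _ => ?_
    rcases eq_or_ne (m ψ) 0 with h | h
    · simp [h]
    · rw [hc ψ h]
  have hψd : Cfsg.charDegree ψ.1 ≤ d := by
    have h := congrFun hres 1
    simp only [Finset.sum_apply, Pi.smul_apply, smul_eq_mul, Function.comp_apply, map_one,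
      irr_charDegree_spec] at h
    have h' : d = ∑ η, m η * Cfsg.charDegree η.1 := by exact_mod_cast h
    rw [h']
    refine le_trans (Nat.le_mul_of_pos_left _ (Nat.pos_of_ne_zero hψm)) ?_
    exact Finset.single_le_sum (f := fun η => m η * Cfsg.charDegree η.1)
      (fun _ _ => Nat.zero_le _) (Finset.mem_univ ψ)
  have hψfix : ∑ η : Cfsg.IrrCharacter T.V, T.mv ψ η 0 * Cfsg.charDegree η.1 = 0 := by
    have h0 : ∑ i : ZMod p, χ.1 (S.x ^ i.val) = 0 := by
      rw [sum_pow_eq]
      simp [hz]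
    have h1 : ∀ i : ZMod p, χ.1 (S.x ^ i.val) = ∑ η, (m η : ℂ) * η.1 (T.x ^ i.val) := fun i => by
      have := congrFun hres (T.x ^ i.val)
      simpa [Finset.sum_apply, hT, subSetup] using this
    simp only [h1] at h0
    rw [Finset.sum_comm] at h0
    simp only [← Finset.mul_sum, sum_pow_eq, mul_left_comm _ (p : ℂ)] at h0
    rw [mul_eq_zero] at h0
    have h2 := h0.resolve_left (Nat.cast_ne_zero.2 hp.out.ne_zero)
    have h3 : ∑ η, m η * (∑ η' : Cfsg.IrrCharacter T.V, T.mv η η' 0 * Cfsg.charDegree η'.1) = 0 := by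
      exact_mod_cast h2
    have h4 := Finset.sum_eq_zero_iff.1 h3 ψ (Finset.mem_univ ψ)
    exact (mul_eq_zero.1 h4).resolve_left hψm
  have hψz : ∀ η : Cfsg.IrrCharacter T.V, T.mv ψ η 0 = 0 := fun η =>
    (mul_eq_zero.1 (Finset.sum_eq_zero_iff.1 hψfix η (Finset.mem_univ η))).resolve_right
      (irr_charDegree_pos η).ne'
  obtain ⟨η, c₁, -, hout₁, hA₁ | hB₁⟩ := shape_cases T (χ := ψ) (by omega) hψx
  · exact absurd hA₁.2.1 (by rw [hψz]; omega)
  obtain ⟨-, hpd₁, hsupp₁⟩ := hB₁
  have hdeg₁ := charDegree_eq_orb T hout₁ (D := T.fN η) hpd₁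
  rw [mul_right_comm, T.card_orb_mul_fN η] at hdeg₁
  set e₀ := Nat.card T.act.range with he₀
  have he₀p : 2 * e₀ + 1 ≤ p := by
    obtain ⟨q, hq⟩ : e₀ ∣ p - 1 := by
      have h := Subgroup.card_subgroup_dvd_card T.act.range
      rwa [Nat.card_eq_fintype_card (α := (ZMod p)ˣ), ZMod.card_units] at h
    have : e₀ ≤ Cfsg.charDegree ψ.1 := by
      rw [hdeg₁]; exact Nat.le_mul_of_pos_right _ (irr_charDegree_pos η)
    have hq2 : 2 ≤ q := by
      by_contra hq2
      interval_cases q <;> omega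
    have : e₀ * 2 ≤ e₀ * q := Nat.mul_le_mul_left _ hq2
    omega
  -- a faithful reduction for the derived facts
  obtain ⟨n, ρ, -, hρ⟩ := χ.2
  have hn : n = d := by
    have h1 := irr_charDegree_spec χ
    rw [← congrFun hρ 1, Representation.char_one] at h1
    simpa using (show Module.finrank ℂ (Fin n → ℂ) = d by exact_mod_cast h1)
  let ρ₀ : Representation ℂ G₀ (Fin n → ℂ) :=
    (ρ : G →* Module.End ℂ (Fin n → ℂ)).comp G₀.subtype
  have hρ₀ : Function.Injective ρ₀ := by
    intro a b h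
    have h' : ρ (a : G) = ρ (b : G) := h
    have h2 : ρ ((a : G)⁻¹ * b) = 1 := by rw [map_mul, ← h', ← map_mul, inv_mul_cancel, map_one]
    refine Subtype.ext (inv_mul_eq_one.1 (hfaith _ ?_))
    rw [← hρ, Representation.character, Representation.character, h2, map_one ρ]
  obtain ⟨k, _, _, _, σ, hσ⟩ := H42.SmallFaithful.exists_faithful_reduction T hgen hTP ρ₀ hρ₀
  obtain ⟨hperf, hcent⟩ := H42.SmallFaithful.perfect_and_central T hgen hTP (d := n) (by omega) σ hσ
  -- the reduction of the constituent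
  obtain ⟨O, hO⟩ := H44.exists_valuationSubring_natCast_mem p
  haveI := isAlgClosed_residueField O
  haveI : CharP (ResidueField O) p := (CharP.charP_iff_prime_eq_zero hp.out).2 (by
    rw [← map_natCast (residue O), residue_eq_zero_iff]; exact hO)
  obtain ⟨d₁, R, hRtr, -⟩ := H31.Defect.exists_complex_lattice O ψ
  have hd₁ : d₁ = Cfsg.charDegree ψ.1 := by
    have h := hRtr 1
    rw [map_one, map_one, Matrix.trace_one, Fintype.card_fin, irr_charDegree_spec] at h
    exact_mod_cast h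
  let τ : G₀ →* Module.End (ResidueField O) (Fin d₁ → ResidueField O) :=
    Matrix.toLinAlgEquiv'.toMonoidHom.comp ((H31.Defect.red O (Fin d₁)).toMonoidHom.comp R)
  have hτr : delta τ T.x ^ (coset T c₁).card = 0 := by
    have h := red_pow_eq_zero T hO R (coset T c₁) fun c hc => by
      rw [mult_eq_sum T ψ _ hRtr]
      refine Finset.sum_eq_zero fun η' _ => ?_
      by_contra hne
      have hne' := left_ne_zero_of_mul hne
      by_cases hη' : η' ∈ T.orb η
      · exact hc (hsupp₁ η' hη' c hne')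
      · exact hne' (hout₁ η' hη' c)
    have e : delta τ T.x = Matrix.toLinAlgEquiv' (H31.Defect.red O (Fin d₁) (R T.x) - 1) := by
      rw [map_sub, map_one]; rfl
    rw [e, ← map_pow, h, map_zero]
  have hτx : τ T.x ≠ 1 := by
    intro hτx
    have hker : τ.ker = ⊤ := hgen _ inferInstance hτx
    refine hψx ?_
    -- every element of order prime to `p` acts trivially, so the image is a `p`-group
    have hreg : ∀ l : G₀, ¬ p ∣ orderOf l → R l = 1 := by
      intro l hl
      have hred : H31.Defect.red O (Fin d₁) (R l) = 1 := Matrix.toLinAlgEquiv'.injective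
        ((MonoidHom.mem_ker.1 (hker ▸ Subgroup.mem_top l : l ∈ τ.ker)).trans (map_one _).symm)
      set U := ∑ i ∈ Finset.range (orderOf l), R l ^ i with hU
      have hmul : U * (R l - 1) = 0 := by
        rw [hU, geom_sum_mul, ← map_pow, pow_orderOf_eq_one, map_one, sub_self]
      have hUu : IsUnit U := by
        rw [Matrix.isUnit_iff_isUnit_det]
        by_contra hnu
        have h0 : residue O U.det = 0 := (residue_eq_zero_iff _).2 ((mem_maximalIdeal _).2 hnu)
        rw [RingHom.map_det] at h0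
        change (H31.Defect.red O (Fin d₁) U).det = 0 at h0
        rw [hU, map_sum, Finset.sum_congr rfl fun i _ => by rw [map_pow, hred, one_pow],
          Finset.sum_const, Finset.card_range, ← Nat.cast_smul_eq_nsmul (ResidueField O),
          Matrix.det_smul, Matrix.det_one, mul_one] at h0
        exact hl ((CharP.cast_eq_zero_iff (ResidueField O) p _).1 (eq_zero_of_pow_eq_zero h0))
      exact sub_eq_zero.1 (hUu.mul_right_eq_zero.1 hmul)
    have hpow : ∀ g : G₀, R g ^ p = 1 := by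
      intro g
      rw [← map_pow]
      refine hreg _ fun h => ?_
      have hg : p ∣ orderOf g := h.trans (orderOf_pow_dvd p)
      rw [orderOf_pow' g hp.out.ne_zero, Nat.gcd_eq_right hg] at h
      refine T.not_sq ?_
      rw [sq]
      exact (Nat.mul_dvd_of_dvd_div hg h).trans (orderOf_dvd_natCard g)
    let Ru := R.toHomUnits
    let Rr := Ru.rangeRestrict
    have hsurj : Function.Surjective Rr := Ru.rangeRestrict_surjective
    haveI : Finite Ru.range := Finite.of_surjective _ hsurj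
    have hpg : IsPGroup p Ru.range := by
      rintro ⟨_, g, rfl⟩
      exact ⟨1, Subtype.ext (Units.ext (by
        rw [pow_one, Subgroup.coe_pow, Units.val_pow_eq_pow_val]; exact hpow g))⟩
    obtain ⟨a, ha⟩ := IsPGroup.iff_card.1 hpg
    have ha1 : a ≤ 1 := by
      by_contra h
      refine T.not_sq ?_
      exact ((pow_dvd_pow p (by omega : 2 ≤ a)).trans (ha ▸ dvd_rfl)).trans
        (Subgroup.card_dvd_of_surjective Rr hsurj)
    haveI : IsCyclic Ru.range := by
      rcases Nat.le_one_iff_eq_zero_or_eq_one.1 ha1 with rfl | rfl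
      · haveI : Subsingleton Ru.range := (Nat.card_eq_one_iff_unique.1 (by rw [ha, pow_zero])).1
        exact isCyclic_of_subsingleton
      · exact isCyclic_of_prime_card (p := p) (by rw [ha, pow_one])
    have hxk : T.x ∈ Rr.ker := by
      refine (?_ : commutator G₀ ≤ Rr.ker) (hperf ▸ Subgroup.mem_top T.x)
      rw [commutator_def, Subgroup.commutator_le]
      intro a _ b _
      rw [MonoidHom.mem_ker, map_commutatorElement, commutatorElement_eq_one_iff_mul_comm]
      exact IsCyclic.commGroup.mul_comm _ _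
    rw [← hRtr, ← hRtr, show R T.x = 1 from congrArg (fun a : Ru.range => ((a : (Matrix (Fin d₁) (Fin d₁) O)ˣ) : Matrix (Fin d₁) (Fin d₁) O)) (MonoidHom.mem_ker.1 hxk), map_one R]
  have hVc : ∀ (v : T.V) (g : G₀), Commute ((v : T.L) : G₀) g :=
    central_of_nil T hgen hperf hcent (r := (coset T c₁).card) (by rw [card_coset]; omega) d₁
      (Fin d₁ → ResidueField O) τ (by rw [Module.finrank_fin_fun]) hτr
      (by rw [Module.finrank_fin_fun]; omega) hτx
  have hη1 : Cfsg.charDegree η.1 = 1 := by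
    have h := H26.irr_one_eq_one_of_comm (G := T.V) (fun a b => Subtype.ext (Subtype.ext
      (hVc a ((b : T.L) : G₀)).eq)) η
    rw [irr_charDegree_spec] at h
    exact_mod_cast h
  rw [hη1, mul_one] at hdeg₁
  have he₁ : 2 * e₀ + 1 = p := by
    by_contra hne
    have hodd : Odd p := hp.out.odd_of_ne_two (by omega)
    obtain ⟨q, hq⟩ := hodd
    exact T.not_small_irreducible hgen hperf hVc ψ hψx (by omega)
  have hle : e₀ ≤ Nat.card S.act.range :=
    Subgroup.card_le_of_le (subSetup_range_le S G₀ hx₀)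
  obtain ⟨q, hq⟩ : Nat.card S.act.range ∣ p - 1 := by
    have h := Subgroup.card_subgroup_dvd_card S.act.range
    rwa [Nat.card_eq_fintype_card (α := (ZMod p)ˣ), ZMod.card_units] at h
  set e := Nat.card S.act.range with he
  have heq : e = e₀ := by
    have hq2 : 2 ≤ q := by
      by_contra hq2
      have hθp := irr_charDegree_pos θ
      have : e ≤ d := by rw [hd, hdeg]; exact Nat.le_mul_of_pos_right _ hθp
      interval_cases q <;> omega
    have : e * 2 ≤ e * q := Nat.mul_le_mul_left _ hq2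
    omega
  have h2θ : 2 ≤ Cfsg.charDegree θ.1 := by
    by_contra h
    have := irr_charDegree_pos θ
    rw [show Cfsg.charDegree θ.1 = 1 by omega, mul_one] at hdeg
    omega
  have : e * 2 ≤ e * Cfsg.charDegree θ.1 := Nat.mul_le_mul_left _ h2θ
  omega

end Cfsg.Agent.H40.SmallDeg
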