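import Mathlib
import Cfsg.Agent.H40.SmallDeg.Shape
import Cfsg.Agent.H40.SmallDeg.Close

/-!
The reduction of a representation with all eigenvalues but one coset is a single Jordan block,
generated by an eigenvector of the complement of the Sylow subgroup in its normaliser.
-/

set_option autoImplicit false
set_option maxHeartbeats 1000000
set_option linter.unusedSectionVars false

namespace Cfsg.Agent.H40.SmallDeg

open Matrix IsLocalRing Cfsg.Agent.H43.D1
open Cfsg.Agent.H31.Defect (red toK)
open Cfsg.Agent.H39.SmallDeg (rt qPoly IntMat eProj mult eSupp)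

attribute [local instance] Fintype.ofFinite Classical.propDecidable

variable {p : ℕ} [hp : Fact p.Prime] {G : Type*} [Group G] [Finite G] (S : Setup p G)
  {O : ValuationSubring ℂ}

theorem val_sum_congr {d : ℕ} {M N : Matrix (Fin d) (Fin d) O}
    (h : ∀ i j, O.valuation (toK O (Fin d) M i j - toK O (Fin d) N i j) < 1) :
    red O (Fin d) M = red O (Fin d) N := by
  ext i j
  show residue O (M i j) = residue O (N i j)
  rw [← sub_eq_zero, ← map_sub, residue_eq_zero_iff]
  exact (O.valuation_lt_one_iff _).2 (h i j)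

/-- The hypotheses: an absolutely irreducible integral representation whose eigenvalues at `x` are
all roots of unity outside one coset, each simple. -/
structure Piece (O : ValuationSubring ℂ) {d : ℕ} (R : G →* Matrix (Fin d) (Fin d) O)
    (c₀ : (ZMod p)ˣ) : Prop where
  mem : (p : O) ∈ maximalIdeal O
  schur : ∀ Φ : Matrix (Fin d) (Fin d) ℂ,
    (∀ g, Commute Φ (toK O (Fin d) (R g))) → ∃ c : ℂ, Φ = c • 1
  range : d + Nat.card S.act.range = p
  two : 2 ≤ d
  mult : ∀ c, mult S.x ((toK O (Fin d)).toMonoidHom.comp R) c = if c ∈ coset S c₀ then 0 else 1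

variable {d : ℕ} {R : G →* Matrix (Fin d) (Fin d) O} {c₀ : (ZMod p)ˣ}

theorem Piece.eSupp_eq (H : Piece S O R c₀) :
    (eSupp S.x ((toK O (Fin d)).toMonoidHom.comp R) : Finset (ZMod p)) = (coset S c₀)ᶜ := by
  ext c
  rw [← H39.SmallDeg.mult_pos_iff S.orderOf_x, H.mult, Finset.mem_compl]
  split_ifs with h <;> simp [h]

theorem Piece.card_compl (H : Piece S O R c₀) : ((coset S c₀)ᶜ).card = d := by
  rw [Finset.card_compl, card_coset, ZMod.card]
  have := H.range
  omega

theorem Piece.red_pow (H : Piece S O R c₀) : (red O (Fin d) (R S.x) - 1) ^ d = 0 := by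
  have h := red_pow_eq_zero S H.mem R ((coset S c₀)ᶜ) fun c hc => by
    rw [Finset.mem_compl, not_not] at hc
    rw [H.mult, if_pos hc]
  rwa [H.card_compl] at h

theorem mem_normalizer_act {g : G}
    (hg : g ∈ Subgroup.normalizer ((Subgroup.zpowers S.x : Subgroup G) : Set G)) :
    (H39.SmallDeg.aexp S.orderOf_x ⟨g, hg⟩) ∈ S.act.range := by
  have h1 : g * S.x * g⁻¹ ∈ Subgroup.zpowers S.x :=
    (Subgroup.mem_normalizer_iff.1 hg _).1 (Subgroup.mem_zpowers _)
  obtain ⟨l, hl, w, hw, rfl⟩ := S.exists_mul g h1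
  refine ⟨⟨l, hl⟩, Units.ext (S.x_pow_val_inj ?_)⟩
  rw [← S.act_spec, ← H39.SmallDeg.aexp_spec]
  obtain ⟨n, rfl⟩ := Subgroup.mem_zpowers_iff.1 hw
  group

/-- The reduction of `x` is a single Jordan block. -/
theorem Piece.red_pow_pred (H : Piece S O R c₀) :
    (red O (Fin d) (R S.x) - 1) ^ (d - 1) ≠ 0 := by
  intro h0
  set A := (toK O (Fin d)).toMonoidHom.comp R with hA
  set π := O.valuation (rt (1 : ZMod p) - 1) with hπ
  set e := Nat.card S.act.range with he
  have hint : ∀ g, IntMat O (A g) := fun g i j => (O.valuation_le_one_iff _).2 (R g i j).2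
  let f : ZMod p → ℂ := fun j => ∏ a : S.act.range, (rt (((a : (ZMod p)ˣ) : ZMod p) * j) - 1)
  set Φ : Matrix (Fin d) (Fin d) ℂ := ∑ j ∈ Finset.univ, f j • eProj S.x A j with hΦ
  have hΦp : Φ = Polynomial.aeval (A S.x)
      (∏ a : S.act.range, (Polynomial.X ^ ((a : (ZMod p)ˣ) : ZMod p).val - 1) : Polynomial ℂ) := by
    have key : ∀ (q : Polynomial ℂ) (j : ZMod p),
        Polynomial.aeval (A S.x) q * eProj S.x A j = q.eval (rt j) • eProj S.x A j := by
      intro q j
      induction q using Polynomial.induction_on' with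
      | add q r hq hr => rw [map_add, add_mul, hq, hr, Polynomial.eval_add, add_smul]
      | monomial n a =>
        rw [Polynomial.aeval_monomial, Polynomial.eval_monomial, Algebra.algebraMap_eq_smul_one,
          smul_mul_assoc, one_mul, smul_mul_assoc, mul_smul]
        congr 1
        induction n with
        | zero => simp
        | succ n ih =>
          rw [pow_succ, mul_assoc, H39.SmallDeg.z_mul_eProj S.orderOf_x, mul_smul_comm, ih,
            smul_smul, pow_succ']
    rw [hΦ]
    conv_rhs => rw [← mul_one (Polynomial.aeval (A S.x) _),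
      ← H39.SmallDeg.sum_eProj (p := p) (z := S.x) (A := A), Finset.mul_sum]
    refine Finset.sum_congr rfl fun j _ => ?_
    rw [key, Polynomial.eval_prod]
    congr 1
    refine Finset.prod_congr rfl fun a _ => ?_
    rw [Polynomial.eval_sub, Polynomial.eval_pow, Polynomial.eval_X, Polynomial.eval_one,
      ← H39.SmallDeg.rt_natCast_mul, ZMod.natCast_zmod_val]
  have hΦint : IntMat O Φ := by
    rw [hΦp]
    refine Finset.prod_induction _ (fun q => IntMat O (Polynomial.aeval (A S.x) q))
      (fun a b ha hb => by rw [map_mul]; exact ha.mul hb) (by rw [map_one]; exact IntMat.one)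
      fun a _ => ?_
    rw [map_sub, map_pow, Polynomial.aeval_X, map_one]
    exact ((hint _).pow _).sub IntMat.one
  have hΦN : ∀ g ∈ Subgroup.normalizer ((Subgroup.zpowers S.x : Subgroup G) : Set G),
      Commute Φ (A g) := by
    intro g hg
    refine H39.SmallDeg.sum_eProj_comm S.orderOf_x f (fun _ _ => by simp) (fun n j => ?_) g hg
    have hb := mem_normalizer_act S n.2
    refine Fintype.prod_equiv (Equiv.mulRight (⟨_, hb⟩ : S.act.range)) _ _ fun a => ?_
    simp only [Equiv.coe_mulRight, Subgroup.coe_mul, Units.val_mul, mul_assoc]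
  have hsmall : ∀ j ∈ (eSupp S.x A : Finset (ZMod p)), ∀ a b,
      O.valuation (Polynomial.aeval (A S.x) (qPoly ((eSupp S.x A : Finset (ZMod p)).erase j)) a b) < 1 := by
    intro j hj a b
    have h := red_aeval_qPoly H.mem (R S.x) ((eSupp S.x A : Finset (ZMod p)).erase j) a b
    rw [Finset.card_erase_of_mem hj, H.eSupp_eq, H.card_compl] at h
    have h2 : O.valuation (toK O (Fin d) ((R S.x - 1) ^ (d - 1)) a b) < 1 := by
      refine (O.valuation_lt_one_iff _).1 ((residue_eq_zero_iff _).1 ?_)
      have := congrFun (congrFun h0 a) b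
      rw [← map_one (red O (Fin d)), ← map_sub, ← map_pow] at this
      simpa [red] using this
    rw [H.eSupp_eq]
    have := Valuation.map_add O.valuation
      (Polynomial.aeval (toK O (Fin d) (R S.x)) (qPoly (((coset S c₀)ᶜ).erase j)) a b -
        toK O (Fin d) ((R S.x - 1) ^ (d - 1)) a b) (toK O (Fin d) ((R S.x - 1) ^ (d - 1)) a b)
    rw [sub_add_cancel] at this
    exact lt_of_le_of_lt this (max_lt h h2)
  obtain ⟨c, hc⟩ := exists_scalar_close_lt S.orderOf_x S.not_sq A hint H.schur
    (H39.SmallDeg.aeval_eSupp S.orderOf_x) hΦint hΦN hsmall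
  rw [H.eSupp_eq, H.card_compl] at hc
  have hev : ∀ j ∈ (coset S c₀)ᶜ, O.valuation (c - f j) * π ^ (d - 1) < π ^ (p - 1) := by
    intro j hj
    have hne : eProj S.x A j * 1 ≠ 0 := by
      rw [mul_one]
      exact H39.SmallDeg.mem_eSupp.1 (H.eSupp_eq.symm ▸ hj)
    obtain ⟨w, hw, hzw⟩ := H39.SmallDeg.exists_eigvec (A := A) S.orderOf_x (j := j) 1 hne
    refine hc j hj _ _ hw hzw ?_
    rw [mul_one, Matrix.mulVec_mulVec, hΦ, Finset.sum_mul,
      Finset.sum_eq_single j (fun i _ hi => by
        rw [smul_mul_assoc, H39.SmallDeg.eProj_mul S.orderOf_x, if_neg hi, smul_zero])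
        (fun h => absurd (Finset.mem_univ _) h),
      smul_mul_assoc, H39.SmallDeg.eProj_idem S.orderOf_x, Matrix.smul_mulVec]
  obtain ⟨j, hj, hj0⟩ := Finset.exists_mem_ne
    (show 1 < ((coset S c₀)ᶜ).card by rw [H.card_compl]; have := H.two; omega) (0 : ZMod p)
  have h0' := hev 0 (by simpa using zero_not_mem_coset S c₀)
  have hj' := hev j hj
  have hf0 : f 0 = 0 := Finset.prod_eq_zero (Finset.mem_univ (1 : S.act.range))
    (by rw [mul_zero, H39.SmallDeg.rt_zero, sub_self])
  have hfj : O.valuation (f j) = π ^ e := by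
    rw [map_prod, Finset.prod_eq_pow_card (b := π), Finset.card_univ, ← Nat.card_eq_fintype_card]
    intro a _
    exact H39.SmallDeg.val_rt_sub_one (mul_ne_zero (Units.ne_zero _) hj0)
  rw [hf0, sub_zero] at h0'
  have hle : O.valuation (f j) * π ^ (d - 1) < π ^ (p - 1) := by
    have e1 : f j = c - (c - f j) := by ring
    rw [e1]
    refine lt_of_le_of_lt (mul_le_mul_left (Valuation.map_sub _ _ _) _) ?_
    rcases max_choice (O.valuation c) (O.valuation (c - f j)) with h | h <;> rw [h]
    exacts [h0', hj']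
  rw [hfj, ← pow_add, show e + (d - 1) = p - 1 by have := H.range; have := H.two; omega] at hle
  exact lt_irrefl _ hle

/-- An idempotent of rank one turns a commuting matrix into a scalar. -/
theorem mul_rank_one {E M : Matrix (Fin d) (Fin d) ℂ} (hE : E * E = E) (hr : E.rank = 1)
    (hc : Commute M E) : M * E = (M * E).trace • E := by
  obtain ⟨⟨w, hw⟩, hw0, hall⟩ := finrank_eq_one_iff'.1
    (show Module.finrank ℂ (LinearMap.range E.mulVecLin) = 1 from hr)
  obtain ⟨α, hα⟩ := hall ⟨M *ᵥ w, by
    obtain ⟨w', rfl⟩ := hw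
    exact ⟨M *ᵥ w', by rw [Matrix.mulVecLin_apply, Matrix.mulVecLin_apply, Matrix.mulVec_mulVec,
      Matrix.mulVec_mulVec, hc.eq]⟩⟩
  have hα' : α • w = M *ᵥ w := congrArg Subtype.val hα
  have key : M * E = α • E := by
    refine Matrix.toLin'.injective (LinearMap.ext fun v => ?_)
    obtain ⟨b, hb⟩ := hall ⟨E *ᵥ v, v, rfl⟩
    have hb' : b • w = E *ᵥ v := congrArg Subtype.val hb
    simp only [Matrix.toLin'_apply, ← Matrix.mulVec_mulVec, Matrix.smul_mulVec, ← hb',
      Matrix.mulVec_smul, ← hα']
    rw [smul_comm]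
  have ht : (M * E).trace = α := by
    rw [key, Matrix.trace_smul, H31.Defect.trace_idem hE, hr, Nat.cast_one, smul_eq_mul, mul_one]
  rw [ht, key]

/-- An eigenvector of the complement generating the reduction, with the weight of the fixed line
of `x`. -/
theorem Piece.exists_weight (H : Piece S O R c₀) :
    ∃ (T : S.L →* O) (u : Fin d → O), (∀ l : S.L, R (l : G) *ᵥ u = T l • u) ∧
      ((red O (Fin d) (R S.x) - 1) ^ (d - 1)) *ᵥ (residue O ∘ u) ≠ 0 ∧
      (∀ l : S.L, toK O (Fin d) (R (l : G)) *
          eProj S.x ((toK O (Fin d)).toMonoidHom.comp R) (0 : ZMod p) =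
        (T l : ℂ) • eProj S.x ((toK O (Fin d)).toMonoidHom.comp R) (0 : ZMod p)) ∧
      (∀ l : S.L, red O (Fin d) (R (l : G)) * (red O (Fin d) (R S.x) - 1) ^ (d - 1) =
        residue O (T l) • (red O (Fin d) (R S.x) - 1) ^ (d - 1)) := by
  set A := (toK O (Fin d)).toMonoidHom.comp R with hA
  set E0 := eProj S.x A (0 : ZMod p) with hE0
  have hE : E0 * E0 = E0 := H39.SmallDeg.eProj_idem S.orderOf_x 0
  have hr : E0.rank = 1 := by
    have := H.mult 0
    rwa [if_neg (zero_not_mem_coset S c₀)] at this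
  have hcomm : ∀ l : S.L, Commute (A (l : G)) E0 := fun l => by
    have h := H39.SmallDeg.conj_eProj (A := A) S.orderOf_x (S.act l).ne_zero (S.act_spec l) 0
    rwa [mul_zero] at h
  let t : S.L → ℂ := fun l => (A (l : G) * E0).trace
  have ht : ∀ l : S.L, A (l : G) * E0 = t l • E0 := fun l => mul_rank_one hE hr (hcomm l)
  have hE00 : E0 ≠ 0 := fun h => by rw [h, Matrix.rank_zero] at hr; exact zero_ne_one hr
  have ht1 : t 1 = 1 := by
    show (A ((1 : S.L) : G) * E0).trace = 1
    rw [OneMemClass.coe_one, map_one, one_mul, H31.Defect.trace_idem hE, hr, Nat.cast_one]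
  have htm : ∀ l l' : S.L, t (l * l') = t l * t l' := fun l l' => by
    refine smul_left_injective ℂ hE00 ?_
    show t (l * l') • E0 = (t l * t l') • E0
    rw [← ht, Subgroup.coe_mul, map_mul, mul_assoc, ht l', mul_smul_comm, ht l, smul_smul, mul_comm]
  let tH : S.L →* ℂ := { toFun := t, map_one' := ht1, map_mul' := htm }
  have htint : ∀ l, t l ∈ O := fun l => by
    refine (O.valuation_le_one_iff _).1 (le_of_eq (H31.Defect.val_root_of_unity
      (n := Fintype.card S.L) Fintype.card_ne_zero ?_))
    show tH l ^ Fintype.card S.L = 1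
    rw [← map_pow, pow_card_eq_one, map_one]
  let T : S.L →* O :=
    { toFun := fun l => ⟨t l, htint l⟩
      map_one' := Subtype.ext ht1
      map_mul' := fun a b => Subtype.ext (htm a b) }
  -- the eigenvalue on the socle of the reduction
  have hsupp0 : (0 : ZMod p) ∈ (coset S c₀)ᶜ := by simpa using zero_not_mem_coset S c₀
  set δ := red O (Fin d) (R S.x) - 1 with hδ
  set D := R S.x - 1 with hD
  have hred : δ ^ (d - 1) = red O (Fin d) (D ^ (d - 1)) := by
    rw [hδ, hD, map_pow, map_sub, map_one]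
  have hQ : Polynomial.aeval (A S.x) (qPoly (((coset S c₀)ᶜ).erase 0)) =
      (qPoly (((coset S c₀)ᶜ).erase 0)).eval (rt (0 : ZMod p)) • E0 := by
    have h := H39.SmallDeg.aeval_erase (A := A) S.orderOf_x (0 : ZMod p)
    rwa [H.eSupp_eq] at h
  set Q := Polynomial.aeval (A S.x) (qPoly (((coset S c₀)ᶜ).erase 0)) with hQdef
  have hclose : ∀ i j, O.valuation (Q i j - toK O (Fin d) (D ^ (d - 1)) i j) < 1 := by
    intro i j
    have h := red_aeval_qPoly H.mem (R S.x) (((coset S c₀)ᶜ).erase 0) i j
    rwa [Finset.card_erase_of_mem hsupp0, H.card_compl] at h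
  have hsoc : ∀ l : S.L, red O (Fin d) (R (l : G)) * δ ^ (d - 1) =
      residue O (T l) • δ ^ (d - 1) := by
    intro l
    have hl : A (l : G) * Q = t l • Q := by rw [hQ, mul_smul_comm, ht, smul_comm]
    have e : red O (Fin d) (R (l : G) * D ^ (d - 1)) = red O (Fin d) (T l • D ^ (d - 1)) := by
      refine val_sum_congr fun i j => ?_
      have e2 : toK O (Fin d) (T l • D ^ (d - 1)) = t l • toK O (Fin d) (D ^ (d - 1)) := by
        ext a b; rfl
      have e3 : toK O (Fin d) (R (l : G) * D ^ (d - 1)) i j -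
          toK O (Fin d) (T l • D ^ (d - 1)) i j =
          -((A (l : G) * (Q - toK O (Fin d) (D ^ (d - 1)))) i j) +
            t l * (Q i j - toK O (Fin d) (D ^ (d - 1)) i j) := by
        rw [map_mul, e2, mul_sub, hl, Matrix.sub_apply, Matrix.smul_apply, Matrix.smul_apply,
          smul_eq_mul, smul_eq_mul]
        show (A (l : G) * toK O (Fin d) (D ^ (d - 1))) i j - _ = _
        ring
      rw [e3]
      refine lt_of_le_of_lt (Valuation.map_add _ _ _) (max_lt ?_ ?_)
      · rw [Valuation.map_neg, Matrix.mul_apply]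
        refine Valuation.map_sum_lt _ zero_ne_one.symm fun b _ => ?_
        rw [map_mul, Matrix.sub_apply]
        exact lt_of_le_of_lt (mul_le_of_le_one_left zero_le
          ((O.valuation_le_one_iff _).2 (R (l : G) i b).2)) (hclose b j)
      · rw [map_mul]
        exact lt_of_le_of_lt (mul_le_of_le_one_left zero_le
          ((O.valuation_le_one_iff _).2 (htint l))) (hclose i j)
    rw [hred, ← map_mul, e]
    ext i j
    simp [red]
  have hsoc' : ∀ l : S.L, δ ^ (d - 1) * red O (Fin d) (R (l : G)) =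
      residue O (T l) • δ ^ (d - 1) := by
    intro l
    have hl : Q * A (l : G) = t l • Q := by
      rw [hQ, smul_mul_assoc, ← (hcomm l).eq, ht, smul_comm]
    have e : red O (Fin d) (D ^ (d - 1) * R (l : G)) = red O (Fin d) (T l • D ^ (d - 1)) := by
      refine val_sum_congr fun i j => ?_
      have e2 : toK O (Fin d) (T l • D ^ (d - 1)) = t l • toK O (Fin d) (D ^ (d - 1)) := by
        ext a b; rfl
      have e3 : toK O (Fin d) (D ^ (d - 1) * R (l : G)) i j -
          toK O (Fin d) (T l • D ^ (d - 1)) i j =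
          -(((Q - toK O (Fin d) (D ^ (d - 1))) * A (l : G)) i j) +
            t l * (Q i j - toK O (Fin d) (D ^ (d - 1)) i j) := by
        rw [map_mul, e2, sub_mul, hl, Matrix.sub_apply, Matrix.smul_apply, Matrix.smul_apply,
          smul_eq_mul, smul_eq_mul]
        show (toK O (Fin d) (D ^ (d - 1)) * A (l : G)) i j - _ = _
        ring
      rw [e3]
      refine lt_of_le_of_lt (Valuation.map_add _ _ _) (max_lt ?_ ?_)
      · rw [Valuation.map_neg, Matrix.mul_apply]
        refine Valuation.map_sum_lt _ zero_ne_one.symm fun b _ => ?_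
        rw [map_mul, Matrix.sub_apply]
        exact lt_of_le_of_lt (mul_le_of_le_one_right zero_le
          ((O.valuation_le_one_iff _).2 (R (l : G) b j).2)) (hclose i b)
      · rw [map_mul]
        exact lt_of_le_of_lt (mul_le_of_le_one_left zero_le
          ((O.valuation_le_one_iff _).2 (htint l))) (hclose i j)
    rw [hred, ← map_mul, e]
    ext i j
    simp [red]
  -- the generator
  obtain ⟨i₀, j₀, hij⟩ : ∃ i j, (δ ^ (d - 1)) i j ≠ 0 := by
    by_contra hc
    push Not at hc
    exact Piece.red_pow_pred S H (Matrix.ext hc)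
  set n := Fintype.card S.L with hn
  have hnu : IsUnit ((n : ℕ) : O) := by
    by_contra hnu
    have h0 : residue O ((n : ℕ) : O) = 0 :=
      (residue_eq_zero_iff _).2 ((mem_maximalIdeal _).2 hnu)
    rw [map_natCast] at h0
    haveI : CharP (ResidueField O) p := (CharP.charP_iff_prime_eq_zero hp.out).2 (by
      rw [← map_natCast (residue O), residue_eq_zero_iff]; exact H.mem)
    rw [CharP.cast_eq_zero_iff (ResidueField O) p, hn, ← Nat.card_eq_fintype_card] at h0
    exact S.not_dvd h0
  obtain ⟨nu, hnu'⟩ := hnu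
  set ũ : Fin d → O := Pi.single j₀ 1 with hũ
  set u : Fin d → O := (↑nu⁻¹ : O) • ∑ l : S.L, T l⁻¹ • (R (l : G) *ᵥ ũ) with hu
  refine ⟨T, u, fun l => ?_, ?_, ht, hsoc⟩
  · rw [hu, Matrix.mulVec_smul, smul_comm (T l), Matrix.mulVec_sum]
    refine congrArg ((↑nu⁻¹ : O) • ·) ?_
    rw [Finset.smul_sum]
    refine Fintype.sum_equiv (Equiv.mulLeft l) _ _ fun m => ?_
    rw [Equiv.coe_mulLeft, Matrix.mulVec_smul, Matrix.mulVec_mulVec, ← map_mul, ← Subgroup.coe_mul,
      smul_smul, _root_.mul_inv_rev, map_mul T, mul_left_comm, ← map_mul T l, mul_inv_cancel, map_one,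
      mul_one]
  · have hmap : ∀ (M : Matrix (Fin d) (Fin d) O) (v : Fin d → O),
        residue O ∘ (M *ᵥ v) = red O (Fin d) M *ᵥ (residue O ∘ v) := fun M v => by
      funext i
      simp [red, Matrix.mulVec, dotProduct, map_sum]
    have hru : residue O ∘ u =
        residue O (↑nu⁻¹ : O) • ∑ l : S.L, residue O (T l⁻¹) •
          (red O (Fin d) (R (l : G)) *ᵥ (residue O ∘ ũ)) := by
      funext i
      simp only [hu, Function.comp_apply, Pi.smul_apply, Finset.sum_apply, smul_eq_mul, map_mul,
        map_sum, ← hmap]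
    rw [hru, Matrix.mulVec_smul, Matrix.mulVec_sum,
      Finset.sum_congr rfl fun (l : S.L) _ => show
        δ ^ (d - 1) *ᵥ (residue O (T l⁻¹) • (red O (Fin d) (R (l : G)) *ᵥ (residue O ∘ ũ))) =
          δ ^ (d - 1) *ᵥ (residue O ∘ ũ) by
        rw [Matrix.mulVec_smul, Matrix.mulVec_mulVec, hsoc', Matrix.smul_mulVec, smul_smul,
          ← map_mul, ← map_mul, inv_mul_cancel, map_one, map_one, one_smul],
      Finset.sum_const, Finset.card_univ, ← hn, ← Nat.cast_smul_eq_nsmul (ResidueField O), smul_smul,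
      ← map_natCast (residue O), ← map_mul, ← hnu', Units.inv_mul, map_one, one_smul]
    intro h
    refine hij ?_
    have := congrFun h i₀
    simpa [hũ, Matrix.mulVec, dotProduct, Pi.single_apply, apply_ite (residue O)] using this

end Cfsg.Agent.H40.SmallDeg
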