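import Mathlib
import Cfsg.Agent.H40.SmallDeg.Cyclic
import Cfsg.Agent.H39.SmallDeg.Norm
import Cfsg.Agent.H44.UniqueDivisibleDegree

/-!
Galois conjugates of a small representation twisted by powers of the determinant.
-/

set_option autoImplicit false
set_option maxHeartbeats 1000000
set_option linter.unusedSectionVars false

namespace Cfsg.Agent.H40.SmallDeg

open Matrix IsLocalRing Cfsg.Agent.H43.D1
open Cfsg.Agent.H31.Defect (red toK)
open Cfsg.Agent.H39.SmallDeg (rt eProj mult)

attribute [local instance] Fintype.ofFinite Classical.propDecidable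

variable {p : ℕ} [hp : Fact p.Prime] {G : Type*} [Group G] [Finite G] (S : Setup p G)
  {O : ValuationSubring ℂ}

/-- The determinant of a matrix carrying a cyclic basis to a twisted one. -/
theorem det_of_twist {k : Type*} [Field k] {d : ℕ} {δ M : Matrix (Fin d) (Fin d) k}
    (hδ : δ ^ d = 0) {v : Fin d → k} (hv : δ ^ (d - 1) *ᵥ v ≠ 0) {a : ℕ}
    (hM : M * (1 + δ) = (1 + δ) ^ a * M) {β : k} (hMv : M *ᵥ v = β • v) :
    M.det = β ^ d * (a : k) ^ (d * (d - 1) / 2) := by
  classical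
  set P : Matrix (Fin d) (Fin d) k := Matrix.of fun i j => (δ ^ (j : ℕ) *ᵥ v) i with hP
  have hPu : IsUnit P := by
    refine Matrix.linearIndependent_cols_iff_isUnit.1 ?_
    rw [Fintype.linearIndependent_iff]
    intro g hg
    by_contra hne
    push Not at hne
    obtain ⟨i, hi⟩ := hne
    obtain ⟨j, hj, hjm⟩ := Finset.exists_min_image (Finset.univ.filter fun j => g j ≠ 0) id
      ⟨i, Finset.mem_filter.2 ⟨Finset.mem_univ _, hi⟩⟩
    refine (Finset.mem_filter.1 hj).2 ?_
    have h := congrArg (fun w => δ ^ (d - 1 - (j : ℕ)) *ᵥ w) hg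
    simp only [Matrix.mulVec_sum, Matrix.mulVec_smul, Matrix.mulVec_zero] at h
    rw [Finset.sum_eq_single j (fun l _ hl => ?_) (fun h => absurd (Finset.mem_univ _) h)] at h
    · rw [show P.col j = δ ^ (j : ℕ) *ᵥ v from rfl, Matrix.mulVec_mulVec, ← pow_add,
        Nat.sub_add_cancel (by omega), smul_eq_zero] at h
      exact h.resolve_right hv
    · rcases lt_or_gt_of_ne hl with hlt | hgt
      · rw [show g l = 0 by
          by_contra h'
          exact not_le.2 hlt (hjm l (Finset.mem_filter.2 ⟨Finset.mem_univ _, h'⟩)), zero_smul]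
      · rw [show P.col l = δ ^ (l : ℕ) *ᵥ v from rfl, Matrix.mulVec_mulVec, ← pow_add,
          pow_eq_zero_of_le (by have : (j : ℕ) < l := hgt; omega) hδ, Matrix.zero_mulVec, smul_zero]
  set F : Polynomial k := (Polynomial.X + 1) ^ a - 1 with hF
  have hF0 : F.coeff 0 = 0 := by
    rw [hF, Polynomial.coeff_sub, Polynomial.coeff_X_add_one_pow, Polynomial.coeff_one_zero]
    simp
  obtain ⟨g, hg⟩ : Polynomial.X ∣ F := Polynomial.X_dvd_iff.2 hF0
  have hg0 : g.coeff 0 = (a : k) := by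
    have h1 : F.coeff 1 = (a : k) := by
      rw [hF, Polynomial.coeff_sub, Polynomial.coeff_X_add_one_pow, Polynomial.coeff_one]
      simp
    rwa [hg, Polynomial.coeff_X_mul] at h1
  set U : Matrix (Fin d) (Fin d) k := Matrix.of fun q j => β * (F ^ (j : ℕ)).coeff q with hU
  have hMP : M * P = P * U := by
    have hstep : ∀ j : ℕ, M * δ ^ j = Polynomial.aeval δ (F ^ j) * M := by
      intro j
      induction j with
      | zero => simp
      | succ j ih =>
        have h1 : M * δ = Polynomial.aeval δ F * M := by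
          have h2 : M * (1 + δ) - M = (1 + δ) ^ a * M - M := by rw [hM]
          rw [mul_add, mul_one, add_sub_cancel_left] at h2
          rw [h2, hF, map_sub, map_pow, map_add, Polynomial.aeval_X, map_one, sub_mul, one_mul,
            add_comm δ]
        rw [pow_succ, ← mul_assoc, ih, mul_assoc, h1, ← mul_assoc, pow_succ, map_mul]
    ext i j
    have hcol : (M * P) i j = β * (Polynomial.aeval δ (F ^ (j : ℕ)) *ᵥ v) i := by
      show (M *ᵥ (δ ^ (j : ℕ) *ᵥ v)) i = _
      rw [Matrix.mulVec_mulVec, hstep, ← Matrix.mulVec_mulVec, hMv, Matrix.mulVec_smul]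
      rfl
    rw [hcol, Matrix.mul_apply]
    set q := F ^ (j : ℕ)
    have hq : Polynomial.aeval δ q = ∑ l ∈ Finset.range d, q.coeff l • δ ^ l := by
      rw [Polynomial.aeval_eq_sum_range' (Nat.lt_succ_of_le (le_max_left q.natDegree d))]
      refine (Finset.sum_subset (Finset.range_mono (by omega)) fun l _ hl => ?_).symm
      rw [pow_eq_zero_of_le (by simpa using hl) hδ, smul_zero]
    rw [hq, Matrix.sum_mulVec, Finset.sum_apply, Finset.mul_sum, ← Fin.sum_univ_eq_sum_range]
    refine Finset.sum_congr rfl fun l _ => ?_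
    simp only [hP, hU, Matrix.of_apply, Matrix.smul_mulVec, Pi.smul_apply, smul_eq_mul]
    ring
  have hdet : U.det = β ^ d * (a : k) ^ (d * (d - 1) / 2) := by
    rw [Matrix.det_of_lowerTriangular U (fun i j hij => ?_)]
    · have hdiag : ∀ j : Fin d, U j j = β * (a : k) ^ (j : ℕ) := fun j => by
        have h1 : (Polynomial.X ^ (j : ℕ) * g ^ (j : ℕ)).coeff j = (a : k) ^ (j : ℕ) := by
          rw [Polynomial.coeff_X_pow_mul', if_pos le_rfl, Nat.sub_self,
            Polynomial.coeff_zero_eq_eval_zero, Polynomial.eval_pow,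
            ← Polynomial.coeff_zero_eq_eval_zero, hg0]
        rw [hU, Matrix.of_apply, hg, mul_pow, h1]
      rw [Finset.prod_congr rfl fun j _ => hdiag j, Finset.prod_mul_distrib, Finset.prod_const,
        Finset.card_univ, Fintype.card_fin, Finset.prod_pow_eq_pow_sum,
        Fin.sum_univ_eq_sum_range (fun j => j), Finset.sum_range_id]
    · have hlt : (i : ℕ) < (j : ℕ) := hij
      rw [hU, Matrix.of_apply, hg, mul_pow, Polynomial.coeff_X_pow_mul', if_neg (by omega), mul_zero]
  have h2 := congrArg Matrix.det hMP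
  rw [Matrix.det_mul, Matrix.det_mul, mul_comm] at h2
  rw [mul_left_cancel₀ (by rw [← isUnit_iff_ne_zero]; exact (Matrix.isUnit_iff_isUnit_det P).1 hPu) h2,
    hdet]

variable {d : ℕ} {R : G →* Matrix (Fin d) (Fin d) O} {c₀ : (ZMod p)ˣ}

theorem red_mul_pow {l : S.L} :
    red O (Fin d) (R (l : G)) * (1 + (red O (Fin d) (R S.x) - 1)) =
      (1 + (red O (Fin d) (R S.x) - 1)) ^ (S.act l : ZMod p).val * red O (Fin d) (R (l : G)) := by
  rw [add_sub_cancel, ← map_pow, ← map_pow, ← map_mul, ← map_mul, ← map_mul, ← map_mul,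
    ← S.act_spec l, inv_mul_cancel_right]

/-- A Galois conjugate twisted by a power of the determinant. -/
theorem exists_target (H : Piece S O R c₀) (χ : Cfsg.IrrCharacter G)
    (htr : ∀ g, (toK O (Fin d) (R g)).trace = χ.1 g) (T : S.L →* O) (u : Fin d → O)
    (hu : ∀ l : S.L, R (l : G) *ᵥ u = T l • u)
    (hu1 : ((red O (Fin d) (R S.x) - 1) ^ (d - 1)) *ᵥ (residue O ∘ u) ≠ 0)
    (hE : ∀ l : S.L, toK O (Fin d) (R (l : G)) *
        eProj S.x ((toK O (Fin d)).toMonoidHom.comp R) (0 : ZMod p) =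
      (T l : ℂ) • eProj S.x ((toK O (Fin d)).toMonoidHom.comp R) (0 : ZMod p))
    {b k : ℕ} (hb : b.Coprime (Nat.card G / p)) (hk : p ∣ k)
    (hbk : ∀ l : S.L, T l ^ (b + d * k) = T l ^ 2) (a : (ZMod p)ˣ) :
    ∃ (θ : Cfsg.IrrCharacter G) (R' : G →* Matrix (Fin d) (Fin d) O) (T' : S.L →* O)
        (u' : Fin d → O),
      Piece S O R' (a * c₀) ∧ (∀ g, (toK O (Fin d) (R' g)).trace = θ.1 g) ∧
      (∀ l : S.L, R' (l : G) *ᵥ u' = T' l • u') ∧
      ((red O (Fin d) (R' S.x) - 1) ^ (d - 1)) *ᵥ (residue O ∘ u') ≠ 0 ∧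
      (∀ l : S.L, toK O (Fin d) (R' (l : G)) *
          eProj S.x ((toK O (Fin d)).toMonoidHom.comp R') (0 : ZMod p) =
        (T' l : ℂ) • eProj S.x ((toK O (Fin d)).toMonoidHom.comp R') (0 : ZMod p)) ∧
      ∀ l : S.L, residue O (T' l) = residue O (T l) ^ 2 *
        (((S.act l : ZMod p).val : ℕ) : ResidueField O) ^ (k * (d * (d - 1) / 2)) := by
  classical
  obtain ⟨r, hr, hra, hrb⟩ := H39.SmallDeg.exists_exponent S.orderOf_x S.not_sq a.ne_zero hb
  obtain ⟨σ, hσ⟩ := H45.exists_ringAut_pow (Nat.card_pos (α := G)).ne' hr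
  let A : G →* Matrix (Fin d) (Fin d) ℂ := (toK O (Fin d)).toMonoidHom.comp R
  let f : G →* ℂˣ := ((powMonoidHom k).comp (Matrix.detMonoidHom.comp A)).toHomUnits
  have hf : ∀ g, (f g : ℂ) = (toK O (Fin d) (R g)).det ^ k := fun g => rfl
  let θ : Cfsg.IrrCharacter G :=
    ⟨_, H44.isIrrCharacter_linear_mul f (H45.galIrr hr χ)⟩
  have hθ : ∀ g, θ.1 g = (f g : ℂ) * χ.1 (g ^ r) := fun g => rfl
  have hfx : ∀ i : ℕ, (f (S.x ^ i) : ℂ) = 1 := by
    intro i
    obtain ⟨q, hq⟩ := hk
    rw [hf, map_pow, map_pow, Matrix.det_pow, hq, ← pow_mul, ← mul_assoc, mul_comm i p, mul_assoc,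
      pow_mul, ← Matrix.det_pow, ← map_pow, ← map_pow, S.x_pow_p, map_one, map_one, Matrix.det_one,
      one_pow]
  obtain ⟨d', R', htr', -⟩ := H31.Defect.exists_complex_lattice O θ
  have hd' : d' = d := by
    have h := htr' 1
    rw [map_one, map_one, Matrix.trace_one, Fintype.card_fin, hθ, one_pow, ← htr, map_one, map_one,
      map_one, Matrix.trace_one, Fintype.card_fin, Units.val_one, one_mul] at h
    exact_mod_cast h
  subst hd'
  have H' : Piece S O R' (a * c₀) := by
    refine ⟨H.mem, fun Φ hΦ => H31.Defect.schur_of_char θ ((toK O (Fin d')).toMonoidHom.comp R')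
      htr' hΦ, H.range, H.two, fun c => ?_⟩
    have e : (mult S.x ((toK O (Fin d')).toMonoidHom.comp R') c : ℂ) =
        (mult S.x A ((a : ZMod p)⁻¹ * c) : ℂ) := by
      rw [H39.SmallDeg.mult_eq S.orderOf_x htr', H39.SmallDeg.mult_eq S.orderOf_x htr]
      congr 1
      refine Fintype.sum_equiv (Equiv.mulLeft₀ (a : ZMod p) a.ne_zero) _ _ fun i => ?_
      rw [Equiv.mulLeft₀_apply, hθ, hfx, one_mul, ← pow_mul, mul_comm i.val r, pow_mul,
        ← H31.Defect.pow_val_natCast S.orderOf_x r, H31.Defect.pow_val_mul S.orderOf_x, hra]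
      congr 2
      field_simp
    have e' := Nat.cast_injective (R := ℂ) e
    rw [e', H.mult]
    refine if_congr ?_ rfl rfl
    rcases eq_or_ne c 0 with rfl | hc
    · rw [mul_zero]
      exact iff_of_false (zero_not_mem_coset S _) (zero_not_mem_coset S _)
    · rw [← Units.val_mk0 hc, ← Units.val_inv_eq_inv_val, ← Units.val_mul, mem_coset, mem_coset,
        _root_.mul_inv_rev, mul_comm c₀⁻¹, mul_comm a⁻¹, mul_assoc]
  obtain ⟨T', u', hu', hu1', hE', -⟩ := H'.exists_weight
  refine ⟨θ, R', T', u', H', htr', hu', hu1', hE', fun l => ?_⟩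
  -- the weight on the fixed line
  have hformula : ∀ (R₁ : G →* Matrix (Fin d') (Fin d') O) (c₁ : (ZMod p)ˣ) (T₁ : S.L →* O)
      (φ : G → ℂ), Piece S O R₁ c₁ → (∀ g, (toK O (Fin d') (R₁ g)).trace = φ g) →
      toK O (Fin d') (R₁ (l : G)) * eProj S.x ((toK O (Fin d')).toMonoidHom.comp R₁) (0 : ZMod p) =
        (T₁ l : ℂ) • eProj S.x ((toK O (Fin d')).toMonoidHom.comp R₁) (0 : ZMod p) →
      (T₁ l : ℂ) = (p : ℂ)⁻¹ * ∑ i : ZMod p, φ ((l : G) * S.x ^ i.val) := by
    intro R₁ c₁ T₁ φ H₁ htr₁ hE₁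
    have h := congrArg Matrix.trace hE₁
    rw [Matrix.trace_smul, H31.Defect.trace_idem (H39.SmallDeg.eProj_idem S.orderOf_x 0)] at h
    have hr1 := H₁.mult 0
    rw [if_neg (zero_not_mem_coset S c₁)] at hr1
    rw [show (eProj S.x ((toK O (Fin d')).toMonoidHom.comp R₁) (0 : ZMod p)).rank = 1 from hr1, Nat.cast_one,
      smul_eq_mul, mul_one] at h
    rw [← h, eProj, mul_smul_comm, Matrix.trace_smul, smul_eq_mul, Finset.mul_sum, Matrix.trace_sum]
    congr 1
    refine Finset.sum_congr rfl fun i _ => ?_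
    rw [mul_zero, neg_zero, H39.SmallDeg.rt_zero, one_smul, ← htr₁, map_mul, map_mul]
    rfl
  have hT := hformula R c₀ T χ.1 H htr (hE l)
  have hT' := hformula R' (a * c₀) T' θ.1 H' htr' (hE' l)
  have hlr : l ^ r = l ^ b := Subtype.ext (by
    rw [SubmonoidClass.coe_pow, SubmonoidClass.coe_pow]
    exact H39.SmallDeg.pow_eq_of_modEq S.orderOf_x (S.not_dvd_orderOf_L l) hrb)
  have key : T' l = T l ^ b * (R (l : G)).det ^ k := by
    refine Subtype.ext ?_
    rw [hT']
    have hTn : (T l : ℂ) ^ Nat.card G = 1 := by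
      rw [← SubmonoidClass.coe_pow, ← map_pow, show l ^ Nat.card G = 1 from Subtype.ext (by
        rw [SubmonoidClass.coe_pow, pow_card_eq_one']; rfl), map_one]
      rfl
    have hs : σ (T l : ℂ) = (T l : ℂ) ^ b := by
      rw [hσ _ hTn, ← SubmonoidClass.coe_pow, ← SubmonoidClass.coe_pow, ← map_pow, hlr, map_pow]
    have hθ' : ∀ i : ZMod p, θ.1 ((l : G) * S.x ^ i.val) =
        (toK O (Fin d') (R (l : G))).det ^ k * σ (χ.1 ((l : G) * S.x ^ i.val)) := fun i => by
      rw [hθ, map_mul, Units.val_mul, hfx, mul_one, hf,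
        H45.ringAut_char (H26.irr_isCharacter χ) σ hσ]
    rw [Finset.sum_congr rfl fun i _ => hθ' i, ← Finset.mul_sum, mul_left_comm,
      MulMemClass.coe_mul, SubmonoidClass.coe_pow, SubmonoidClass.coe_pow, ← hs, hT, map_mul,
      map_inv₀, map_natCast, map_sum, mul_comm]
    congr 2
    exact (RingHom.map_det O.subtype (R (l : G))).symm
  have hdet : residue O (R (l : G)).det = residue O (T l) ^ d' *
      (((S.act l : ZMod p).val : ℕ) : ResidueField O) ^ (d' * (d' - 1) / 2) := by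
    rw [RingHom.map_det]
    refine det_of_twist H.red_pow hu1 (red_mul_pow S) ?_
    have h := congrArg (fun w : Fin d' → O => residue O ∘ w) (hu l)
    funext i
    simpa [red, Matrix.mulVec, dotProduct, map_sum] using congrFun h i
  rw [key, map_mul, map_pow, map_pow, hdet, mul_pow, ← pow_mul, ← pow_mul, ← mul_assoc, ← pow_add,
    mul_comm (d' * (d' - 1) / 2) k, ← map_pow, hbk l, map_pow]

end Cfsg.Agent.H40.SmallDeg
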