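import Mathlib
import Cfsg.Agent.H40.SmallDeg.Basic
import Cfsg.Agent.H40.SmallDeg.Shape
import Cfsg.Agent.H39.SmallDeg.Eigen

/-!
The symmetric and the exterior square of an integral representation, and the multiplicities of
`x` in them.
-/

set_option autoImplicit false
set_option maxHeartbeats 1000000
set_option linter.unusedSectionVars false

namespace Cfsg.Agent.H40.SmallDeg

open Matrix IsLocalRing Cfsg.Agent.H43.D1
open Cfsg.Agent.H31.Defect (red toK)
open Cfsg.Agent.H39.SmallDeg (rt eProj mult)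
open scoped Kronecker

attribute [local instance] Fintype.ofFinite Classical.propDecidable

variable {p : ℕ} [hp : Fact p.Prime] {G : Type*} [Group G] [Finite G] (S : Setup p G)
  {O : ValuationSubring ℂ} {d : ℕ}

/-- The exchange of the factors. -/
def swapMat (R : Type*) [Zero R] [One R] (d : ℕ) : Matrix (Fin d × Fin d) (Fin d × Fin d) R :=
  Matrix.of fun q r => if q = (r.2, r.1) then 1 else 0

theorem swapMat_mulVec {R : Type*} [CommRing R] (v : Fin d × Fin d → R) (i j : Fin d) :
    (swapMat R d *ᵥ v) (i, j) = v (j, i) := by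
  rw [Matrix.mulVec, dotProduct, Finset.sum_eq_single ((j, i) : Fin d × Fin d)]
  · simp [swapMat]
  · intro r _ hr
    simp only [swapMat, Matrix.of_apply]
    rw [if_neg fun h : (i, j) = (r.2, r.1) => hr (by
      rw [Prod.ext_iff] at h; exact Prod.ext h.2.symm h.1.symm), zero_mul]
  · exact fun h => absurd (Finset.mem_univ _) h

theorem swapMat_mul_kronecker {R : Type*} [CommRing R] (M N : Matrix (Fin d) (Fin d) R) :
    swapMat R d * (M ⊗ₖ N) = (N ⊗ₖ M) * swapMat R d := by
  ext ⟨i, j⟩ ⟨k, l⟩
  rw [Matrix.mul_apply, Matrix.mul_apply, Finset.sum_eq_single ((j, i) : Fin d × Fin d),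
    Finset.sum_eq_single ((l, k) : Fin d × Fin d)]
  · simp [swapMat, mul_comm]
  · intro r _ hr
    simp [swapMat, fun h : r = (l, k) => hr h]
  · exact fun h => absurd (Finset.mem_univ _) h
  · intro r _ hr
    simp only [swapMat, Matrix.of_apply]
    rw [if_neg fun h : (i, j) = (r.2, r.1) => hr (by
      rw [Prod.ext_iff] at h; exact Prod.ext h.2.symm h.1.symm), zero_mul]
  · exact fun h => absurd (Finset.mem_univ _) h

theorem swapMat_sq {R : Type*} [CommRing R] : swapMat R d * swapMat R d = 1 := by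
  ext ⟨i, j⟩ r
  rw [Matrix.mul_apply, Finset.sum_eq_single ((j, i) : Fin d × Fin d)]
  · simp [swapMat, Matrix.one_apply, Prod.ext_iff, and_comm]
  · intro q _ hq
    simp only [swapMat, Matrix.of_apply]
    rw [if_neg fun h : (i, j) = (q.2, q.1) => hq (by
      rw [Prod.ext_iff] at h; exact Prod.ext h.2.symm h.1.symm), zero_mul]
  · exact fun h => absurd (Finset.mem_univ _) h

/-- The sign of a kind of square. -/
def sgn (R : Type*) [Ring R] (odd : Bool) : R := if odd then -1 else 1

/-- The square representation. -/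
noncomputable def sq (R : G →* Matrix (Fin d) (Fin d) O) :
    G →* Matrix (Fin d × Fin d) (Fin d × Fin d) O where
  toFun g := R g ⊗ₖ R g
  map_one' := by rw [map_one, Matrix.one_kronecker_one]
  map_mul' g h := by rw [map_mul, Matrix.mul_kronecker_mul]

theorem sq_apply (R : G →* Matrix (Fin d) (Fin d) O) (g : G) : sq R g = R g ⊗ₖ R g := rfl

theorem toK_kronecker (M N : Matrix (Fin d) (Fin d) O) :
    toK O (Fin d × Fin d) (M ⊗ₖ N) = toK O (Fin d) M ⊗ₖ toK O (Fin d) N := by
  ext q r
  simp [toK]

theorem red_kronecker (M N : Matrix (Fin d) (Fin d) O) :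
    red O (Fin d × Fin d) (M ⊗ₖ N) = red O (Fin d) M ⊗ₖ red O (Fin d) N := by
  ext q r
  simp [red]

theorem isUnit_two (hO : (p : O) ∈ maximalIdeal O) (hp2 : 2 < p) : IsUnit (2 : O) := by
  by_contra hnu
  have h0 : residue O (2 : O) = 0 := (residue_eq_zero_iff _).2 ((mem_maximalIdeal _).2 hnu)
  haveI : CharP (ResidueField O) p := (CharP.charP_iff_prime_eq_zero hp.out).2 (by
    rw [← map_natCast (residue O), residue_eq_zero_iff]; exact hO)
  rw [show (2 : O) = ((2 : ℕ) : O) by norm_num, map_natCast,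
    CharP.cast_eq_zero_iff (ResidueField O) p] at h0
  have := Nat.le_of_dvd two_pos h0
  omega

/-- The projection onto the symmetric or the skew part. -/
noncomputable def part (O : ValuationSubring ℂ) (d : ℕ) (odd : Bool) :
    Matrix (Fin d × Fin d) (Fin d × Fin d) O :=
  Ring.inverse (2 : O) • (1 + sgn O odd • swapMat O d)

theorem part_idem (h2 : IsUnit (2 : O)) (odd : Bool) :
    part O d odd * part O d odd = part O d odd := by
  have hs : sgn O odd * sgn O odd = 1 := by cases odd <;> simp [sgn]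
  rw [part, smul_mul_smul_comm, add_mul, mul_add, one_mul, one_mul, mul_add, mul_one,
    smul_mul_smul_comm, hs, swapMat_sq, one_smul,
    show (1 + sgn O odd • swapMat O d + (sgn O odd • swapMat O d + 1)) =
      (2 : O) • (1 + sgn O odd • swapMat O d) by rw [two_smul]; abel,
    smul_smul, mul_assoc, Ring.inverse_mul_cancel _ h2, mul_one]

theorem part_commute (R : G →* Matrix (Fin d) (Fin d) O) (odd : Bool) (g : G) :
    Commute (part O d odd) (sq R g) := by
  refine Commute.smul_left (Commute.add_left (Commute.one_left _) (Commute.smul_left ?_ _)) _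
  exact swapMat_mul_kronecker _ _

theorem toK_part (h2 : IsUnit (2 : O)) (odd : Bool) :
    toK O (Fin d × Fin d) (part O d odd) =
      (2 : ℂ)⁻¹ • (1 + sgn ℂ odd • swapMat ℂ d) := by
  have hinv : ((Ring.inverse (2 : O) : O) : ℂ) = (2 : ℂ)⁻¹ := by
    refine eq_inv_of_mul_eq_one_left ?_
    have h := congrArg Subtype.val (Ring.inverse_mul_cancel _ h2)
    rw [MulMemClass.coe_mul] at h
    exact h
  ext q r
  show ((part O d odd q r : O) : ℂ) = _
  simp only [part, Matrix.smul_apply, Matrix.add_apply, smul_eq_mul, MulMemClass.coe_mul,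
    AddMemClass.coe_add, hinv]
  congr 1
  congr 1
  · rw [Matrix.one_apply, Matrix.one_apply]
    split_ifs <;> rfl
  · congr 1
    · cases odd <;> simp [sgn]
    · simp only [swapMat, Matrix.of_apply]
      split_ifs <;> rfl

theorem toK_part_mulVec (h2 : IsUnit (2 : O)) (odd : Bool) {v : Fin d × Fin d → ℂ}
    (hv : toK O (Fin d × Fin d) (part O d odd) *ᵥ v = v) :
    swapMat ℂ d *ᵥ v = sgn ℂ odd • v := by
  rw [toK_part h2, Matrix.smul_mulVec, Matrix.add_mulVec, Matrix.one_mulVec,
    Matrix.smul_mulVec] at hv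
  have hs : sgn ℂ odd * sgn ℂ odd = 1 := by cases odd <;> simp [sgn]
  have h1 : sgn ℂ odd • (swapMat ℂ d *ᵥ v) = v := by
    have := congrArg ((2 : ℂ) • ·) hv
    simp only [smul_smul, mul_inv_cancel₀ (two_ne_zero' ℂ), one_smul, two_smul] at this
    exact add_left_cancel this
  conv_rhs => rw [← h1, smul_smul, hs, one_smul]

theorem red_part_mulVec (h2 : IsUnit (2 : O)) (odd : Bool) {v : Fin d × Fin d → ResidueField O}
    (hv : ∀ i j, v (j, i) = sgn (ResidueField O) odd * v (i, j)) :
    red O (Fin d × Fin d) (part O d odd) *ᵥ v = v := by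
  have hs : sgn (ResidueField O) odd * sgn (ResidueField O) odd = 1 := by cases odd <;> simp [sgn]
  have hsw : swapMat (ResidueField O) d *ᵥ v = sgn (ResidueField O) odd • v := by
    funext ⟨i, j⟩
    rw [swapMat_mulVec, hv]
    rfl
  have e : red O (Fin d × Fin d) (part O d odd) = residue O (Ring.inverse (2 : O)) •
      (1 + sgn (ResidueField O) odd • swapMat (ResidueField O) d) := by
    ext q r
    simp only [red, RingHom.mapMatrix_apply, Matrix.map_apply, part, Matrix.smul_apply,
      Matrix.add_apply, smul_eq_mul, map_mul, map_add]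
    congr 1
    congr 1
    · rw [Matrix.one_apply, Matrix.one_apply]
      split_ifs <;> simp
    · congr 1
      · cases odd <;> simp [sgn]
      · simp only [swapMat, Matrix.of_apply]
        split_ifs <;> simp
  rw [e, Matrix.smul_mulVec, Matrix.add_mulVec, Matrix.one_mulVec, Matrix.smul_mulVec, hsw,
    smul_smul, hs, one_smul, ← two_smul (ResidueField O) v, smul_smul]
  rw [show residue O (Ring.inverse (2 : O)) * 2 = 1 by
    rw [← map_ofNat (residue O) 2, ← map_mul, Ring.inverse_mul_cancel _ h2, map_one], one_smul]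

variable (R : G →* Matrix (Fin d) (Fin d) O)

theorem apply_eq_sum_eProj (A : G →* Matrix (Fin d) (Fin d) ℂ) (i : ZMod p) :
    A (S.x ^ i.val) = ∑ j : ZMod p, rt (i * j) • eProj S.x A j := by
  conv_lhs => rw [← mul_one (A (S.x ^ i.val)), ← H39.SmallDeg.sum_eProj (p := p) (z := S.x) (A := A)]
  rw [Finset.mul_sum]
  exact Finset.sum_congr rfl fun j _ => H39.SmallDeg.zpow_mul_eProj S.orderOf_x i j

theorem eig_sq (c : ZMod p) :
    eig S (sq R) c = ∑ j : ZMod p, eProj S.x ((toK O (Fin d)).toMonoidHom.comp R) j ⊗ₖ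
      eProj S.x ((toK O (Fin d)).toMonoidHom.comp R) (c - j) := by
  set A := (toK O (Fin d)).toMonoidHom.comp R with hA
  have hexp : ∀ i : ZMod p, toK O (Fin d × Fin d) (sq R (S.x ^ i.val)) =
      ∑ j : ZMod p, ∑ l : ZMod p, (rt (i * j) * rt (i * l)) • (eProj S.x A j ⊗ₖ eProj S.x A l) := by
    intro i
    rw [sq_apply, toK_kronecker]
    show A (S.x ^ i.val) ⊗ₖ A (S.x ^ i.val) = _
    rw [apply_eq_sum_eProj S A i]
    ext q r
    simp only [Matrix.kroneckerMap_apply, Matrix.sum_apply, Matrix.smul_apply, smul_eq_mul,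
      Finset.sum_mul, Finset.mul_sum]
    rw [Finset.sum_comm]
    exact Finset.sum_congr rfl fun j _ => Finset.sum_congr rfl fun l _ => by ring
  rw [eig, Finset.sum_congr rfl fun i _ => by rw [hexp i]]
  simp only [Finset.smul_sum, smul_smul]
  rw [Finset.sum_comm]
  refine Finset.sum_congr rfl fun j _ => ?_
  rw [Finset.sum_comm]
  simp only [← Finset.sum_smul, mul_assoc, ← Finset.mul_sum, ← H39.SmallDeg.rt_add]
  rw [Finset.sum_eq_single (c - j) (fun l _ hl => ?_) (fun h => absurd (Finset.mem_univ _) h)]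
  · rw [Finset.sum_congr rfl fun i _ => show rt (-(i * c) + (i * j + i * (c - j))) = 1 by
      rw [show -(i * c) + (i * j + i * (c - j)) = (0 : ZMod p) by ring, H39.SmallDeg.rt_zero],
      Finset.sum_const, Finset.card_univ, ZMod.card, nsmul_eq_mul, mul_one,
      inv_mul_cancel₀ H39.SmallDeg.p_ne_zero, one_smul]
  · rw [Finset.sum_congr rfl fun i _ => show rt (-(i * c) + (i * j + i * l)) = rt (i * (j + l - c)) by
      congr 1; ring, H39.SmallDeg.sum_rt, if_neg (fun h => hl (by linear_combination h)), mul_zero,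
      zero_smul]

theorem kronecker_eProj_mul (A : G →* Matrix (Fin d) (Fin d) ℂ) (j l j' l' : ZMod p) :
    (eProj S.x A j ⊗ₖ eProj S.x A l) * (eProj S.x A j' ⊗ₖ eProj S.x A l') =
      if j = j' ∧ l = l' then eProj S.x A j' ⊗ₖ eProj S.x A l' else 0 := by
  rw [← Matrix.mul_kronecker_mul, H39.SmallDeg.eProj_mul S.orderOf_x,
    H39.SmallDeg.eProj_mul S.orderOf_x]
  by_cases h1 : j = j' <;> by_cases h2 : l = l' <;> simp [h1, h2]

theorem eig_sq_idem (c : ZMod p) : eig S (sq R) c * eig S (sq R) c = eig S (sq R) c := by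
  rw [eig_sq, Finset.sum_mul]
  refine Finset.sum_congr rfl fun j _ => ?_
  rw [Finset.mul_sum, Finset.sum_eq_single j (fun l _ hl => by
    rw [kronecker_eProj_mul, if_neg (fun h => hl h.1.symm)]) (fun h => absurd (Finset.mem_univ _) h),
    kronecker_eProj_mul, if_pos ⟨rfl, rfl⟩]

theorem part_commute_eig (odd : Bool) (c : ZMod p) :
    Commute (toK O (Fin d × Fin d) (part O d odd)) (eig S (sq R) c) := by
  refine Commute.smul_right (Commute.sum_right _ _ _ fun i _ => Commute.smul_right ?_ _) _
  exact (part_commute R odd _).map _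

theorem trace_swap_kronecker (M N : Matrix (Fin d) (Fin d) ℂ) :
    (swapMat ℂ d * (M ⊗ₖ N)).trace = (M * N).trace := by
  simp only [Matrix.trace, Matrix.diag_apply]
  rw [Fintype.sum_prod_type]
  have h : ∀ i j : Fin d, (swapMat ℂ d * (M ⊗ₖ N)) (i, j) (i, j) = M j i * N i j := by
    intro i j
    rw [Matrix.mul_apply, Finset.sum_eq_single ((j, i) : Fin d × Fin d)]
    · simp [swapMat]
    · intro r _ hr
      simp only [swapMat, Matrix.of_apply]
      rw [if_neg fun h : (i, j) = (r.2, r.1) => hr (by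
        rw [Prod.ext_iff] at h; exact Prod.ext h.2.symm h.1.symm), zero_mul]
    · exact fun h => absurd (Finset.mem_univ _) h
  simp only [h, Matrix.mul_apply]
  exact Finset.sum_comm

/-- The rank of a part of an eigenspace in the square. -/
theorem two_mul_rank_part (h2 : IsUnit (2 : O)) (odd : Bool) (c : ZMod p) :
    2 * ((toK O (Fin d × Fin d) (part O d odd) * eig S (sq R) c).rank : ℂ) =
      ∑ j : ZMod p, ((mult S.x ((toK O (Fin d)).toMonoidHom.comp R) j : ℂ) *
        mult S.x ((toK O (Fin d)).toMonoidHom.comp R) (c - j) +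
        if j = c - j then sgn ℂ odd * mult S.x ((toK O (Fin d)).toMonoidHom.comp R) j else 0) := by
  set A := (toK O (Fin d)).toMonoidHom.comp R with hA
  have hidem : (toK O (Fin d × Fin d) (part O d odd) * eig S (sq R) c) *
      (toK O (Fin d × Fin d) (part O d odd) * eig S (sq R) c) =
      toK O (Fin d × Fin d) (part O d odd) * eig S (sq R) c := by
    rw [mul_assoc, ← mul_assoc (eig S (sq R) c), ← (part_commute_eig S R odd c).eq, mul_assoc,
      eig_sq_idem, ← mul_assoc, ← map_mul, part_idem h2]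
  rw [← H31.Defect.trace_idem hidem, toK_part h2, smul_mul_assoc, Matrix.trace_smul, smul_eq_mul,
    ← mul_assoc, mul_inv_cancel₀ (two_ne_zero' ℂ), one_mul, add_mul, one_mul, Matrix.trace_add,
    smul_mul_assoc, Matrix.trace_smul, smul_eq_mul, eig_sq, Matrix.trace_sum, Finset.mul_sum,
    Matrix.trace_sum, Finset.mul_sum, Finset.sum_add_distrib]
  congr 1
  · refine Finset.sum_congr rfl fun j _ => ?_
    rw [Matrix.trace_kronecker, H39.SmallDeg.mult_cast S.orderOf_x, H39.SmallDeg.mult_cast S.orderOf_x]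
  · refine Finset.sum_congr rfl fun j _ => ?_
    rw [trace_swap_kronecker, H39.SmallDeg.eProj_mul S.orderOf_x]
    split_ifs with h
    · rw [← h, H39.SmallDeg.mult_cast S.orderOf_x]
    · simp

/-- An element inverting `x` acts on the fixed space of the square as a multiple of the exchange. -/
theorem sq_apply_mul_eig_zero {y : G} {α : ℂ} (hy : y * S.x * y⁻¹ = S.x ^ (-1 : ZMod p).val)
    (hy2 : toK O (Fin d) (R (y * y)) = α • 1)
    (hmult : ∀ j : ZMod p, mult S.x ((toK O (Fin d)).toMonoidHom.comp R) j ≤ 1) :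
    toK O (Fin d × Fin d) (sq R y) * eig S (sq R) 0 = α • (swapMat ℂ d * eig S (sq R) 0) := by
  set A := (toK O (Fin d)).toMonoidHom.comp R with hA
  rw [eig_sq, Finset.mul_sum, Finset.mul_sum, Finset.smul_sum]
  refine Fintype.sum_congr _ _ fun j => ?_
  rw [sq_apply, toK_kronecker, zero_sub]
  set E := eProj S.x A j with hE
  set E' := eProj S.x A (-j) with hE'
  show (A y ⊗ₖ A y) * (E ⊗ₖ E') = _
  have hne : (-1 : ZMod p) ≠ 0 := neg_ne_zero.2 one_ne_zero
  have hc1 : A y * E = E' * A y := by
    have h := H39.SmallDeg.conj_eProj (A := A) S.orderOf_x hne hy j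
    rwa [inv_neg, inv_one, neg_one_mul] at h
  have hyinv : A y⁻¹ * A y = 1 := by rw [← map_mul, inv_mul_cancel, map_one]
  have hyy : A y * A y = α • 1 := by rw [← map_mul]; exact hy2
  have hc2 : A y * E' = α • (E * A y⁻¹) := by
    have h1 : E' = A y * E * A y⁻¹ := by
      rw [hc1, mul_assoc, ← map_mul, mul_inv_cancel, map_one, mul_one]
    rw [h1, ← mul_assoc, ← mul_assoc, hyy, smul_mul_assoc, one_mul, smul_mul_assoc]
  rw [← Matrix.mul_kronecker_mul, hc2, Matrix.kronecker_smul]
  congr 1
  rw [swapMat_mul_kronecker]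
  obtain hle := hmult j
  rcases Nat.le_one_iff_eq_zero_or_eq_one.1 hle with h0 | h1
  · have hz : E = 0 := (H39.SmallDeg.mult_eq_zero_iff S.orderOf_x).1 h0
    have hz' : E' = 0 := by
      have : E' = A y * E * A y⁻¹ := by
        rw [hc1, mul_assoc, ← map_mul, mul_inv_cancel, map_one, mul_one]
      rw [this, hz, mul_zero, zero_mul]
    simp [hz, hz']
  · obtain ⟨⟨w, hw⟩, hw0, hall⟩ := finrank_eq_one_iff'.1
      (show Module.finrank ℂ (LinearMap.range E.mulVecLin) = 1 from h1)
    have hcol : ∀ c, ∃ b : ℂ, ∀ i, E i c = b * w i := by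
      intro c
      obtain ⟨b, hb⟩ := hall ⟨E *ᵥ Pi.single c 1, Pi.single c 1, rfl⟩
      refine ⟨b, fun i => ?_⟩
      have hb' := congrFun (congrArg Subtype.val hb) i
      simpa using hb'.symm
    choose bc hbc using hcol
    have hEy : E' = A y * E * A y⁻¹ := by
      rw [hc1, mul_assoc, ← map_mul, mul_inv_cancel, map_one, mul_one]
    ext ⟨a, b⟩ ⟨c, g⟩
    rw [Matrix.mul_apply, Finset.sum_eq_single ((g, c) : Fin d × Fin d)]
    · simp only [Matrix.kroneckerMap_apply, swapMat, Matrix.of_apply, if_true, mul_one, hEy,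
        Matrix.mul_apply, hbc, Finset.sum_mul, Finset.mul_sum]
      refine Finset.sum_congr rfl fun m _ => Finset.sum_congr rfl fun n _ => ?_
      ring
    · intro r _ hr
      simp [swapMat, fun h : r = (g, c) => hr h]
    · exact fun h => absurd (Finset.mem_univ _) h

end Cfsg.Agent.H40.SmallDeg
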