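import Mathlib
import Cfsg.Agent.H40.SmallDeg.Basic
import Cfsg.Agent.H43.D1.Stable
import Cfsg.Agent.H39.SmallDeg.Eigen
import Cfsg.Agent.H31.Defect.TraceRank
import Cfsg.Agent.H31.Defect.Bounds

/-!
The transfer lemma: from reduced vectors with the weight of a cyclic vector to intertwiners in
characteristic zero.
-/

set_option autoImplicit false
set_option linter.unusedSectionVars false
set_option maxHeartbeats 800000

namespace Cfsg.Agent.H40.SmallDeg

open Cfsg.Agent.H43.D1 Cfsg.Agent.H31.Defect Matrix IsLocalRing Polynomial Module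
open Cfsg.Agent.H39.SmallDeg (rt rt_zero val_rt val_rt_sub_one val_pi_lt_one qPoly mult)

attribute [local instance] Fintype.ofFinite Classical.propDecidable

section Gen

variable {K K' : Type*} [CommRing K] [CommRing K'] {n : Type*} [Fintype n] [DecidableEq n]

theorem mapMatrix_smul (f : K →+* K') (c : K) (M : Matrix n n K) :
    f.mapMatrix (c • M) = f c • f.mapMatrix M := by
  ext; simp

theorem mapMatrix_aeval (f : K →+* K') (M : Matrix n n K) (q : Polynomial K) :
    f.mapMatrix (aeval M q) = aeval (f.mapMatrix M) (q.map f) := by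
  induction q using Polynomial.induction_on' with
  | add a b ha hb => rw [map_add, map_add, Polynomial.map_add, map_add, ha, hb]
  | monomial i a =>
    rw [aeval_monomial, Polynomial.map_monomial, aeval_monomial, Algebra.algebraMap_eq_smul_one,
      Algebra.algebraMap_eq_smul_one, smul_mul_assoc, one_mul, smul_mul_assoc, one_mul,
      mapMatrix_smul, map_pow]

theorem map_mulVec' {m : Type*} (f : K →+* K') (M : Matrix m n K) (v : n → K) :
    f ∘ (M *ᵥ v) = M.map f *ᵥ (f ∘ v) :=
  funext fun i => RingHom.map_mulVec f M v i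

variable {L : Type*} [Group L] [Finite L]

/-- The projection onto the common weight vectors. -/
noncomputable def av (BL : L →* Matrix n n K) (P : Matrix n n K) (T : L → K) (c : K) :
    Matrix n n K := P * (c • ∑ l, T l⁻¹ • BL l)

theorem map_av (f : K →+* K') (BL : L →* Matrix n n K) (P : Matrix n n K) (T : L → K) (c : K) :
    f.mapMatrix (av BL P T c) =
      av (f.mapMatrix.toMonoidHom.comp BL) (f.mapMatrix P) (f ∘ T) (f c) := by
  simp only [av, map_mul, mapMatrix_smul, map_sum]
  rfl

variable {BL : L →* Matrix n n K} {P : Matrix n n K} {T : L → K} {c : K}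

theorem mul_av (hT : ∀ a b, T (a * b) = T a * T b) (hPB : ∀ l, Commute P (BL l)) (l : L) :
    BL l * av BL P T c = T l • av BL P T c := by
  have h1 : BL l * ∑ m, T m⁻¹ • BL m = T l • ∑ m, T m⁻¹ • BL m := by
    rw [Finset.mul_sum, Finset.smul_sum]
    refine Fintype.sum_equiv (Equiv.mulLeft l) _ _ fun m => ?_
    rw [mul_smul_comm, ← map_mul, Equiv.coe_mulLeft, smul_smul, mul_comm (T l), ← hT]
    congr 2
    group
  rw [av, ← mul_assoc, ← (hPB l).eq, mul_assoc, mul_smul_comm c, h1, smul_comm c, mul_smul_comm]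

theorem P_mul_av (hP : P * P = P) : P * av BL P T c = av BL P T c := by
  rw [av, ← mul_assoc, hP]

theorem av_idem (hT : ∀ a b, T (a * b) = T a * T b) (hT1 : T 1 = 1)
    (hPB : ∀ l, Commute P (BL l)) (hP : P * P = P) (hc : c * (Nat.card L : K) = 1) :
    av BL P T c * av BL P T c = av BL P T c := by
  conv_lhs => arg 1; rw [av]
  rw [mul_assoc, smul_mul_assoc, Finset.sum_mul]
  simp only [smul_mul_assoc, mul_av hT hPB, smul_smul, ← hT, inv_mul_cancel, hT1, one_smul]
  rw [Finset.sum_const, Finset.card_univ, ← Nat.card_eq_fintype_card,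
    ← Nat.cast_smul_eq_nsmul K, smul_smul, hc, one_smul, P_mul_av hP]

theorem av_mulVec_of_fixed (hT : ∀ a b, T (a * b) = T a * T b) (hT1 : T 1 = 1)
    (hc : c * (Nat.card L : K) = 1) {v : n → K} (h1 : P *ᵥ v = v)
    (h2 : ∀ l, BL l *ᵥ v = T l • v) : av BL P T c *ᵥ v = v := by
  rw [av, ← Matrix.mulVec_mulVec, Matrix.smul_mulVec, Matrix.sum_mulVec]
  simp only [Matrix.smul_mulVec, h2, smul_smul, ← hT, inv_mul_cancel, hT1, one_smul]
  rw [Finset.sum_const, Finset.card_univ, ← Nat.card_eq_fintype_card,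
    ← Nat.cast_smul_eq_nsmul K, smul_smul, hc, one_smul, h1]

theorem fixed_of_av (hT : ∀ a b, T (a * b) = T a * T b) (hPB : ∀ l, Commute P (BL l))
    (hP : P * P = P) {v : n → K} (h : av BL P T c *ᵥ v = v) :
    P *ᵥ v = v ∧ ∀ l, BL l *ᵥ v = T l • v := by
  refine ⟨?_, fun l => ?_⟩
  · conv_lhs => rw [← h, Matrix.mulVec_mulVec, P_mul_av hP, h]
  · conv_lhs => rw [← h, Matrix.mulVec_mulVec, mul_av hT hPB, Matrix.smul_mulVec, h]

theorem av_comm {X : Matrix n n K} (hPX : Commute P X) (hBX : ∀ l, Commute (BL l) X) :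
    Commute (av BL P T c) X :=
  hPX.mul_left ((Commute.sum_left _ _ _ fun l _ => (hBX l).smul_left _).smul_left _)

end Gen

section RedSub

variable {O : ValuationSubring ℂ} {ι : Type*} [Fintype ι]

/-- Integral vectors as complex vectors. -/
def vK (v : ι → O) : ι → ℂ := fun i => (v i : ℂ)

/-- The reductions of the integral vectors of a subspace. -/
noncomputable def redSub (O : ValuationSubring ℂ) (Y : Submodule ℂ (ι → ℂ)) :
    Submodule (ResidueField O) (ι → ResidueField O) :=
  Submodule.span (ResidueField O) {b | ∃ v : ι → O, vK v ∈ Y ∧ residue O ∘ v = b}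

theorem finrank_redSub_le (Y : Submodule ℂ (ι → ℂ)) :
    finrank (ResidueField O) (redSub O Y) ≤ finrank ℂ Y := by
  obtain ⟨b, hb, hspan, hli⟩ := exists_linearIndependent (ResidueField O)
    {b : ι → ResidueField O | ∃ v : ι → O, vK v ∈ Y ∧ residue O ∘ v = b}
  have hbf : b.Finite := hli.setFinite
  haveI := hbf.fintype
  rw [redSub, ← hspan, finrank_span_set_eq_card hli, Set.toFinset_card]
  choose v hv1 hv2 using fun x : b => hb x.2
  have h1 : LinearIndependent ℂ fun (x : b) (i : ι) => (v x i : ℂ) := by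
    refine linearIndependent_of_residue O v ?_
    rw [show (fun (x : b) (i : ι) => residue O (v x i)) = ((↑) : b → (ι → ResidueField O)) from
      funext fun x => hv2 x]
    exact hli
  rw [← finrank_span_eq_card h1]
  refine Submodule.finrank_mono (Submodule.span_le.2 ?_)
  rintro _ ⟨x, rfl⟩
  exact hv1 x

theorem le_finrank_redSub : ∀ (n : ℕ) (W : Submodule ℂ (ι → ℂ)), finrank ℂ W = n →
    n ≤ finrank (ResidueField O) (redSub O W) := by
  intro n
  induction n with
  | zero => simp
  | succ n ih =>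
    intro W hW
    have hne : W ≠ ⊥ := fun h => by rw [h, finrank_bot] at hW; omega
    obtain ⟨w, hw, hw0⟩ := Submodule.exists_mem_ne_zero_of_ne_bot hne
    obtain ⟨i₁, hi₁⟩ := Function.ne_iff.1 hw0
    obtain ⟨i₀, -, hmax⟩ := Finset.exists_max_image (Finset.univ : Finset ι)
      (fun i => O.valuation (w i)) ⟨i₁, Finset.mem_univ _⟩
    have h0 : w i₀ ≠ 0 := by
      intro h
      have := hmax i₁ (Finset.mem_univ _)
      rw [h, map_zero] at this
      exact hi₁ ((map_eq_zero O.valuation).1 (le_antisymm this zero_le))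
    have hmem : ∀ i, w i / w i₀ ∈ O := fun i => by
      rw [← O.valuation_le_one_iff, map_div₀]
      exact div_le_one_of_le₀ (hmax i (Finset.mem_univ _)) zero_le
    let v : ι → O := fun i => ⟨w i / w i₀, hmem i⟩
    have hv : vK v ∈ W := by
      rw [show vK v = (w i₀)⁻¹ • w from funext fun i => by
        show w i / w i₀ = (w i₀)⁻¹ * w i
        rw [div_eq_inv_mul]]
      exact W.smul_mem _ hw
    let pr : W →ₗ[ℂ] ℂ := (LinearMap.proj i₀).comp W.subtype
    let W' : Submodule ℂ (ι → ℂ) := (LinearMap.ker pr).map W.subtype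
    have hW' : finrank ℂ W' = n := by
      have h1 := pr.finrank_range_add_finrank_ker
      have h2 : finrank ℂ (LinearMap.range pr) = 1 := by
        refine le_antisymm ((Submodule.finrank_le _).trans_eq (finrank_self ℂ)) ?_
        rw [Nat.one_le_iff_ne_zero, Ne, Submodule.finrank_eq_zero, LinearMap.range_eq_bot]
        intro h
        exact h0 (LinearMap.congr_fun h ⟨w, hw⟩)
      rw [h2, hW] at h1
      rw [show finrank ℂ W' = finrank ℂ (LinearMap.ker pr) from
        (Submodule.equivMapOfInjective W.subtype W.injective_subtype _).finrank_eq.symm]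
      omega
    have hlt : redSub O W' < redSub O W := by
      refine lt_of_le_not_ge (Submodule.span_mono ?_) fun hle => ?_
      · rintro b ⟨y, hy, rfl⟩
        exact ⟨y, Submodule.map_subtype_le _ _ hy, rfl⟩
      · have hz : ∀ b ∈ redSub O W', b i₀ = 0 := by
          intro b hb
          have hsub : redSub O W' ≤ LinearMap.ker (LinearMap.proj (R := ResidueField O)
              (φ := fun _ : ι => ResidueField O) i₀) := by
            refine Submodule.span_le.2 ?_
            rintro _ ⟨y, ⟨⟨z, hzW⟩, hz, hzy⟩, rfl⟩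
            have h : (y i₀ : ℂ) = 0 := (congrFun hzy i₀).symm.trans hz
            show residue O (y i₀) = 0
            rw [show y i₀ = 0 from Subtype.ext h, map_zero]
          exact hsub hb
        have h1 := hz _ (hle (Submodule.subset_span ⟨v, hv, rfl⟩))
        rw [Function.comp_apply, show v i₀ = 1 from Subtype.ext (div_self h0), map_one] at h1
        exact one_ne_zero h1
    have := Submodule.finrank_lt_finrank_of_lt hlt
    have := ih W' hW'
    omega

end RedSub

section Main

variable {p : ℕ} [hp : Fact p.Prime] {G : Type*} [Group G] [Finite G] (S : Setup p G)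
variable {O : ValuationSubring ℂ} {ι : Type*} [Fintype ι] [DecidableEq ι]

/-- A root of unity inside the valuation ring. -/
noncomputable def rtO (O : ValuationSubring ℂ) (j : ZMod p) : O :=
  ⟨rt j, (O.valuation_le_one_iff _).1 (val_rt j).le⟩

/-- The product of `X - rt k` over the valuation ring. -/
noncomputable def qO (O : ValuationSubring ℂ) (F : Finset (ZMod p)) : Polynomial O :=
  ∏ k ∈ F, (X - C (rtO O k))

theorem monic_qO (F : Finset (ZMod p)) : (qO O F).Monic :=
  monic_prod_of_monic _ _ fun k _ => monic_X_sub_C _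

theorem natDegree_qO (F : Finset (ZMod p)) : (qO O F).natDegree = F.card := by
  rw [qO, natDegree_prod_of_monic _ _ fun k _ => monic_X_sub_C _]
  simp only [natDegree_X_sub_C, Finset.sum_const, smul_eq_mul, mul_one]

theorem map_qO (F : Finset (ZMod p)) : (qO O F).map O.subtype = qPoly F := by
  rw [qO, Polynomial.map_prod, qPoly]
  exact Finset.prod_congr rfl fun k _ => by
    rw [Polynomial.map_sub, map_X, map_C]; rfl

theorem residue_rtO (hO : (p : O) ∈ maximalIdeal O) (j : ZMod p) : residue O (rtO O j) = 1 := by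
  by_cases hj : j = 0
  · rw [show rtO O j = 1 from Subtype.ext (by rw [hj]; exact rt_zero), map_one]
  rw [← sub_eq_zero, ← map_one (residue O), ← map_sub, residue_eq_zero_iff, O.valuation_lt_one_iff]
  show O.valuation (rt j - 1) < 1
  rw [val_rt_sub_one hj]
  exact val_pi_lt_one hO

theorem residue_qO (hO : (p : O) ∈ maximalIdeal O) (F : Finset (ZMod p)) :
    (qO O F).map (residue O) = (X - C 1) ^ F.card := by
  rw [qO, Polynomial.map_prod, ← Finset.prod_const]
  exact Finset.prod_congr rfl fun k _ => by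
    rw [Polynomial.map_sub, map_X, map_C, residue_rtO hO]

/-- The complex eigenprojections through a numbering of the indices. -/
theorem reindex_eig (B : G →* Matrix ι ι O) (c : ZMod p) :
    Matrix.reindexAlgEquiv ℂ ℂ (Fintype.equivFin ι) (eig S B c) = H39.SmallDeg.eProj S.x
      ((Matrix.reindexAlgEquiv ℂ ℂ (Fintype.equivFin ι)).toAlgHom.toRingHom.toMonoidHom.comp
        ((toK O ι).toMonoidHom.comp B)) c := by
  rw [eig, H39.SmallDeg.eProj, map_smul, map_sum]
  simp only [map_smul]
  rfl

theorem aeval_eq_sum_eig (B : G →* Matrix ι ι O) (F : Finset (ZMod p)) :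
    aeval (toK O ι (B S.x)) (qPoly F) =
      ∑ c : ZMod p, (qPoly F).eval (rt c) • eig S B c := by
  apply (Matrix.reindexAlgEquiv ℂ ℂ (Fintype.equivFin ι)).injective
  rw [← Polynomial.aeval_algHom_apply, map_sum]
  simp only [map_smul, reindex_eig]
  exact H39.SmallDeg.aeval_eq_sum (z := S.x)
    (A := (Matrix.reindexAlgEquiv ℂ ℂ (Fintype.equivFin ι)).toAlgHom.toRingHom.toMonoidHom.comp
      ((toK O ι).toMonoidHom.comp B)) S.orderOf_x F

theorem mul_eig (B : G →* Matrix ι ι O) (l : S.L) (c : ZMod p) :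
    toK O ι (B (l : G)) * eig S B c =
      eig S B ((((S.act l)⁻¹ : (ZMod p)ˣ) : ZMod p) * c) * toK O ι (B (l : G)) := by
  rw [eig, eig, mul_smul_comm, smul_mul_assoc, Finset.mul_sum, Finset.sum_mul]
  congr 1
  refine Fintype.sum_equiv (Units.mulLeft (S.act l)) _ _ fun i => ?_
  rw [mul_smul_comm, smul_mul_assoc, ← map_mul, ← map_mul, ← map_mul, ← map_mul,
    Units.mulLeft_apply]
  congr 1
  · congr 1
    rw [mul_assoc, ← mul_assoc i]
    rw [show (S.act l : ZMod p) * (i * ((((S.act l)⁻¹ : (ZMod p)ˣ) : ZMod p)) * c) =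
      ((S.act l : ZMod p) * (((S.act l)⁻¹ : (ZMod p)ˣ) : ZMod p)) * (i * c) by ring,
      ← Units.val_mul, mul_inv_cancel, Units.val_one, one_mul]
  · congr 2
    rw [← mul_inv_eq_iff_eq_mul, S.conj_x_pow, ← pow_mod_orderOf, S.orderOf_x, ZMod.val_mul]

theorem commute_eig (B : G →* Matrix ι ι O) {P : Matrix ι ι O} (hPB : ∀ g, Commute P (B g))
    (c : ZMod p) : Commute (toK O ι P) (eig S B c) :=
  (Commute.sum_right _ _ _ fun _ _ => ((hPB _).map (toK O ι)).smul_right _).smul_right _

theorem mul_aeval {K : Type*} [CommRing K] (g : Matrix ι ι K) (Z Z' : Matrix ι ι K)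
    (h : g * Z = Z' * g) (f : Polynomial K) : g * aeval Z f = aeval Z' f * g := by
  induction f using Polynomial.induction_on' with
  | add a b ha hb => rw [map_add, map_add, mul_add, add_mul, ha, hb]
  | monomial n a =>
    rw [aeval_monomial, aeval_monomial, Algebra.algebraMap_eq_smul_one, smul_mul_assoc, one_mul,
      smul_mul_assoc, one_mul, mul_smul_comm, smul_mul_assoc]
    congr 1
    exact SemiconjBy.pow_right (h : SemiconjBy g Z Z') n

omit [DecidableEq ι] in
/-- The trace of the translation on a reduced rectangular matrix lies in the image of a high power. -/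
theorem trace_mem_range {k : Type*} [Field k] [CharP k p] {d e : ℕ} (hde : d + e = p)
    [DecidableEq ι] (Zb : Matrix ι ι k) (Za : Matrix (Fin d) (Fin d) k) (hη : (Za - 1) ^ d = 0)
    (X0 : Matrix ι (Fin d) k) :
    ∃ Y : Matrix ι (Fin d) k,
      ∑ i ∈ Finset.range p, Zb ^ i * X0 * Za ^ i = (Zb - 1) ^ e * Y := by
  let lm : Module.End k (Matrix ι (Fin d) k) :=
    { toFun := fun X => (Zb - 1) * X * Za
      map_add' := fun X Y => by rw [Matrix.mul_add, Matrix.add_mul]
      map_smul' := fun c X => by rw [Matrix.mul_smul, Matrix.smul_mul, RingHom.id_apply] }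
  let rn : Module.End k (Matrix ι (Fin d) k) :=
    { toFun := fun X => X * (Za - 1)
      map_add' := fun X Y => Matrix.add_mul _ _ _
      map_smul' := fun c X => by rw [Matrix.smul_mul, RingHom.id_apply] }
  have hT : ∀ X, (lm + rn + 1) X = Zb * X * Za := fun X => by
    show (Zb - 1) * X * Za + X * (Za - 1) + X = Zb * X * Za
    simp only [Matrix.sub_mul, Matrix.mul_sub, Matrix.one_mul, Matrix.mul_one]
    abel
  have hTi : ∀ i : ℕ, ((lm + rn + 1) ^ i) X0 = Zb ^ i * X0 * Za ^ i := by
    intro i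
    induction i with
    | zero => simp
    | succ i ih =>
      rw [pow_succ', Module.End.mul_apply, ih, hT, pow_succ' Zb, pow_succ Za]
      simp only [Matrix.mul_assoc]
  have hcom : Commute lm rn := LinearMap.ext fun X => by
    show (Zb - 1) * (X * (Za - 1)) * Za = (Zb - 1) * X * Za * (Za - 1)
    simp only [Matrix.mul_assoc]
    congr 2
    exact (((Commute.refl Za).sub_right (Commute.one_right Za))).eq.symm
  have h := geom_sum_eq_sub_one_pow (k := k) (p := p) (lm + rn + 1)
  rw [add_sub_cancel_right, hcom.add_pow] at h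
  have h2 := LinearMap.congr_fun h X0
  simp only [LinearMap.sum_apply, hTi] at h2
  let ml : Matrix ι (Fin d) k →ₗ[k] Matrix ι (Fin d) k :=
    { toFun := fun Y => (Zb - 1) ^ e * Y
      map_add' := fun X Y => Matrix.mul_add _ _ _
      map_smul' := fun c X => by rw [Matrix.mul_smul, RingHom.id_apply] }
  suffices hmem : ∑ i ∈ Finset.range p, Zb ^ i * X0 * Za ^ i ∈ LinearMap.range ml by
    obtain ⟨Y, hY⟩ := hmem
    exact ⟨Y, hY.symm⟩
  rw [h2]
  refine Submodule.sum_mem _ fun a ha => ?_
  rw [Finset.mem_range] at ha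
  rw [← nsmul_eq_mul', LinearMap.smul_apply]
  refine Submodule.smul_of_tower_mem _ _ ?_
  rw [Module.End.mul_apply]
  have hrn : ∀ b : ℕ, (rn ^ b) X0 = X0 * (Za - 1) ^ b := by
    intro b
    induction b with
    | zero => simp
    | succ b ih =>
      rw [pow_succ', Module.End.mul_apply, ih, pow_succ, ← Matrix.mul_assoc]
      rfl
  have hlm : ∀ (b : ℕ) (X : Matrix ι (Fin d) k), (lm ^ b) X = (Zb - 1) ^ b * X * Za ^ b := by
    intro b X
    induction b with
    | zero => simp
    | succ b ih =>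
      rw [pow_succ', Module.End.mul_apply, ih, pow_succ' (Zb - 1), pow_succ Za]
      show (Zb - 1) * ((Zb - 1) ^ b * X * Za ^ b) * Za = _
      simp only [Matrix.mul_assoc]
  rw [hrn, hlm]
  by_cases hb : d ≤ p - 1 - a
  · rw [show (Za - 1) ^ (p - 1 - a) = 0 by
      rw [← Nat.add_sub_cancel' hb, pow_add, hη, zero_mul], Matrix.mul_zero, Matrix.mul_zero,
      Matrix.zero_mul]
    exact Submodule.zero_mem _
  · refine ⟨(Zb - 1) ^ (a - e) * (X0 * (Za - 1) ^ (p - 1 - a)) * Za ^ a, ?_⟩
    show (Zb - 1) ^ e * ((Zb - 1) ^ (a - e) * (X0 * (Za - 1) ^ (p - 1 - a)) * Za ^ a) = _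
    rw [← Matrix.mul_assoc, ← Matrix.mul_assoc, ← pow_add, show e + (a - e) = a by omega]

/-- The transfer lemma. -/
theorem transfer {O : ValuationSubring ℂ} (hO : (p : O) ∈ maximalIdeal O)
    {d e : ℕ} (he : d + e = p) (hd : 2 ≤ d) (hrange : Nat.card S.act.range = e)
    (R : G →* Matrix (Fin d) (Fin d) O) (u : Fin d → O) (T : S.L → O)
    (hu : ∀ l : S.L, R (l : G) *ᵥ u = T l • u)
    (hu1 : (red O (Fin d) (R S.x - 1) ^ (d - 1)) *ᵥ (residue O ∘ u) ≠ 0)
    (c₀ : (ZMod p)ˣ)
    (hmult : ∀ c, mult S.x ((toK O (Fin d)).toMonoidHom.comp R) c =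
      if c ∈ coset S c₀ then 0 else 1)
    {ι : Type*} [Fintype ι] [DecidableEq ι] (B : G →* Matrix ι ι O) (P : Matrix ι ι O)
    (hP : P * P = P) (hPB : ∀ g, Commute P (B g))
    {K : ℕ} (s : Fin K → ι → ResidueField O) (hs : LinearIndependent (ResidueField O) s)
    (hsP : ∀ n, red O ι P *ᵥ s n = s n)
    (hsT : ∀ n (l : S.L), red O ι (B (l : G)) *ᵥ s n = residue O (T l) • s n)
    (hse : ∀ n, ((red O ι (B S.x) - 1) ^ e) *ᵥ s n = 0) :
    ∃ H : Submodule ℂ (Matrix ι (Fin d) ℂ),
      (∀ Ψ ∈ H, (∀ g, toK O ι (B g) * Ψ = Ψ * toK O (Fin d) (R g)) ∧ toK O ι P * Ψ = Ψ) ∧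
      K ≤ Module.finrank ℂ H + (toK O ι P * eig S B (c₀ : ZMod p)).rank := by
  haveI : CharP (ResidueField O) p := (CharP.charP_iff_prime_eq_zero hp.out).2 (by
    rw [← map_natCast (residue O), residue_eq_zero_iff]; exact hO)
  rw [map_sub, map_one] at hu1
  set ub : Fin d → (ResidueField O) := residue O ∘ u with hub
  have hu0 : u ≠ 0 := fun h => hu1 (by
    rw [hub, h, show residue O ∘ (0 : Fin d → O) = 0 from funext fun _ => map_zero _,
      Matrix.mulVec_zero])
  obtain ⟨i₀, hi₀⟩ := Function.ne_iff.1 hu0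
  have hT : ∀ a b, T (a * b) = T a * T b := fun a b => by
    have h := congrFun (hu (a * b)) i₀
    rw [Subgroup.coe_mul, map_mul, ← Matrix.mulVec_mulVec, hu, Matrix.mulVec_smul, hu, smul_smul,
      Pi.smul_apply, Pi.smul_apply, smul_eq_mul, smul_eq_mul] at h
    rw [← mul_right_cancel₀ hi₀ h, mul_comm]
  have hT1 : T 1 = 1 := by
    have h := congrFun (hu 1) i₀
    rw [Subgroup.coe_one, map_one, Matrix.one_mulVec, Pi.smul_apply, smul_eq_mul] at h
    exact (mul_eq_right₀ hi₀).1 h.symm
  -- the eigenvalues of `x` on the source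
  set F : Finset (ZMod p) := Finset.univ \ coset S c₀ with hF
  have hFcard : F.card = d := by
    rw [hF, Finset.card_sdiff_of_subset (Finset.subset_univ _), Finset.card_univ, ZMod.card,
      card_coset, hrange]
    omega
  set ZA := R S.x with hZA
  set ZB := B S.x with hZB
  have hqA : aeval ZA (qO O F) = 0 := by
    apply Matrix.map_injective (f := (O.subtype : O → ℂ)) Subtype.val_injective
    show toK O (Fin d) _ = toK O (Fin d) 0
    rw [map_zero, toK, mapMatrix_aeval, map_qO]
    refine (H39.SmallDeg.aeval_eq_sum (z := S.x) (A := (toK O (Fin d)).toMonoidHom.comp R)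
      S.orderOf_x F).trans (Finset.sum_eq_zero fun c _ => ?_)
    by_cases hc : c ∈ F
    · rw [H39.SmallDeg.qPoly_eval_eq_zero hc, zero_smul]
    · rw [(H39.SmallDeg.mult_eq_zero_iff S.orderOf_x).1 ((hmult c).trans (if_pos (by
        by_contra h
        exact hc (Finset.mem_sdiff.2 ⟨Finset.mem_univ _, h⟩)))), smul_zero]
  have hδA : (red O (Fin d) ZA - 1) ^ d = 0 := by
    have h := congrArg (red O (Fin d)) hqA
    rw [map_zero, red, mapMatrix_aeval, residue_qO hO, hFcard, map_pow, map_sub, aeval_X,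
      map_one C, map_one (aeval _)] at h
    exact h
  -- the basis
  let U : Matrix (Fin d) (Fin d) O := Matrix.of fun i j => (R (S.x ^ (j : ℕ)) *ᵥ u) i
  have hUcol : ∀ j : Fin d, U *ᵥ Pi.single j 1 = R (S.x ^ (j : ℕ)) *ᵥ u := fun j => by
    rw [Matrix.mulVec_single_one]; rfl
  have hU : IsUnit U := by
    rw [Matrix.isUnit_iff_isUnit_det, ← residue_ne_zero_iff_isUnit, RingHom.map_det,
      ← isUnit_iff_ne_zero, ← Matrix.isUnit_iff_isUnit_det, ← Matrix.mulVec_injective_iff_isUnit]
    rw [← Matrix.coe_mulVecLin]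
    refine (injective_iff_map_eq_zero _).2 fun cf hcf => ?_
    let f : Polynomial (ResidueField O) := ∑ j : Fin d, monomial (j : ℕ) (cf j)
    have hfu : aeval (red O (Fin d) ZA) f *ᵥ ub = 0 := by
      rw [← hcf, map_sum, Matrix.sum_mulVec]
      funext i
      rw [Finset.sum_apply, Matrix.mulVecLin_apply]
      refine Finset.sum_congr rfl fun j _ => ?_
      rw [aeval_monomial, Algebra.algebraMap_eq_smul_one, smul_mul_assoc, one_mul,
        Matrix.smul_mulVec, hZA, ← map_pow, ← map_pow, Pi.smul_apply, smul_eq_mul]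
      show cf j * _ = residue O (U i j) * cf j
      rw [mul_comm]
      congr 1
      exact (congrFun (map_mulVec' (residue O) (R (S.x ^ (j : ℕ))) u) i).symm
    by_contra hne
    obtain ⟨j₀, hj₀⟩ := Function.ne_iff.1 hne
    have hcoeff : ∀ j : Fin d, f.coeff (j : ℕ) = cf j := fun j => by
      rw [finsetSum_coeff, Finset.sum_eq_single j]
      · rw [coeff_monomial, if_pos rfl]
      · intro i _ hi
        rw [coeff_monomial, if_neg (fun h => hi (Fin.ext h))]
      · intro h; exact absurd (Finset.mem_univ _) h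
    have hf0 : f ≠ 0 := fun h => hj₀ (by rw [← hcoeff, h, coeff_zero]; rfl)
    have hdeg : f.natDegree < d := by
      have : f.natDegree ≤ d - 1 := natDegree_sum_le_of_forall_le _ _ fun j _ =>
        (natDegree_monomial_le _).trans (by omega)
      omega
    obtain ⟨r, hr, hr1⟩ := f.exists_eq_pow_rootMultiplicity_mul_and_not_dvd hf0 (1 : (ResidueField O))
    have hm : f.rootMultiplicity 1 ≤ d - 1 := by
      have := natDegree_le_of_dvd (f.pow_rootMultiplicity_dvd 1) hf0
      rw [natDegree_pow, natDegree_X_sub_C, mul_one] at this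
      omega
    have hcop : IsCoprime ((X - C (1 : (ResidueField O))) ^ d) r :=
      ((irreducible_X_sub_C (1 : (ResidueField O))).coprime_iff_not_dvd.2 hr1).pow_left
    obtain ⟨a, b, hab⟩ := hcop
    have hz : ((red O (Fin d) ZA - 1) ^ f.rootMultiplicity 1) *ᵥ ub = 0 := by
      set m := f.rootMultiplicity 1
      have h1 : (X - C (1 : (ResidueField O))) ^ m = a * (X - C 1) ^ m * (X - C 1) ^ d + b * f := by
        rw [hr]
        linear_combination (-((X - C (1 : (ResidueField O))) ^ m)) * hab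
      have h2 := congrArg (fun q => aeval (red O (Fin d) ZA) q *ᵥ ub) h1
      simp only [map_add, map_mul, map_pow, map_sub, aeval_X, map_one] at h2
      rw [hδA, mul_zero, zero_add, ← Matrix.mulVec_mulVec, hfu, Matrix.mulVec_zero] at h2
      exact h2
    apply hu1
    rw [show d - 1 = (d - 1 - f.rootMultiplicity 1) + f.rootMultiplicity 1 by omega,
      pow_add, ← Matrix.mulVec_mulVec, hz, Matrix.mulVec_zero]
  have hext : ∀ M M' : Matrix ι (Fin d) O,
      (∀ j : Fin d, M *ᵥ (R (S.x ^ (j : ℕ)) *ᵥ u) = M' *ᵥ (R (S.x ^ (j : ℕ)) *ᵥ u)) →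
        M = M' := by
    intro M M' h
    obtain ⟨U', hU'⟩ := hU
    have e : M * (U' : Matrix (Fin d) (Fin d) O) = M' * (U' : Matrix (Fin d) (Fin d) O) := by
      refine Matrix.ext_of_mulVec_single fun j => ?_
      rw [← Matrix.mulVec_mulVec, ← Matrix.mulVec_mulVec, hU', hUcol, h]
    have e2 := congrArg (fun N => N * (↑U'⁻¹ : Matrix (Fin d) (Fin d) O)) e
    simp only [Matrix.mul_assoc, ← Units.val_mul, mul_inv_cancel, Units.val_one,
      Matrix.mul_one] at e2
    exact e2
  -- the projection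
  let BL : S.L →* Matrix ι ι O := B.comp S.L.subtype
  have hcard : IsUnit ((Nat.card S.L : O)) := by
    rw [← residue_ne_zero_iff_isUnit, map_natCast, Ne, CharP.cast_eq_zero_iff (ResidueField O) p]
    exact S.not_dvd
  obtain ⟨cL, hcL⟩ := hcard.exists_left_inv
  set Pr := av BL P T cL with hPr
  have hPrPr : Pr * Pr = Pr := av_idem hT hT1 (fun l => hPB _) hP hcL
  let BK : S.L →* Matrix ι ι ℂ := O.subtype.mapMatrix.toMonoidHom.comp BL
  have hBKdef : ∀ l : S.L, BK l = toK O ι (B (l : G)) := fun l => rfl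
  have hPrK : toK O ι Pr = av BK (toK O ι P) (O.subtype ∘ T) (O.subtype cL) := map_av _ _ _ _ _
  have hTK : ∀ a b, (O.subtype ∘ T) (a * b) = (O.subtype ∘ T) a * (O.subtype ∘ T) b := fun a b => by
    simp only [Function.comp_apply, hT, map_mul]
  have hPBK : ∀ l, Commute (toK O ι P) (BK l) := fun l => (hPB _).map (toK O ι)
  have hPK : toK O ι P * toK O ι P = toK O ι P := by rw [← map_mul, hP]
  -- the weight vectors killed by the polynomial
  set PrK := toK O ι Pr with hPrKdef
  let RPr : Submodule ℂ (ι → ℂ) := LinearMap.range PrK.mulVecLin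
  have hRPr : ∀ w, w ∈ RPr → toK O ι P *ᵥ w = w ∧
      ∀ l : S.L, toK O ι (B (l : G)) *ᵥ w = (T l : ℂ) • w := by
    rintro _ ⟨y, rfl⟩
    rw [Matrix.mulVecLin_apply, hPrK]
    exact fixed_of_av hTK hPBK hPK (by
      rw [Matrix.mulVec_mulVec, ← hPrK, ← map_mul, hPrPr])
  set qB := aeval (toK O ι ZB) (qPoly F) with hqB
  let W : Submodule ℂ (ι → ℂ) := RPr ⊓ LinearMap.ker qB.mulVecLin
  have hdimW : finrank ℂ RPr ≤ finrank ℂ W + (toK O ι P * eig S B (c₀ : ZMod p)).rank := by
    let φ : RPr →ₗ[ℂ] (ι → ℂ) := (toK O ι P * eig S B (c₀ : ZMod p)).mulVecLin.comp RPr.subtype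
    have h1 := φ.finrank_range_add_finrank_ker
    have h2 : finrank ℂ (LinearMap.range φ) ≤ (toK O ι P * eig S B (c₀ : ZMod p)).rank :=
      Submodule.finrank_mono (LinearMap.range_comp_le_range _ _)
    have h3 : (LinearMap.ker φ).map RPr.subtype ≤ W := by
      rintro _ ⟨⟨w, hw⟩, hφ, rfl⟩
      refine ⟨hw, ?_⟩
      obtain ⟨hwP, hwT⟩ := hRPr w hw
      have h0 : eig S B (c₀ : ZMod p) *ᵥ w = 0 := by
        have h : (toK O ι P * eig S B (c₀ : ZMod p)) *ᵥ w = 0 := hφ
        rwa [(commute_eig S B hPB _).eq, ← Matrix.mulVec_mulVec, hwP] at h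
      show qB *ᵥ w = 0
      rw [hqB, hZB, aeval_eq_sum_eig, Matrix.sum_mulVec]
      refine Finset.sum_eq_zero fun c _ => ?_
      by_cases hc : c ∈ F
      · rw [H39.SmallDeg.qPoly_eval_eq_zero hc, zero_smul, Matrix.zero_mulVec]
      have hcM : c ∈ coset S c₀ := by
        by_contra h
        exact hc (Finset.mem_sdiff.2 ⟨Finset.mem_univ _, h⟩)
      obtain ⟨⟨a, la, rfl⟩, -, rfl⟩ := Finset.mem_image.1 hcM
      have h := congrArg (fun M => M *ᵥ w) (mul_eig S B la⁻¹ (c₀ : ZMod p))
      simp only [← Matrix.mulVec_mulVec, h0, Matrix.mulVec_zero, hwT, Matrix.mulVec_smul,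
        map_inv, inv_inv] at h
      have hne : (T la⁻¹ : ℂ) ≠ 0 := fun h' => by
        have h'' : T la⁻¹ = 0 := Subtype.ext h'
        have := hT la⁻¹ la
        rw [inv_mul_cancel, hT1, h'', zero_mul] at this
        exact one_ne_zero this
      rw [Matrix.smul_mulVec, (smul_eq_zero.1 h.symm).resolve_left hne, smul_zero]
    have h4 : finrank ℂ (LinearMap.ker φ) ≤ finrank ℂ W := by
      rw [← (Submodule.equivMapOfInjective RPr.subtype RPr.injective_subtype _).finrank_eq.symm]
      exact Submodule.finrank_mono h3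
    omega
  -- the intertwiners
  let H : Submodule ℂ (Matrix ι (Fin d) ℂ) :=
    { carrier := {Ψ | (∀ g, toK O ι (B g) * Ψ = Ψ * toK O (Fin d) (R g)) ∧ toK O ι P * Ψ = Ψ}
      add_mem' := fun {a b} ha hb => ⟨fun g => by rw [Matrix.mul_add, Matrix.add_mul, ha.1, hb.1],
        by rw [Matrix.mul_add, ha.2, hb.2]⟩
      zero_mem' := ⟨fun g => by rw [Matrix.mul_zero, Matrix.zero_mul], Matrix.mul_zero _⟩
      smul_mem' := fun c a ha => ⟨fun g => by rw [Matrix.mul_smul, Matrix.smul_mul, ha.1],
        by rw [Matrix.mul_smul, ha.2]⟩ }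
  refine ⟨H, fun Ψ hΨ => hΨ, ?_⟩
  let ev : Matrix ι (Fin d) ℂ →ₗ[ℂ] (ι → ℂ) :=
    { toFun := fun M => M *ᵥ vK u
      map_add' := fun M N => Matrix.add_mulVec _ _ _
      map_smul' := fun c M => Matrix.smul_mulVec _ _ _ }
  let Y := H.map ev
  have hYdim : finrank ℂ Y ≤ finrank ℂ H := Submodule.finrank_map_le _ _
  set Zb := red O ι ZB with hZb
  let Re : Submodule (ResidueField O) (ι → (ResidueField O)) :=
    LinearMap.range ((Zb - 1) ^ e).mulVecLin ⊓ LinearMap.range (red O ι Pr).mulVecLin
  -- reductions of the weight vectors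
  have hmain : redSub O W ≤ redSub O Y ⊔ Re := by
    refine Submodule.span_le.2 ?_
    rintro _ ⟨w, hwW, rfl⟩
    obtain ⟨hwR, hwq⟩ := hwW
    obtain ⟨hwP', hwT'⟩ := hRPr _ hwR
    have hinj : ∀ {v v' : ι → O}, vK v = vK v' → v = v' := fun h =>
      funext fun i => Subtype.ext (congrFun h i)
    have hmv : ∀ (M : Matrix ι ι O) (v : ι → O), vK (M *ᵥ v) = toK O ι M *ᵥ vK v :=
      fun M v => map_mulVec' O.subtype M v
    have hwP : P *ᵥ w = w := hinj (by rw [hmv, hwP'])
    have hwT : ∀ l : S.L, B (l : G) *ᵥ w = T l • w := fun l => hinj (by rw [hmv, hwT']; rfl)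
    have hwq' : aeval ZB (qO O F) *ᵥ w = 0 := hinj (by
      rw [hmv, toK, mapMatrix_aeval, map_qO]
      exact (show qB *ᵥ vK w = 0 from hwq).trans (funext fun i => rfl))
    let Wm : Matrix ι (Fin d) O := Matrix.of fun i j => (B (S.x ^ (j : ℕ)) *ᵥ w) i
    let Φ : Matrix ι (Fin d) O := Wm * (↑hU.unit⁻¹ : Matrix (Fin d) (Fin d) O)
    have hΦj : ∀ j : Fin d, Φ *ᵥ (R (S.x ^ (j : ℕ)) *ᵥ u) = B (S.x ^ (j : ℕ)) *ᵥ w := by
      intro j
      rw [← hUcol, Matrix.mulVec_mulVec, show Φ * U = Wm * ((↑hU.unit⁻¹ : Matrix (Fin d) (Fin d) O) * U) from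
        Matrix.mul_assoc _ _ _, IsUnit.val_inv_mul, Matrix.mul_one, Matrix.mulVec_single_one]
      rfl
    have hΦf : ∀ f : Polynomial O, Φ *ᵥ (aeval ZA f *ᵥ u) = aeval ZB f *ᵥ w := by
      intro f
      have hA : aeval ZA f = aeval ZA (f %ₘ qO O F) := by
        conv_lhs => rw [← modByMonic_add_div f (qO O F)]
        rw [map_add, map_mul, hqA, zero_mul, add_zero]
      have hB : aeval ZB f *ᵥ w = aeval ZB (f %ₘ qO O F) *ᵥ w := by
        conv_lhs => rw [← modByMonic_add_div f (qO O F), mul_comm (qO O F)]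
        rw [map_add, map_mul, Matrix.add_mulVec, ← Matrix.mulVec_mulVec, hwq', Matrix.mulVec_zero,
          add_zero]
      rw [hA, hB]
      have hdeg : (f %ₘ qO O F).natDegree < d := by
        have h1 : qO O F ≠ 1 := fun h => by
          have := natDegree_qO (O := O) F
          rw [h, natDegree_one, hFcard] at this
          omega
        rw [← hFcard, ← natDegree_qO (O := O) F]
        exact natDegree_modByMonic_lt f (monic_qO F) h1
      rw [as_sum_range' _ d hdeg, map_sum, map_sum, Matrix.sum_mulVec, Matrix.sum_mulVec,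
        Matrix.mulVec_sum]
      refine Finset.sum_congr rfl fun j hj => ?_
      rw [aeval_monomial, aeval_monomial, Algebra.algebraMap_eq_smul_one,
        Algebra.algebraMap_eq_smul_one, smul_mul_assoc, one_mul, smul_mul_assoc, one_mul,
        Matrix.smul_mulVec, Matrix.smul_mulVec, Matrix.mulVec_smul, hZA, hZB, ← map_pow,
        ← map_pow]
      exact congrArg _ (hΦj ⟨j, Finset.mem_range.1 hj⟩)
    have hΦn : ∀ n : ℕ, Φ *ᵥ (R (S.x ^ n) *ᵥ u) = B (S.x ^ n) *ᵥ w := fun n => by
      have h := hΦf (X ^ n)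
      rwa [map_pow, map_pow, aeval_X, aeval_X, hZA, hZB, ← map_pow, ← map_pow] at h
    have hΦN : ∀ g ∈ S.N, B g * Φ = Φ * R g := by
      have hx : ∀ g ∈ S.P, B g * Φ = Φ * R g := by
        intro g hg
        obtain ⟨m, rfl⟩ : ∃ m : ℕ, S.x ^ m = g := mem_powers_iff_mem_zpowers.2 hg
        refine hext _ _ fun j => ?_
        rw [← Matrix.mulVec_mulVec, hΦn, Matrix.mulVec_mulVec, ← map_mul, ← pow_add,
          ← Matrix.mulVec_mulVec (R (S.x ^ (j : ℕ)) *ᵥ u) Φ, Matrix.mulVec_mulVec u, ← map_mul,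
          ← pow_add, hΦn]
      have hl : ∀ l : S.L, B (l : G) * Φ = Φ * R (l : G) := by
        intro l
        refine hext _ _ fun j => ?_
        have e1 : (l : G) * S.x ^ (j : ℕ) = S.x ^ ((S.act l : ZMod p).val * j) * l := by
          rw [← S.conj_x_pow]; group
        have e2 : R (l : G) *ᵥ (R (S.x ^ (j : ℕ)) *ᵥ u) =
            T l • (R (S.x ^ ((S.act l : ZMod p).val * j)) *ᵥ u) := by
          rw [Matrix.mulVec_mulVec, ← map_mul, e1, map_mul, ← Matrix.mulVec_mulVec, hu,
            Matrix.mulVec_smul]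
        have e3 : B (l : G) *ᵥ (B (S.x ^ (j : ℕ)) *ᵥ w) =
            T l • (B (S.x ^ ((S.act l : ZMod p).val * j)) *ᵥ w) := by
          rw [Matrix.mulVec_mulVec, ← map_mul, e1, map_mul, ← Matrix.mulVec_mulVec, hwT,
            Matrix.mulVec_smul]
        rw [← Matrix.mulVec_mulVec _ (B (l : G)) Φ, hΦn, e3, ← Matrix.mulVec_mulVec _ Φ (R (l : G)),
          e2, Matrix.mulVec_smul, hΦn]
      intro g hg
      obtain ⟨l, hl', y, hy, rfl⟩ := S.mem_N_iff.1 hg
      rw [map_mul, map_mul, Matrix.mul_assoc, hx y hy, ← Matrix.mul_assoc,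
        hl ⟨l, hl'⟩, Matrix.mul_assoc]
    have hΦP : P * Φ = Φ := hext _ _ fun j => by
      rw [← Matrix.mulVec_mulVec, hΦn, Matrix.mulVec_mulVec, (hPB _).eq, ← Matrix.mulVec_mulVec,
        hwP]
    let Fq : G ⧸ S.N → Matrix ι (Fin d) O := fun q => B q.out * Φ * R q.out⁻¹
    have hFg : ∀ g : G, Fq (g : G ⧸ S.N) = B g * Φ * R g⁻¹ := by
      intro g
      obtain ⟨h, hh⟩ := QuotientGroup.mk_out_eq_mul S.N g
      show B (g : G ⧸ S.N).out * Φ * R (g : G ⧸ S.N).out⁻¹ = _
      rw [hh, map_mul, _root_.mul_inv_rev, map_mul, Matrix.mul_assoc (B g), hΦN _ h.2,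
        ← Matrix.mul_assoc (B g), Matrix.mul_assoc (B g * Φ), ← Matrix.mul_assoc (R (h : G)),
        ← map_mul, mul_inv_cancel, map_one, Matrix.one_mul]
    have hequiv : ∀ (x : G) (q : G ⧸ S.N), Fq (x • q) * R x = B x * Fq q := by
      intro x q
      obtain ⟨g, rfl⟩ := QuotientGroup.mk_surjective q
      rw [MulAction.Quotient.smul_coe, hFg, hFg, smul_eq_mul, Matrix.mul_assoc, ← map_mul,
        show (x * g)⁻¹ * x = g⁻¹ by group, map_mul]
      simp only [Matrix.mul_assoc]
    set Ψ := ∑ q, Fq q with hΨ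
    have hΨg : ∀ g, B g * Ψ = Ψ * R g := by
      intro g
      rw [hΨ, Matrix.mul_sum, Matrix.sum_mul]
      exact Fintype.sum_equiv (MulAction.toPerm g) _ _ fun q => (hequiv g q).symm
    have hΨP : P * Ψ = Ψ := by
      rw [hΨ, Matrix.mul_sum]
      refine Finset.sum_congr rfl fun q _ => ?_
      show P * (B q.out * Φ * R q.out⁻¹) = _
      rw [← Matrix.mul_assoc, ← Matrix.mul_assoc, (hPB _).eq, Matrix.mul_assoc (B q.out), hΦP]
    have hΨH : Ψ.map O.subtype ∈ H := by
      refine ⟨fun g => ?_, ?_⟩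
      · show (B g).map O.subtype * Ψ.map O.subtype = Ψ.map O.subtype * (R g).map O.subtype
        rw [← Matrix.map_mul, ← Matrix.map_mul, hΨg]
      · show P.map O.subtype * Ψ.map O.subtype = Ψ.map O.subtype
        rw [← Matrix.map_mul, hΨP]
    have hΨY : residue O ∘ (Ψ *ᵥ u) ∈ redSub O Y :=
      Submodule.subset_span ⟨Ψ *ᵥ u, ⟨_, hΨH, (map_mulVec' O.subtype Ψ u).symm⟩, rfl⟩
    have hfixΨ : Pr *ᵥ (Ψ *ᵥ u) = Ψ *ᵥ u := by
      refine av_mulVec_of_fixed hT hT1 hcL (by rw [Matrix.mulVec_mulVec, hΨP]) fun l => ?_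
      show B (l : G) *ᵥ (Ψ *ᵥ u) = _
      rw [Matrix.mulVec_mulVec, hΨg, ← Matrix.mulVec_mulVec, hu, Matrix.mulVec_smul]
    have hfixw : Pr *ᵥ w = w := av_mulVec_of_fixed hT hT1 hcL hwP hwT
    have hq₁ : Φ *ᵥ u = w := by
      have h := hΦn 0
      rwa [pow_zero, map_one, map_one, Matrix.one_mulVec, Matrix.one_mulVec] at h
    -- the congruence
    have hdiff : residue O ∘ (Ψ *ᵥ u) - residue O ∘ w ∈ Re := by
      refine ⟨?_, ⟨residue O ∘ (Ψ *ᵥ u) - residue O ∘ w, ?_⟩⟩
      swap
      · rw [Matrix.mulVecLin_apply, Matrix.mulVec_sub, red, RingHom.mapMatrix_apply,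
          ← map_mulVec', ← map_mulVec', hfixΨ, hfixw]
      set q₁ : G ⧸ S.N := ((1 : G) : G ⧸ S.N) with hq1
      have hfix : S.x • q₁ = q₁ := by
        rw [hq1, MulAction.Quotient.smul_coe, QuotientGroup.eq]
        simpa using S.P_le_N (Subgroup.mem_zpowers S.x)
      let Zblk : Matrix (ι ⊕ Fin d) (ι ⊕ Fin d) O := fromBlocks ZB 0 0 ZA
      have hblk : ∀ i : ℕ, Zblk ^ i = fromBlocks (ZB ^ i) 0 0 (ZA ^ i) := by
        intro i
        induction i with
        | zero => simp [fromBlocks_one]
        | succ i ih =>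
          rw [pow_succ, ih, pow_succ, pow_succ, fromBlocks_multiply]
          simp
      obtain ⟨h, -, hsum⟩ := H39.SmallDeg.exists_sum_free_orbits S.orderOf_x
        (show Zblk ^ p = 1 by
          have hxp : S.x ^ p = 1 :=
            (congrArg (S.x ^ ·) S.orderOf_x.symm).trans (pow_orderOf_eq_one S.x)
          rw [hblk, hZA, hZB, ← map_pow, ← map_pow, hxp, map_one, map_one, fromBlocks_one])
        (fun _ => True) trivial (fun _ _ _ _ => trivial)
        (fun q => fromBlocks 0 (Fq q) 0 0) (fun _ => trivial) (fun q => by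
          simp only [Zblk, fromBlocks_multiply, Matrix.zero_mul, Matrix.mul_zero, add_zero,
            zero_add]
          rw [hZA, hZB, hequiv])
        _ (Finset.univ.erase q₁) le_rfl
        (fun q hq => Finset.mem_erase.2 ⟨fun e' => Finset.ne_of_mem_erase hq
          (MulAction.injective S.x (e'.trans hfix.symm)), Finset.mem_univ _⟩) (by
        intro q hq j hj e'
        obtain ⟨g, rfl⟩ := QuotientGroup.mk_surjective q
        refine Finset.ne_of_mem_erase hq ?_
        rw [MulAction.Quotient.smul_coe, smul_eq_mul, QuotientGroup.eq, _root_.mul_inv_rev] at e'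
        have hmem : g⁻¹ * S.x ^ j * g ∈ S.N := by
          have := S.N.inv_mem e'
          simpa [mul_assoc] using this
        rw [hq1, QuotientGroup.eq, mul_one]
        refine S.N.inv_mem (S.mem_N_of_fix (Subgroup.pow_mem _ (Subgroup.mem_zpowers _) j)
          (fun h1 => hj ?_) hmem)
        rw [← S.orderOf_x]
        exact orderOf_dvd_of_pow_eq_one h1)
      have hsum' := congrArg toBlocks₁₂ hsum
      have hpe : ∀ i : ℕ, (Zblk ^ i * h * (Zblk ^ (p - 1)) ^ i).toBlocks₁₂ =
          ZB ^ i * h.toBlocks₁₂ * (ZA ^ (p - 1)) ^ i := by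
        intro i
        rw [← pow_mul, ← pow_mul, hblk, hblk]
        conv_lhs => rw [← fromBlocks_toBlocks h]
        simp only [fromBlocks_multiply, toBlocks_fromBlocks₁₂, Matrix.zero_mul, Matrix.mul_zero,
          add_zero, zero_add]
      have hΨeq : Ψ = Φ + ∑ i ∈ Finset.range p, ZB ^ i * h.toBlocks₁₂ * (ZA ^ (p - 1)) ^ i := by
        rw [hΨ, ← Finset.add_sum_erase _ _ (Finset.mem_univ q₁), hq1, hFg]
        simp only [map_one, inv_one, Matrix.one_mul, Matrix.mul_one]
        congr 1
        ext a b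
        have h1 := congrFun (congrFun hsum' a) b
        have h2 : ∀ (t : Finset ℕ) (f : ℕ → Matrix (ι ⊕ Fin d) (ι ⊕ Fin d) O),
            (∑ i ∈ t, f i).toBlocks₁₂ = ∑ i ∈ t, (f i).toBlocks₁₂ := fun t f => by
          ext a b
          simp [toBlocks₁₂, Matrix.sum_apply]
        rw [h2, Finset.sum_congr rfl fun i _ => hpe i] at h1
        rw [← h1]
        simp [toBlocks₁₂, Matrix.sum_apply, hq1]
      have hη : (red O (Fin d) ZA ^ (p - 1) - 1) ^ d = 0 := by
        rw [← geom_sum_mul, ((Commute.sum_left _ _ _ fun i _ =>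
          ((Commute.refl (red O (Fin d) ZA)).sub_right (Commute.one_right _)).pow_left i)).mul_pow,
          hδA, mul_zero]
      obtain ⟨Y₀, hY₀⟩ := trace_mem_range (p := p) (e := e) he Zb (red O (Fin d) ZA ^ (p - 1)) hη
        (h.toBlocks₁₂.map (residue O))
      refine ⟨Y₀ *ᵥ ub, ?_⟩
      rw [Matrix.mulVecLin_apply, Matrix.mulVec_mulVec, ← hY₀, eq_sub_iff_add_eq]
      rw [map_mulVec', hΨeq, Matrix.map_add _ (map_add (residue O)), Matrix.add_mulVec,
        ← map_mulVec', hq₁, add_comm]
      congr 1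
      have hms : ∀ f : ℕ → Matrix ι (Fin d) O, (∑ i ∈ Finset.range p, f i).map (residue O) =
          ∑ i ∈ Finset.range p, (f i).map (residue O) := fun f => by
        ext a b; simp [Matrix.sum_apply]
      rw [hms, Matrix.sum_mulVec, Matrix.sum_mulVec]
      refine Finset.sum_congr rfl fun i _ => ?_
      congr 1
      show _ = (ZB ^ i * h.toBlocks₁₂ * (ZA ^ (p - 1)) ^ i).map (residue O)
      rw [Matrix.map_mul, Matrix.map_mul]
      congr 1
      · congr 1
        exact (map_pow (red O ι) ZB i).symm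
      · show _ = red O (Fin d) ((ZA ^ (p - 1)) ^ i)
        rw [map_pow, map_pow]
    have : residue O ∘ w = residue O ∘ (Ψ *ᵥ u) - (residue O ∘ (Ψ *ᵥ u) - residue O ∘ w) :=
      (sub_sub_cancel _ _).symm
    rw [SetLike.mem_coe, this]
    exact Submodule.sub_mem _ (Submodule.mem_sup_left hΨY) (Submodule.mem_sup_right hdiff)
  -- the bound on the image of the power of `x - 1`
  have hRe : finrank (ResidueField O) Re + K ≤ finrank ℂ RPr := by
    let f : Polynomial (ResidueField O) := ∏ a : S.act.range, (X ^ ((a : (ZMod p)ˣ) : ZMod p).val - 1)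
    let g : Polynomial (ResidueField O) :=
      ∏ a : S.act.range, ∑ i ∈ Finset.range ((a : (ZMod p)ˣ) : ZMod p).val, X ^ i
    have hfg : f = (X - C 1) ^ e * g := by
      rw [← hrange, Nat.card_eq_fintype_card, ← Finset.card_univ, ← Finset.prod_const,
        ← Finset.prod_mul_distrib]
      exact Finset.prod_congr rfl fun a _ => by rw [map_one, mul_comm, geom_sum_mul]
    have hxp : Zb ^ p = 1 := by
      rw [hZb, hZB, ← map_pow, ← map_pow,
        (congrArg (S.x ^ ·) S.orderOf_x.symm).trans (pow_orderOf_eq_one S.x), map_one, map_one]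
    have hpoly : ((X - C (1 : (ResidueField O))) ^ p) = X ^ p - 1 := by
      rw [sub_pow_char, map_one, one_pow]
    have hZp0 : aeval Zb ((X - C (1 : (ResidueField O))) ^ p) = 0 := by
      rw [hpoly, map_sub, map_pow, aeval_X, hxp, map_one, sub_self]
    have hg1 : ¬ (X - C (1 : (ResidueField O))) ∣ g := by
      rw [dvd_iff_isRoot, IsRoot.def, eval_prod, Finset.prod_eq_zero_iff]
      rintro ⟨a, -, ha⟩
      rw [eval_finsetSum] at ha
      simp only [eval_pow, eval_X, one_pow, Finset.sum_const, Finset.card_range, nsmul_eq_mul,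
        mul_one] at ha
      rw [CharP.cast_eq_zero_iff (ResidueField O) p] at ha
      have h2 := ZMod.val_lt ((a : (ZMod p)ˣ) : ZMod p)
      have h3 : ((a : (ZMod p)ˣ) : ZMod p).val = 0 := Nat.eq_zero_of_dvd_of_lt ha h2
      exact (a : (ZMod p)ˣ).ne_zero ((ZMod.val_eq_zero _).1 h3)
    obtain ⟨a', b', hab⟩ : IsCoprime ((X - C (1 : (ResidueField O))) ^ p) g :=
      ((irreducible_X_sub_C (1 : (ResidueField O))).coprime_iff_not_dvd.2 hg1).pow_left
    have hunit : aeval Zb g * aeval Zb b' = 1 := by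
      have h := congrArg (aeval Zb) hab
      rw [map_add, map_mul, hZp0, mul_zero, zero_add, map_one, mul_comm b', map_mul] at h
      exact h
    -- the operator commutes with the projection
    set Δ := aeval Zb f with hΔ
    have hΔPr : Commute (red O ι Pr) Δ := by
      rw [hPr, red, map_av]
      refine av_comm ?_ fun l => ?_
      · refine Commute.symm ?_
        have h : Commute Zb (red O ι P) := ((hPB S.x).map (red O ι)).symm
        exact mul_aeval _ _ _ h.symm.eq f |>.symm
      · show red O ι (B (l : G)) * Δ = Δ * red O ι (B (l : G))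
        set a := (S.act l : ZMod p).val with hadef
        rw [hΔ, mul_aeval (red O ι (B (l : G))) Zb (Zb ^ a) (by
          rw [hZb, hZB, ← map_pow, ← map_pow, ← map_mul, ← map_mul, ← map_mul, ← map_mul,
            show (l : G) * S.x = S.x ^ a * l by rw [hadef, ← S.act_spec]; group]) f]
        congr 1
        rw [show Zb ^ a = aeval Zb ((X : Polynomial (ResidueField O)) ^ a) by rw [map_pow, aeval_X],
          ← aeval_comp]
        have hmod : (X : Polynomial (ResidueField O)) ^ p - 1 ∣ f.comp (X ^ a) - f := by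
          rw [← Ideal.mem_span_singleton, ← Ideal.Quotient.eq]
          simp only [f, prod_comp, sub_comp, pow_comp, X_comp, one_comp, map_prod, map_sub,
            map_pow, map_one, ← pow_mul]
          have h1 : (Ideal.Quotient.mk (Ideal.span {(X : Polynomial (ResidueField O)) ^ p - 1}) X) ^ p = 1 := by
            rw [← map_pow, ← sub_eq_zero, ← map_one (Ideal.Quotient.mk _), ← map_sub,
              Ideal.Quotient.eq_zero_iff_mem]
            exact Ideal.subset_span rfl
          refine Fintype.prod_equiv (Equiv.mulLeft (⟨S.act l, l, rfl⟩ : S.act.range)) _ _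
            fun b => ?_
          rw [Equiv.coe_mulLeft, Subgroup.coe_mul, Units.val_mul, ZMod.val_mul, ← hadef,
            pow_eq_pow_mod (a * _) h1]
        obtain ⟨r, hr⟩ := hmod
        rw [← sub_eq_zero, ← map_sub, hr, map_mul, ← hpoly, hZp0, zero_mul]
    have hΔe : Δ = aeval Zb g * (Zb - 1) ^ e := by
      rw [hΔ, hfg, mul_comm, map_mul, map_pow, map_sub, aeval_X, map_one C, map_one]
    set RB := LinearMap.range (red O ι Pr).mulVecLin with hRB
    let Δl : RB →ₗ[(ResidueField O)] (ι → (ResidueField O)) := Δ.mulVecLin.comp RB.subtype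
    have hidem : red O ι Pr * red O ι Pr = red O ι Pr := by rw [← map_mul, hPrPr]
    have hfixB : ∀ v ∈ RB, red O ι Pr *ᵥ v = v := by
      rintro _ ⟨y, rfl⟩
      rw [Matrix.mulVecLin_apply, Matrix.mulVec_mulVec, hidem]
    have h1 : Re ≤ LinearMap.range Δl := by
      rintro v ⟨⟨y, hy⟩, hv⟩
      refine ⟨⟨red O ι Pr *ᵥ (aeval Zb b' *ᵥ y), ⟨_, rfl⟩⟩, ?_⟩
      show Δ *ᵥ (red O ι Pr *ᵥ (aeval Zb b' *ᵥ y)) = v
      rw [Matrix.mulVec_mulVec, ← hΔPr.eq, ← Matrix.mulVec_mulVec]
      have hbc : Commute (aeval Zb g * (Zb - 1) ^ e) (aeval Zb b') := by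
        have e1 : (Zb - 1) ^ e = aeval Zb ((X - C (1 : (ResidueField O))) ^ e) := by
          rw [map_pow, map_sub, aeval_X, map_one C, map_one]
        rw [e1, ← map_mul]
        exact (Commute.all _ _).map (aeval Zb)
      rw [Matrix.mulVec_mulVec y Δ, hΔe, hbc.eq, ← mul_assoc,
        show aeval Zb b' * aeval Zb g = 1 by
          rw [← map_mul, mul_comm, map_mul, hunit], one_mul]
      rw [Matrix.mulVecLin_apply] at hy
      rw [hy]
      exact hfixB v hv
    have h2 : K ≤ finrank (ResidueField O) (LinearMap.ker Δl) := by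
      have hmem : ∀ n, s n ∈ RB := fun n => ⟨s n, by
        rw [Matrix.mulVecLin_apply, hPr, red, map_av]
        refine av_mulVec_of_fixed (fun a b => ?_) ?_ ?_ (hsP n) (hsT n)
        · simp only [Function.comp_apply, hT, map_mul]
        · simp only [Function.comp_apply, hT1, map_one]
        · rw [← map_natCast (residue O), ← map_mul, hcL, map_one]⟩
      have hker : ∀ n, (⟨s n, hmem n⟩ : RB) ∈ LinearMap.ker Δl := fun n => by
        show Δ *ᵥ s n = 0
        rw [hΔe, ← Matrix.mulVec_mulVec, hse, Matrix.mulVec_zero]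
      have hli : LinearIndependent (ResidueField O) fun n => (⟨⟨s n, hmem n⟩, hker n⟩ : LinearMap.ker Δl) :=
        LinearIndependent.of_comp (RB.subtype.comp (LinearMap.ker Δl).subtype) hs
      have := hli.fintype_card_le_finrank
      rwa [Fintype.card_fin] at this
    have h3 := Δl.finrank_range_add_finrank_ker
    have h4 : finrank (ResidueField O) Re ≤ finrank (ResidueField O) (LinearMap.range Δl) := Submodule.finrank_mono h1
    have h5 : finrank (ResidueField O) RB = finrank ℂ RPr := rank_red_idem hPrPr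
    omega
  have h6 := le_finrank_redSub (O := O) (finrank ℂ W) W rfl
  have h7 := (Submodule.finrank_mono hmain).trans
    (Submodule.finrank_add_le_finrank_add_finrank _ _)
  have h8 := finrank_redSub_le (O := O) Y
  omega

end Main

end Cfsg.Agent.H40.SmallDeg
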