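import Mathlib
import Cfsg.Agent.H40.SmallDeg.Tensor
import Cfsg.Agent.H40.SmallDeg.Targets
import Cfsg.Agent.H40.SmallDeg.Isotypic
import Cfsg.Agent.H40.SmallDeg.Funcs
import Cfsg.Agent.H40.SmallDeg.Transfer

/-!
Counting the homomorphisms from the twisted conjugates into the symmetric or exterior square.
-/

set_option autoImplicit false
set_option maxHeartbeats 1000000
set_option linter.unusedSectionVars false

namespace Cfsg.Agent.H40.SmallDeg

open Matrix IsLocalRing Cfsg.Agent.H43.D1
open Cfsg.Agent.H31.Defect (red toK)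
open Cfsg.Agent.H39.SmallDeg (rt eProj mult)
open scoped Kronecker

attribute [local instance] Fintype.ofFinite Classical.propDecidable

variable {p : ℕ} [hp : Fact p.Prime] {G : Type*} [Group G] [Finite G] (S : Setup p G)
  {O : ValuationSubring ℂ} {d : ℕ} {R : G →* Matrix (Fin d) (Fin d) O} {c₀ : (ZMod p)ˣ}

theorem coset_congr {c₁ c₂ : (ZMod p)ˣ} (h : c₂ * c₁⁻¹ ∈ S.act.range) :
    coset S c₂ = coset S c₁ := by
  ext z
  rcases eq_or_ne z 0 with rfl | hz
  · simp [zero_not_mem_coset]
  · rw [← Units.val_mk0 hz, mem_coset, mem_coset,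
      show Units.mk0 z hz * c₁⁻¹ = (Units.mk0 z hz * c₂⁻¹) * (c₂ * c₁⁻¹) by group,
      Subgroup.mul_mem_cancel_right _ h]

theorem Piece.congr_rep {c₁ c₂ : (ZMod p)ˣ} (H : Piece S O R c₁)
    (h : c₂ * c₁⁻¹ ∈ S.act.range) : Piece S O R c₂ :=
  ⟨H.mem, H.schur, H.range, H.two, by rw [coset_congr S h]; exact H.mult⟩

theorem Piece.two_lt (H : Piece S O R c₀) : 2 < p := by
  have := H.range
  have := H.two
  have : 0 < Nat.card S.act.range := Nat.card_pos
  omega

theorem card_range_dvd : Nat.card S.act.range ∣ p - 1 := by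
  have h := Subgroup.card_subgroup_dvd_card S.act.range
  rwa [Nat.card_eq_fintype_card (α := (ZMod p)ˣ), ZMod.card_units] at h

include S in
theorem card_eq_mul_index : Nat.card G = p * (Nat.card G / p) := by
  have h := orderOf_dvd_natCard S.x
  rw [S.orderOf_x] at h
  exact (Nat.mul_div_cancel' h).symm

theorem neg_one_mem_range_iff (hp2 : 2 < p) :
    (-1 : (ZMod p)ˣ) ∈ S.act.range ↔ Even (Nat.card S.act.range) := by
  have hne : (-1 : (ZMod p)ˣ) ≠ 1 := by
    intro h
    haveI : Fact (2 < p) := ⟨hp2⟩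
    exact ZMod.neg_one_ne_one (n := p) (by simpa using congrArg Units.val h)
  constructor
  · intro h
    have h2 : orderOf (⟨-1, h⟩ : S.act.range) = 2 := by
      refine orderOf_eq_prime ?_ ?_
      · exact Subtype.ext (by simp)
      · exact fun h' => hne (congrArg Subtype.val h')
    exact even_iff_two_dvd.2 (h2 ▸ orderOf_dvd_natCard _)
  · intro h
    haveI : Fact (Nat.Prime 2) := ⟨Nat.prime_two⟩
    obtain ⟨a, ha⟩ := exists_prime_orderOf_dvd_card' (G := S.act.range) 2 (even_iff_two_dvd.1 h)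
    have h1 : ((a : (ZMod p)ˣ) : ZMod p) ^ 2 = 1 := by
      have := congrArg (fun b : S.act.range => ((b : (ZMod p)ˣ) : ZMod p))
        (ha ▸ pow_orderOf_eq_one a)
      simpa using this
    rcases sq_eq_one_iff.1 h1 with h1 | h1
    · exfalso
      have : a = 1 := Subtype.ext (Units.ext h1)
      rw [this, orderOf_one] at ha
      exact absurd ha (by norm_num)
    · rw [show (-1 : (ZMod p)ˣ) = (a : (ZMod p)ˣ) from Units.ext (by rw [h1]; simp)]
      exact a.2

/-- Pairs of exponents below the degree of prescribed parity in one residue class. -/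
theorem le_card_pairs {e d w c o : ℕ} (he : 0 < e) (hw : w < d) (hdvd : e ∣ w + c) (ho : o < 2) :
    (w + 2 - o) / 2 ≤ (((Finset.range e) ×ˢ (Finset.range d)).filter fun q =>
      q.1 + q.2 < d ∧ (q.2 % 2 = o) ∧ e ∣ q.1 + q.2 + c).card := by
  rw [← Finset.card_range ((w + 2 - o) / 2)]
  refine Finset.card_le_card_of_injOn (fun j => ((w - (2 * j + o)) % e, 2 * j + o)) ?_ ?_
  · intro j hj
    rw [Finset.mem_coe, Finset.mem_range] at hj
    have hj' : 2 * j + o ≤ w := by omega
    have hle := Nat.mod_le (w - (2 * j + o)) e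
    refine Finset.mem_coe.2 (Finset.mem_filter.2 ⟨Finset.mem_product.2
      ⟨Finset.mem_range.2 (Nat.mod_lt _ he), Finset.mem_range.2 ?_⟩, ?_, ?_, ?_⟩)
    all_goals simp only
    · omega
    · omega
    · omega
    · have h2 := Nat.mod_add_div (w - (2 * j + o)) e
      refine (Nat.dvd_add_left (dvd_mul_right e ((w - (2 * j + o)) / e))).1 ?_
      rwa [show (w - (2 * j + o)) % e + (2 * j + o) + c + e * ((w - (2 * j + o)) / e) = w + c by
        omega]
  · intro a _ b _ h
    simp only [Prod.mk.injEq] at h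
    omega

/-- The dimension of a part of an eigenspace of `x` in the square. -/
noncomputable def nr (R : G →* Matrix (Fin d) (Fin d) O) (odd : Bool) (c : ZMod p) : ℕ :=
  (toK O (Fin d × Fin d) (part O d odd) * eig S (sq R) c).rank

theorem two_mul_sum_nr (H : Piece S O R c₀) (odd : Bool) :
    2 * ((∑ c : ZMod p, nr S R odd c : ℕ) : ℂ) = (d : ℂ) * d + sgn ℂ odd * d := by
  set m := fun j : ZMod p => ((mult S.x ((toK O (Fin d)).toMonoidHom.comp R) j : ℕ) : ℂ) with hm
  have hd : ∑ j, m j = (d : ℂ) := by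
    simp only [hm]
    rw [← Nat.cast_sum, H39.SmallDeg.sum_mult S.orderOf_x]
  simp only [nr]
  rw [Nat.cast_sum, Finset.mul_sum, Finset.sum_congr rfl fun c _ =>
    two_mul_rank_part S R (isUnit_two H.mem H.two_lt) odd c, Finset.sum_comm]
  show ∑ j, ∑ c, (m j * m (c - j) + if j = c - j then sgn ℂ odd * m j else 0) = _
  rw [Finset.sum_congr rfl fun j _ => show
      ∑ c, (m j * m (c - j) + if j = c - j then sgn ℂ odd * m j else 0) =
        m j * d + sgn ℂ odd * m j by
    rw [Finset.sum_add_distrib, ← Finset.mul_sum, Fintype.sum_equiv (Equiv.subRight j)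
      (fun c => m (c - j)) m (fun _ => rfl), hd,
      Finset.sum_eq_single (j + j) (fun c _ hc => if_neg fun h => hc (by linear_combination -h))
      (fun h => absurd (Finset.mem_univ _) h), if_pos (by ring)],
    Finset.sum_add_distrib, ← Finset.sum_mul, ← Finset.mul_sum, hd]

theorem two_mul_nr_zero (H : Piece S O R c₀) (odd : Bool) :
    2 * ((nr S R odd 0 : ℕ) : ℂ) =
      (((Finset.univ.filter fun j : ZMod p => j ∉ coset S c₀ ∧ -j ∉ coset S c₀).card : ℕ) : ℂ) +
        sgn ℂ odd := by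
  set m := fun j : ZMod p => ((mult S.x ((toK O (Fin d)).toMonoidHom.comp R) j : ℕ) : ℂ) with hm
  rw [nr, two_mul_rank_part S R (isUnit_two H.mem H.two_lt) odd 0]
  show ∑ j, (m j * m (0 - j) + if j = 0 - j then sgn ℂ odd * m j else 0) = _
  rw [Finset.sum_add_distrib, Finset.natCast_card_filter]
  congr 1
  · refine Finset.sum_congr rfl fun j _ => ?_
    simp only [hm, H.mult, zero_sub]
    by_cases h1 : j ∈ coset S c₀ <;> by_cases h2 : -j ∈ coset S c₀ <;> simp [h1, h2]
  · rw [Finset.sum_eq_single (0 : ZMod p) (fun j _ hj => if_neg fun h => hj ?_)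
      (fun h => absurd (Finset.mem_univ _) h)]
    · rw [show m 0 = 1 by simp only [hm]; rw [H.mult, if_neg (zero_not_mem_coset S c₀), Nat.cast_one]]
      simp
    · have h2 : (2 : ZMod p) * j = 0 := by linear_combination h
      refine (mul_eq_zero.1 h2).resolve_left fun h0 => ?_
      have h0' : ((2 : ℕ) : ZMod p) = 0 := by simpa using h0
      rw [ZMod.natCast_eq_zero_iff] at h0'
      exact absurd (Nat.le_of_dvd two_pos h0') (by have := H.two_lt; omega)

theorem nr_zero_even (H : Piece S O R c₀) (he : Even (Nat.card S.act.range)) (odd : Bool) :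
    2 * ((nr S R odd 0 : ℕ) : ℂ) = (d : ℂ) + sgn ℂ odd := by
  rw [two_mul_nr_zero S H odd]
  congr 2
  rw [← H.card_compl]
  congr 1
  ext j
  rw [Finset.mem_filter, Finset.mem_compl, and_iff_right (Finset.mem_univ _),
    and_iff_left_of_imp]
  intro hj hnj
  refine hj ?_
  obtain ⟨a, ha⟩ : ∃ a : S.act.range, ((a : (ZMod p)ˣ) : ZMod p) * c₀ = -j := by
    simpa [coset] using hnj
  have hmem := (neg_one_mem_range_iff S H.two_lt).2 he
  exact Finset.mem_image.2 ⟨⟨-1, hmem⟩ * a, Finset.mem_univ _, by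
    rw [Subgroup.coe_mul, Units.val_mul, mul_assoc, ha]; simp⟩

theorem nr_zero_odd (H : Piece S O R c₀) (he : ¬ Even (Nat.card S.act.range)) (odd : Bool) :
    2 * ((nr S R odd 0 : ℕ) : ℂ) + (Nat.card S.act.range : ℂ) = (d : ℂ) + sgn ℂ odd := by
  rw [two_mul_nr_zero S H odd, add_right_comm, ← Nat.cast_add]
  congr 2
  have hdisj : Disjoint (coset S c₀) ((coset S c₀).image fun j => -j) := by
    rw [Finset.disjoint_left]
    intro j hj hj'
    obtain ⟨i, hi, hij⟩ := Finset.mem_image.1 hj'
    rw [coset, Finset.mem_image] at hj hi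
    obtain ⟨a, -, ha⟩ := hj
    obtain ⟨b, -, hb⟩ := hi
    refine he ((neg_one_mem_range_iff S H.two_lt).1 ?_)
    have e : (-1 : (ZMod p)ˣ) = ((a * b⁻¹ : S.act.range) : (ZMod p)ˣ) := by
      refine Units.ext ?_
      have hab : ((a : (ZMod p)ˣ) : ZMod p) = -((b : (ZMod p)ˣ) : ZMod p) := by
        refine mul_right_cancel₀ c₀.ne_zero ?_
        rw [ha, neg_mul, hb, hij]
      rw [Subgroup.coe_mul, Units.val_mul, hab, Subgroup.coe_inv, neg_mul, Units.mul_inv,
        Units.val_neg, Units.val_one]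
    rw [e]
    exact SetLike.coe_mem _
  have hset : (Finset.univ.filter fun j : ZMod p => j ∉ coset S c₀ ∧ -j ∉ coset S c₀) =
      (coset S c₀ ∪ (coset S c₀).image fun j => -j)ᶜ := by
    ext j
    simp [neg_eq_iff_eq_neg]
  rw [hset, Finset.card_compl, Finset.card_union_of_disjoint hdisj,
    Finset.card_image_of_injective _ neg_injective, card_coset, ZMod.card]
  have h1 := H.range
  have h2 : (coset S c₀ ∪ (coset S c₀).image fun j => -j).card ≤ p := by
    simpa using Finset.card_le_univ (coset S c₀ ∪ (coset S c₀).image fun j => -j)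
  rw [Finset.card_union_of_disjoint hdisj, Finset.card_image_of_injective _ neg_injective,
    card_coset] at h2
  omega

/-- The transfer from a target into a part of the square. -/
theorem Piece.bound (H : Piece S O R c₀) (T : S.L →* O) (u : Fin d → O)
    (hu : ∀ l : S.L, R (l : G) *ᵥ u = T l • u)
    (hu1 : ((red O (Fin d) (R S.x) - 1) ^ (d - 1)) *ᵥ (residue O ∘ u) ≠ 0)
    {R' : G →* Matrix (Fin d) (Fin d) O} {c₁ : (ZMod p)ˣ} (H' : Piece S O R' c₁)
    (T' : S.L →* O) (u' : Fin d → O) (hu' : ∀ l : S.L, R' (l : G) *ᵥ u' = T' l • u')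
    (hu1' : ((red O (Fin d) (R' S.x) - 1) ^ (d - 1)) *ᵥ (residue O ∘ u') ≠ 0) (C : ℕ)
    (hC : ∀ l : S.L, residue O (T' l) = residue O (T l) ^ 2 *
      (((S.act l : ZMod p).val : ℕ) : ResidueField O) ^ C) (odd : Bool) :
    ∃ Hs : Submodule ℂ (Matrix (Fin d × Fin d) (Fin d) ℂ),
      (∀ Ψ ∈ Hs, (∀ g, toK O (Fin d × Fin d) (sq R g) * Ψ = Ψ * toK O (Fin d) (R' g)) ∧
        toK O (Fin d × Fin d) (part O d odd) * Ψ = Ψ) ∧
      (((Finset.range (Nat.card S.act.range)) ×ˢ (Finset.range d)).filter fun q =>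
        q.1 + q.2 < d ∧ (q.2 % 2 = if odd then 1 else 0) ∧
          Nat.card S.act.range ∣ q.1 + q.2 + C).card ≤
        Module.finrank ℂ Hs + nr S R odd (c₁ : ZMod p) := by
  classical
  haveI : CharP (ResidueField O) p := (CharP.charP_iff_prime_eq_zero hp.out).2 (by
    rw [← map_natCast (residue O), residue_eq_zero_iff]; exact H.mem)
  let τ : S.L →* Matrix (Fin d) (Fin d) (ResidueField O) :=
    ((red O (Fin d)).toMonoidHom.comp R).comp S.L.subtype
  have hτ : ∀ l : S.L, τ l = red O (Fin d) (R (l : G)) := fun _ => rfl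
  have hmap : ∀ (M : Matrix (Fin d) (Fin d) O) (v : Fin d → O),
      residue O ∘ (M *ᵥ v) = red O (Fin d) M *ᵥ (residue O ∘ v) := fun M v => by
    funext i
    simp [red, Matrix.mulVec, dotProduct, map_sum]
  obtain ⟨s, hs, hsp⟩ := kernel_count (k := ResidueField O) H.range H.two (card_range_dvd S)
    H.two_lt S.not_dvd τ S.act rfl (red O (Fin d) (R S.x)) H.red_pow
    (fun l => by rw [hτ, ← map_pow, ← map_pow, ← map_mul, ← map_mul, ← map_mul, ← map_mul,
      ← S.act_spec l, inv_mul_cancel_right])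
    (fun l => residue O (T l)) (residue O ∘ u) hu1
    (fun l => by rw [hτ, ← hmap, hu]; funext i; simp) C odd
  have h2 := isUnit_two (O := O) H.mem H.two_lt
  obtain ⟨Hs, hHs, hle⟩ := transfer S H.mem H.range H.two rfl R' u' T' hu'
    (by simpa using hu1') c₁ H'.mult (sq R) (part O d odd) (part_idem h2 odd)
    (part_commute R odd) s hs
    (fun n => red_part_mulVec h2 odd fun i j => (hsp n).1 i j)
    (fun n l => by
      rw [sq_apply, red_kronecker, hC]
      exact (hsp n).2.1 l)
    (fun n => by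
      rw [sq_apply, red_kronecker]
      exact (hsp n).2.2)
  exact ⟨Hs, hHs, hle⟩

theorem arith_one {d t r K N n₀ : ℕ} (hd : d = t * (r + r) + 1) (hK : t * r ≤ K)
    (h : K * ((t + 1) * (r + r)) + n₀ ≤ N) (h1 : 2 * N + d = d * d) (h2 : 2 * n₀ + 1 = d)
    (ht : 0 < t) (hr : 0 < r) : False := by
  subst hd
  have := Nat.mul_le_mul_right ((t + 1) * (r + r)) hK
  nlinarith [Nat.mul_pos (Nat.mul_pos ht hr) hr]

theorem arith_two {d t r u v K N n₀ : ℕ} (hd : d = t * (r + r) + 1) (hu : t = 2 * u + 1)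
    (hv : r = v + v) (hK : 2 * u * r + v ≤ K) (h : K * ((t + 1) * (r + r)) + n₀ ≤ N)
    (h1 : 2 * N + d = d * d) (h2 : 2 * n₀ + 1 = d) (hu0 : 0 < u) (hv0 : 0 < v) : False := by
  subst hd hu hv
  have := Nat.mul_le_mul_right ((2 * u + 1 + 1) * (v + v + (v + v))) hK
  nlinarith [Nat.mul_pos (Nat.mul_pos hu0 hv0) hv0]

theorem arith_three {d t r u v K N n₀ : ℕ} (hd : d = t * (r + r) + 1) (hu : t = 2 * u + 1)
    (hv : r = 2 * v + 1) (hK : 2 * u * r + v + 1 ≤ K) (h : K * ((t + 1) * (r + r)) + n₀ ≤ N)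
    (h1 : 2 * N = d * d + d) (h2 : 2 * n₀ = d + 1) (hu0 : 0 < u) (hv0 : 0 < v) : False := by
  subst hd hu hv
  have := Nat.mul_le_mul_right ((2 * u + 1 + 1) * (2 * v + 1 + (2 * v + 1))) hK
  nlinarith [Nat.mul_pos (Nat.mul_pos hu0 hv0) hv0, Nat.mul_pos hu0 hv0]

/-- The automizer of even order. -/
theorem Piece.even_case (H : Piece S O R c₀) (χ : Cfsg.IrrCharacter G)
    (htr : ∀ g, (toK O (Fin d) (R g)).trace = χ.1 g)
    (hV : ∀ v : S.V, ((v : S.L) : G) ∈ Subgroup.center G) (heven : Even (Nat.card S.act.range)) :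
    Nat.card S.act.range = 2 ∨ d = Nat.card S.act.range + 1 := by
  classical
  obtain ⟨T, u, hu, hu1, hE, -⟩ := H.exists_weight
  set e := Nat.card S.act.range with he
  have hrange := H.range
  rw [← he] at hrange
  have hd2 := H.two
  have hp2 := H.two_lt
  obtain ⟨r, hr⟩ := heven
  have he0 : 0 < e := Nat.card_pos
  obtain ⟨t, ht⟩ : e ∣ p - 1 := card_range_dvd S
  have ht0 : 0 < t := Nat.pos_of_ne_zero fun h => by rw [h, mul_zero] at ht; omega
  obtain ⟨t, rfl⟩ : ∃ t', t = t' + 1 := ⟨t - 1, by omega⟩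
  have hd : d = t * e + 1 := by
    rw [mul_add, mul_one, mul_comm] at ht
    omega
  by_contra hcon
  push Not at hcon
  obtain ⟨he2, hde⟩ := hcon
  have ht2 : 2 ≤ t := by
    by_contra h
    interval_cases t <;> omega
  -- the twist
  have hG : Nat.card G / p ≠ 0 := by
    have h := card_eq_mul_index S
    intro h0
    rw [h0, mul_zero] at h
    exact Nat.card_pos.ne' h
  set m := Nat.card G / p with hm
  obtain ⟨s, m', hm', hms⟩ := Nat.exists_eq_two_pow_mul_odd hG
  set k := m' * p with hk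
  set b := 2 + (m - 1) * (d * k) with hb'
  have hpodd : Odd p := hp.out.odd_of_ne_two (by omega)
  have hdodd : Odd d := ⟨t * r, by rw [hd, hr]; ring⟩
  have hb : b.Coprime m := by
    refine Nat.coprime_of_dvd fun ℓ hℓ hℓb hℓm => ?_
    rcases hℓ.eq_two_or_odd' with rfl | hodd
    · have h1 : Odd ((m - 1) * (d * k)) := by
        refine Odd.mul ?_ (hdodd.mul (hm'.mul hpodd))
        obtain ⟨q, hq⟩ := hℓm
        exact ⟨q - 1, by omega⟩
      obtain ⟨q, hq⟩ := h1
      omega
    · have hℓm' : ℓ ∣ m' := by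
        rw [hms] at hℓm
        exact ((Nat.coprime_primes hℓ Nat.prime_two).2 (by rintro rfl; exact absurd hodd (by decide))
          |>.pow_right s).dvd_of_dvd_mul_left hℓm
      have h2 : ℓ ∣ 2 := by
        have h1 : ℓ ∣ (m - 1) * (d * k) :=
          Dvd.dvd.mul_left (Dvd.dvd.mul_left (hℓm'.mul_right p) d) _
        exact (Nat.dvd_add_left h1).1 hℓb
      have := (Nat.prime_dvd_prime_iff_eq hℓ Nat.prime_two).1 h2
      subst this
      exact absurd hodd (by decide)
  have hLm : Nat.card S.L ∣ m := by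
    have h := Subgroup.card_subgroup_dvd_card S.L
    rw [card_eq_mul_index S] at h
    exact ((hp.out.coprime_iff_not_dvd.2 S.not_dvd).symm).dvd_of_dvd_mul_left h
  have hbk : ∀ l : S.L, T l ^ (b + d * k) = T l ^ 2 := by
    intro l
    have h1 : (T l) ^ m = 1 := by
      obtain ⟨q, hq⟩ := hLm
      rw [hq, pow_mul, ← map_pow, pow_card_eq_one', map_one, one_pow]
    have hexp : b + d * k = 2 + m * (d * k) := by
      have hm1 : m - 1 + 1 = m := by omega
      calc b + d * k = 2 + ((m - 1) + 1) * (d * k) := by rw [hb']; ring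
        _ = 2 + m * (d * k) := by rw [hm1]
    rw [hexp, pow_add, pow_mul, h1, one_pow, mul_one]
  set C := k * (d * (d - 1) / 2) with hC
  have hhalf : d * (d - 1) / 2 = d * (t * r) := by
    rw [show d - 1 = 2 * (t * r) by rw [hd, hr]; simp; ring, mul_left_comm,
      Nat.mul_div_cancel_left _ two_pos]
  obtain ⟨q, hq⟩ := hm'.mul hpodd |>.mul hdodd
  have hC' : C = (2 * q + 1) * (t * r) := by rw [hC, hhalf, ← hq, hk]; ring
  -- an element inverting `x`
  obtain ⟨y, hy⟩ := (neg_one_mem_range_iff S hp2).2 (by rw [← he]; exact ⟨r, hr⟩)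
  have hyy : y * y ∈ S.V := by
    rw [MonoidHom.mem_ker, map_mul, hy]
    simp
  have hcent : toK O (Fin d) (R ((y : G) * y)) = ((T (y * y) : O) : ℂ) • 1 := by
    have hc : ((y * y : S.L) : G) ∈ Subgroup.center G := hV ⟨_, hyy⟩
    obtain ⟨α, hα⟩ := H.schur (toK O (Fin d) (R ((y : G) * y))) fun g => by
      have h := (Subgroup.mem_center_iff.1 hc g)
      show _ * _ = _ * _
      rw [← map_mul, ← map_mul, ← map_mul, ← map_mul]
      rw [Subgroup.coe_mul] at h
      rw [h]
    have h1 := hE (y * y)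
    rw [Subgroup.coe_mul, hα, smul_mul_assoc, one_mul] at h1
    have hne : eProj S.x ((toK O (Fin d)).toMonoidHom.comp R) (0 : ZMod p) ≠ 0 := fun h0 => by
      have h := H.mult 0
      rw [if_neg (zero_not_mem_coset S c₀), H39.SmallDeg.mult, h0, Matrix.rank_zero] at h
      exact zero_ne_one h
    rw [hα, smul_left_injective ℂ hne h1]
  haveI : CharP (ResidueField O) p := (CharP.charP_iff_prime_eq_zero hp.out).2 (by
    rw [← map_natCast (residue O), residue_eq_zero_iff]; exact H.mem)
  have hres1 : (((S.act y : ZMod p).val : ℕ) : ResidueField O) = -1 := by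
    rw [hy, Units.val_neg, Units.val_one,
      ← map_natCast (ZMod.castHom (dvd_refl p) (ResidueField O)), ZMod.natCast_zmod_val, map_neg,
      map_one]
  -- no homomorphisms for a suitable kind of square
  have key : ∀ odd : Bool, (-1 : ResidueField O) ^ C ≠ sgn (ResidueField O) odd →
      (((Finset.range e) ×ˢ (Finset.range d)).filter fun q =>
        q.1 + q.2 < d ∧ (q.2 % 2 = if odd then 1 else 0) ∧ e ∣ q.1 + q.2 + C).card * (p - 1) +
          nr S R odd 0 ≤ ∑ c : ZMod p, nr S R odd c := by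
    intro odd hsign
    set K := (((Finset.range e) ×ˢ (Finset.range d)).filter fun q =>
        q.1 + q.2 < d ∧ (q.2 % 2 = if odd then 1 else 0) ∧ e ∣ q.1 + q.2 + C).card with hK
    have hone : ∀ a : (ZMod p)ˣ, K ≤ nr S R odd ((a * c₀ : (ZMod p)ˣ) : ZMod p) := by
      intro a
      obtain ⟨θ, R', T', u', H', -, hu', hu1', hE', hres⟩ :=
        exists_target S H χ htr T u hu hu1 hE hb ⟨m', mul_comm _ _⟩ hbk a
      obtain ⟨Hs, hHs, hle⟩ := H.bound S T u hu hu1 H' T' u' hu' hu1' C hres odd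
      suffices hbot : Hs = ⊥ by
        rw [hbot, finrank_bot, zero_add] at hle
        exact hle
      rw [Submodule.eq_bot_iff]
      intro Ψ hΨ
      obtain ⟨hint, hP⟩ := hHs Ψ hΨ
      set E' := eProj S.x ((toK O (Fin d)).toMonoidHom.comp R') (0 : ZMod p) with hE'def
      obtain ⟨w, hw⟩ : ∃ w, E' *ᵥ w ≠ 0 := by
        by_contra hc
        push Not at hc
        have h := H'.mult 0
        rw [if_neg (zero_not_mem_coset S _), H39.SmallDeg.mult, ← hE'def,
          show E' = 0 from Matrix.ext fun i j => by simpa using congrFun (hc (Pi.single j 1)) i, Matrix.rank_zero] at h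
        exact zero_ne_one h
      refine eq_zero_of_mulVec_eq_zero ((toK O (Fin d)).toMonoidHom.comp R') H'.schur
        ((toK O (Fin d × Fin d)).toMonoidHom.comp (sq R)) hint hw ?_
      set v := Ψ *ᵥ (E' *ᵥ w) with hv
      have hvP : toK O (Fin d × Fin d) (part O d odd) *ᵥ v = v := by
        rw [hv, Matrix.mulVec_mulVec, hP]
      have hvx : eig S (sq R) 0 *ᵥ v = v := by
        have h1 : ∀ i : ZMod p, toK O (Fin d × Fin d) (sq R (S.x ^ i.val)) *ᵥ v = v := fun i => by
          rw [hv, Matrix.mulVec_mulVec, hint, ← Matrix.mulVec_mulVec, Matrix.mulVec_mulVec w,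
            show toK O (Fin d) (R' (S.x ^ i.val)) * E' = E' by
              have := H39.SmallDeg.zpow_mul_eProj (A := (toK O (Fin d)).toMonoidHom.comp R')
                S.orderOf_x i 0
              rw [mul_zero, H39.SmallDeg.rt_zero, one_smul] at this
              exact this]
        rw [eig, Matrix.smul_mulVec, Matrix.sum_mulVec, Finset.sum_congr rfl fun i _ => by
          rw [Matrix.smul_mulVec, h1, mul_zero, neg_zero, H39.SmallDeg.rt_zero, one_smul],
          Finset.sum_const, Finset.card_univ, ZMod.card, ← Nat.cast_smul_eq_nsmul ℂ, smul_smul,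
          inv_mul_cancel₀ H39.SmallDeg.p_ne_zero, one_smul]
      have hy' : toK O (Fin d × Fin d) (sq R y) *ᵥ v = (T' y : ℂ) • v := by
        rw [hv, Matrix.mulVec_mulVec, hint, ← Matrix.mulVec_mulVec, Matrix.mulVec_mulVec w,
          hE' y, Matrix.smul_mulVec, Matrix.mulVec_smul]
      have hxy : (y : G) * S.x * (y : G)⁻¹ = S.x ^ (-1 : ZMod p).val := by
        rw [S.act_spec, hy, Units.val_neg, Units.val_one]
      have hy2 : toK O (Fin d × Fin d) (sq R y) *ᵥ v =
          ((T (y * y) : ℂ) * sgn ℂ odd) • v := by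
        conv_lhs => rw [← hvx, Matrix.mulVec_mulVec, sq_apply_mul_eig_zero S R hxy hcent
          (fun j => by rw [H.mult]; split_ifs <;> simp), Matrix.smul_mulVec, ← Matrix.mulVec_mulVec,
          hvx, toK_part_mulVec (isUnit_two H.mem hp2) odd hvP, smul_smul]
      by_contra hv0
      have h1 : (T' y : ℂ) = (T (y * y) : ℂ) * sgn ℂ odd :=
        smul_left_injective ℂ hv0 (hy'.symm.trans hy2)
      have h2 : T' y = T (y * y) * sgn O odd := by
        refine Subtype.ext ?_
        rw [MulMemClass.coe_mul, h1]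
        cases odd <;> simp [sgn]
      have h3 := congrArg (residue O) h2
      rw [hres, map_mul, map_mul, map_mul, hres1, ← pow_two] at h3
      refine hsign ((mul_left_cancel₀ ?_ h3).trans (by cases odd <;> simp [sgn]))
      refine pow_ne_zero 2 ?_
      exact ((RingHom.isUnit_map (residue O) ((IsUnit.of_pow_eq_one (n := Fintype.card S.L)
        (by rw [← map_pow, pow_card_eq_one, map_one]) Fintype.card_ne_zero)))).ne_zero
    have hsum : K * (p - 1) ≤ ∑ a : (ZMod p)ˣ, nr S R odd ((a * c₀ : (ZMod p)ˣ) : ZMod p) := by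
      refine le_trans (le_of_eq ?_) (Finset.sum_le_sum fun a _ => hone a)
      rw [Finset.sum_const, Finset.card_univ, ZMod.card_units, smul_eq_mul, mul_comm]
    rw [← Finset.add_sum_erase _ _ (Finset.mem_univ (0 : ZMod p)), add_comm]
    refine Nat.add_le_add_left (hsum.trans (le_of_eq ?_)) _
    refine Finset.sum_bij (fun a _ => ((a * c₀ : (ZMod p)ˣ) : ZMod p)) ?_ ?_ ?_ (fun _ _ => rfl)
    · exact fun a _ => Finset.mem_erase.2 ⟨Units.ne_zero _, Finset.mem_univ _⟩
    · exact fun a _ a' _ h => mul_right_cancel (Units.ext h)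
    · exact fun z hz => ⟨Units.mk0 z (Finset.ne_of_mem_erase hz) * c₀⁻¹, Finset.mem_univ _, by simp⟩
  have hneg1 : (-1 : ResidueField O) ≠ 1 := by
    intro h
    have h0 : ((2 : ℕ) : ResidueField O) = 0 := by push_cast; linear_combination -h
    rw [CharP.cast_eq_zero_iff (ResidueField O) p] at h0
    exact absurd (Nat.le_of_dvd two_pos h0) (by omega)
  have hp1 : p - 1 = (t + 1) * e := by rw [ht, mul_comm]
  have hpar : ∀ odd : Bool, 2 * ((∑ c : ZMod p, nr S R odd c : ℕ) : ℂ) + d * 1 =
      (d : ℂ) * d + sgn ℂ odd * d + d := fun odd => by rw [two_mul_sum_nr S H odd, mul_one]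
  have hskew : 2 * (∑ c : ZMod p, nr S R true c) + d = d * d ∧ 2 * nr S R true 0 + 1 = d := by
    constructor
    · have h := two_mul_sum_nr S H true
      have : ((2 * (∑ c : ZMod p, nr S R true c) + d : ℕ) : ℂ) = ((d * d : ℕ) : ℂ) := by
        rw [Nat.cast_add, Nat.cast_mul, Nat.cast_two, h, Nat.cast_mul]
        simp [sgn]
      exact_mod_cast this
    · have h := nr_zero_even S H (by rw [← he]; exact ⟨r, hr⟩) true
      have : ((2 * nr S R true 0 + 1 : ℕ) : ℂ) = ((d : ℕ) : ℂ) := by
        rw [Nat.cast_add, Nat.cast_mul, Nat.cast_two, h]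
        simp [sgn]
      exact_mod_cast this
  have hsym : 2 * (∑ c : ZMod p, nr S R false c) = d * d + d ∧ 2 * nr S R false 0 = d + 1 := by
    constructor
    · have h := two_mul_sum_nr S H false
      have : ((2 * (∑ c : ZMod p, nr S R false c) : ℕ) : ℂ) = ((d * d + d : ℕ) : ℂ) := by
        rw [Nat.cast_mul, Nat.cast_two, h, Nat.cast_add, Nat.cast_mul]
        simp [sgn]
      exact_mod_cast this
    · have h := nr_zero_even S H (by rw [← he]; exact ⟨r, hr⟩) false
      have : ((2 * nr S R false 0 : ℕ) : ℂ) = ((d + 1 : ℕ) : ℂ) := by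
        rw [Nat.cast_mul, Nat.cast_two, h]
        simp [sgn]
      exact_mod_cast this
  rcases Nat.even_or_odd t with ⟨u', hu'⟩ | ⟨u', hu'⟩
  · -- an even number of gaps: skew, wherever the last admissible exponent is `d - 1`
    have hCe : Even C := ⟨(2 * q + 1) * (u' * r), by rw [hC', hu']; ring⟩
    have hk' := key true (by rw [hCe.neg_one_pow]; simpa [sgn] using hneg1.symm)
    simp only [if_true] at hk'
    have hK := le_card_pairs (e := e) (d := d) (w := t * e) (c := C) (o := 1) he0 (by omega)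
      ⟨t + (2 * q + 1) * u', by rw [hC', hu', hr]; ring⟩ (by norm_num)
    have hK' : t * r ≤ _ := le_trans (le_of_eq (by
      rw [show t * e = 2 * (t * r) by rw [hr]; ring]; omega)) hK
    rw [show p - 1 = (t + 1) * (r + r) by rw [hp1, hr]] at hk'
    exact arith_one (hr ▸ hd) hK' hk' hskew.1 hskew.2 (by omega) (by omega)
  · rcases Nat.even_or_odd r with ⟨v, hv⟩ | ⟨v, hv⟩
    · have hCe : Even C := ⟨(2 * q + 1) * (t * v), by rw [hC', hv]; ring⟩
      have hk' := key true (by rw [hCe.neg_one_pow]; simpa [sgn] using hneg1.symm)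
      simp only [if_true] at hk'
      have hK := le_card_pairs (e := e) (d := d) (w := (2 * u') * e + r) (c := C) (o := 1) he0
        (by rw [hd, hu', hr]; nlinarith)
        ⟨2 * u' + (q * (2 * u' + 1) + u' + 1), by rw [hC', hu', hr]; ring⟩ (by norm_num)
      have hK' : 2 * u' * r + v ≤ _ := le_trans (le_of_eq (by
        rw [show 2 * u' * e + r = 2 * (2 * u' * r + v) by rw [hr, hv]; ring]; omega)) hK
      rw [show p - 1 = (t + 1) * (r + r) by rw [hp1, hr]] at hk'
      exact arith_two (u := u') (v := v) (hr ▸ hd) hu' hv hK' hk' hskew.1 hskew.2 (by omega)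
        (by omega)
    · have hCo : Odd C := by
        rw [hC']
        exact Odd.mul ⟨q, rfl⟩ (Odd.mul ⟨u', hu'⟩ ⟨v, hv⟩)
      have hk' := key false (by rw [hCo.neg_one_pow]; simpa [sgn] using hneg1)
      simp only [Bool.false_eq_true, if_false] at hk'
      have hK := le_card_pairs (e := e) (d := d) (w := (2 * u') * e + r) (c := C) (o := 0) he0
        (by rw [hd, hu', hr]; nlinarith)
        ⟨2 * u' + (q * (2 * u' + 1) + u' + 1), by rw [hC', hu', hr]; ring⟩ (by norm_num)
      have hK' : 2 * u' * r + v + 1 ≤ _ := le_trans (le_of_eq (by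
        rw [show 2 * u' * e + r = 2 * (2 * u' * r + v) + 1 by rw [hr, hv]; ring]; omega)) hK
      rw [show p - 1 = (t + 1) * (r + r) by rw [hp1, hr]] at hk'
      exact arith_three (u := u') (v := v) (hr ▸ hd) hu' hv hK' hk' hsym.1 hsym.2 (by omega)
        (by omega)

/-- The complement of odd order. -/
theorem Piece.odd_case (H : Piece S O R c₀) (χ : Cfsg.IrrCharacter G)
    (htr : ∀ g, (toK O (Fin d) (R g)).trace = χ.1 g) (hL : Odd (Nat.card S.L)) : False := by
  classical
  obtain ⟨T, u, hu, hu1, hE, -⟩ := H.exists_weight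
  set e := Nat.card S.act.range with he
  have hrange := H.range
  rw [← he] at hrange
  have hd2 := H.two
  have hp2 := H.two_lt
  have he0 : 0 < e := Nat.card_pos
  have heodd : Odd e := Odd.of_dvd_nat hL
    (Subgroup.card_dvd_of_surjective _ S.act.rangeRestrict_surjective)
  obtain ⟨t, ht⟩ : e ∣ p - 1 := card_range_dvd S
  have hpodd : Odd p := hp.out.odd_of_ne_two (by omega)
  have ht0 : 0 < t := Nat.pos_of_ne_zero fun h => by rw [h, mul_zero] at ht; omega
  obtain ⟨t, rfl⟩ : ∃ t', t = t' + 1 := ⟨t - 1, by omega⟩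
  have hd : d = t * e + 1 := by
    rw [mul_add, mul_one, mul_comm] at ht
    omega
  have hdeven : Even d := by
    obtain ⟨a, ha⟩ := heodd
    obtain ⟨b, hb⟩ := hpodd
    exact ⟨b - a, by omega⟩
  have hG : Nat.card G / p ≠ 0 := by
    have h := card_eq_mul_index S
    intro h0
    rw [h0, mul_zero] at h
    exact Nat.card_pos.ne' h
  set m := Nat.card G / p with hm
  obtain ⟨s, m', hm', hms⟩ := Nat.exists_eq_two_pow_mul_odd hG
  set b := 2 + m' with hb'
  have hb : b.Coprime m := by
    refine Nat.coprime_of_dvd fun ℓ hℓ hℓb hℓm => ?_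
    rcases hℓ.eq_two_or_odd' with rfl | hodd
    · obtain ⟨q, hq⟩ := hm'
      omega
    · have hne : ℓ ≠ 2 := by rintro rfl; exact absurd hodd (by decide)
      have hℓm' : ℓ ∣ m' := by
        rw [hms] at hℓm
        exact ((Nat.coprime_primes hℓ Nat.prime_two).2 hne |>.pow_right s).dvd_of_dvd_mul_left hℓm
      exact hne ((Nat.prime_dvd_prime_iff_eq hℓ Nat.prime_two).1 ((Nat.dvd_add_left hℓm').1 hℓb))
  have hLm : Nat.card S.L ∣ m' := by
    have h := Subgroup.card_subgroup_dvd_card S.L
    rw [card_eq_mul_index S] at h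
    have h1 := ((hp.out.coprime_iff_not_dvd.2 S.not_dvd).symm).dvd_of_dvd_mul_left h
    rw [← hm, hms] at h1
    exact ((Nat.coprime_two_left.2 hL).symm.pow_right s).dvd_of_dvd_mul_left h1
  have hbk : ∀ l : S.L, T l ^ (b + d * 0) = T l ^ 2 := by
    intro l
    have h1 : T l ^ m' = 1 := by
      obtain ⟨q, hq⟩ := hLm
      rw [hq, pow_mul, ← map_pow, pow_card_eq_one', map_one, one_pow]
    rw [mul_zero, add_zero, hb', pow_add, h1, mul_one]
  set K := (((Finset.range e) ×ˢ (Finset.range d)).filter fun q =>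
    q.1 + q.2 < d ∧ (q.2 % 2 = if (true : Bool) then 1 else 0) ∧ e ∣ q.1 + q.2 + 0).card with hK
  set Q := (ZMod p)ˣ ⧸ S.act.range
  choose θ R' T' u' H' htr' hu' hu1' hE' hres using fun z : Q =>
    exists_target S H χ htr T u hu hu1 hE hb (dvd_zero p) hbk z.out
  have hbound : ∀ (a : (ZMod p)ˣ), ∃ Hs : Submodule ℂ (Matrix (Fin d × Fin d) (Fin d) ℂ),
      (∀ Ψ ∈ Hs, (∀ g, toK O (Fin d × Fin d) (sq R g) * Ψ = Ψ * toK O (Fin d) (R' (a : Q) g)) ∧
        toK O (Fin d × Fin d) (part O d true) * Ψ = Ψ) ∧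
      K ≤ Module.finrank ℂ Hs + nr S R true ((a * c₀ : (ZMod p)ˣ) : ZMod p) := by
    intro a
    have hmem : a * c₀ * ((a : Q).out * c₀)⁻¹ ∈ S.act.range := by
      obtain ⟨w, hw⟩ := QuotientGroup.mk_out_eq_mul S.act.range a
      rw [hw, show a * c₀ * (a * (w : (ZMod p)ˣ) * c₀)⁻¹ = (w : (ZMod p)ˣ)⁻¹ by
        rw [mul_right_comm a _ c₀, _root_.mul_inv_rev, mul_comm (w : (ZMod p)ˣ)⁻¹, ← mul_assoc,
          mul_inv_cancel, one_mul]]
      exact inv_mem w.2
    exact H.bound S T u hu hu1 ((H' (a : Q)).congr_rep S hmem) (T' a) (u' a) (hu' a) (hu1' a) 0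
      (fun l => by rw [hres, zero_mul]) true
  -- all intertwiners of one target
  let Hsub : Q → Submodule ℂ (Matrix (Fin d × Fin d) (Fin d) ℂ) := fun z =>
    { carrier := {Ψ | (∀ g, toK O (Fin d × Fin d) (sq R g) * Ψ = Ψ * toK O (Fin d) (R' z g)) ∧
        toK O (Fin d × Fin d) (part O d true) * Ψ = Ψ}
      add_mem' := fun {x y} hx hy => ⟨fun g => by rw [Matrix.mul_add, Matrix.add_mul, hx.1, hy.1],
        by rw [Matrix.mul_add, hx.2, hy.2]⟩
      zero_mem' := ⟨fun g => by rw [Matrix.mul_zero, Matrix.zero_mul], Matrix.mul_zero _⟩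
      smul_mem' := fun c x hx => ⟨fun g => by rw [Matrix.mul_smul, Matrix.smul_mul, hx.1],
        by rw [Matrix.mul_smul, hx.2]⟩ }
  have hle : ∀ a : (ZMod p)ˣ,
      K ≤ Module.finrank ℂ (Hsub (a : Q)) + nr S R true ((a * c₀ : (ZMod p)ˣ) : ZMod p) := by
    intro a
    obtain ⟨Hs, hHs, h⟩ := hbound a
    refine h.trans (Nat.add_le_add_right (Submodule.finrank_mono fun Ψ hΨ => ?_) _)
    exact hHs Ψ hΨ
  have hθ : Function.Injective θ := by
    intro z z' hzz
    have hm : ∀ c : ZMod p, H39.SmallDeg.mult S.x ((toK O (Fin d)).toMonoidHom.comp (R' z)) c =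
        H39.SmallDeg.mult S.x ((toK O (Fin d)).toMonoidHom.comp (R' z')) c := by
      intro c
      refine Nat.cast_injective (R := ℂ) ?_
      rw [H39.SmallDeg.mult_eq S.orderOf_x (htr' z), H39.SmallDeg.mult_eq S.orderOf_x (htr' z'),
        hzz]
    have hc := hm ((z.out * c₀ : (ZMod p)ˣ) : ZMod p)
    rw [(H' z).mult, (H' z').mult, if_pos ((mem_coset S).2 (by rw [mul_inv_cancel]; exact one_mem _))]
      at hc
    have hin : ((z.out * c₀ : (ZMod p)ˣ) : ZMod p) ∈ coset S (z'.out * c₀) := by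
      by_contra h
      rw [if_neg h] at hc
      exact zero_ne_one hc
    rw [mem_coset, _root_.mul_inv_rev, mul_assoc, mul_inv_cancel_left] at hin
    rw [← QuotientGroup.out_eq' z, ← QuotientGroup.out_eq' z', QuotientGroup.eq]
    have := inv_mem hin
    rw [_root_.mul_inv_rev, inv_inv, mul_comm] at this
    exact this
  have hE0 : ∀ z : Q, ∃ w, (eProj S.x ((toK O (Fin d)).toMonoidHom.comp (R' z)) (0 : ZMod p)) *ᵥ w ≠ 0 := by
    intro z
    by_contra hc
    push Not at hc
    have h := (H' z).mult 0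
    rw [if_neg (zero_not_mem_coset S _), H39.SmallDeg.mult,
      show eProj S.x ((toK O (Fin d)).toMonoidHom.comp (R' z)) (0 : ZMod p) = 0 from
        Matrix.ext fun i j => by simpa using congrFun (hc (Pi.single j 1)) i, Matrix.rank_zero] at h
    exact zero_ne_one h
  choose w hw using hE0
  set W : Q → Fin d → ℂ := fun z =>
    eProj S.x ((toK O (Fin d)).toMonoidHom.comp (R' z)) (0 : ZMod p) *ᵥ w z with hW
  let Φ : (∀ z : Q, Hsub z) →ₗ[ℂ]
      LinearMap.range (toK O (Fin d × Fin d) (part O d true) * eig S (sq R) 0).mulVecLin :=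
    LinearMap.codRestrict _
      { toFun := fun f => ∑ z, (f z : Matrix (Fin d × Fin d) (Fin d) ℂ) *ᵥ W z
        map_add' := fun f g => by
          simp [Matrix.add_mulVec, Finset.sum_add_distrib]
        map_smul' := fun c f => by
          simp [Matrix.smul_mulVec, Finset.smul_sum] }
      (fun f => by
        refine Submodule.sum_mem _ fun z _ => ?_
        refine ⟨(f z : Matrix (Fin d × Fin d) (Fin d) ℂ) *ᵥ W z, ?_⟩
        obtain ⟨hint, hP⟩ := (f z).2
        set v := (f z : Matrix (Fin d × Fin d) (Fin d) ℂ) *ᵥ W z with hv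
        have h1 : ∀ i : ZMod p, toK O (Fin d × Fin d) (sq R (S.x ^ i.val)) *ᵥ v = v := fun i => by
          rw [hv, Matrix.mulVec_mulVec, hint, ← Matrix.mulVec_mulVec, hW]
          simp only
          rw [Matrix.mulVec_mulVec (w z),
            show toK O (Fin d) (R' z (S.x ^ i.val)) *
                eProj S.x ((toK O (Fin d)).toMonoidHom.comp (R' z)) (0 : ZMod p) =
              eProj S.x ((toK O (Fin d)).toMonoidHom.comp (R' z)) (0 : ZMod p) by
              have := H39.SmallDeg.zpow_mul_eProj (A := (toK O (Fin d)).toMonoidHom.comp (R' z))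
                S.orderOf_x i 0
              rw [mul_zero, H39.SmallDeg.rt_zero, one_smul] at this
              exact this]
        rw [Matrix.mulVecLin_apply, ← Matrix.mulVec_mulVec, eig, Matrix.smul_mulVec,
          Matrix.sum_mulVec, Finset.sum_congr rfl fun i _ => by
            rw [Matrix.smul_mulVec, h1, mul_zero, neg_zero, H39.SmallDeg.rt_zero, one_smul],
          Finset.sum_const, Finset.card_univ, ZMod.card, ← Nat.cast_smul_eq_nsmul ℂ, smul_smul,
          inv_mul_cancel₀ H39.SmallDeg.p_ne_zero, one_smul, hv, Matrix.mulVec_mulVec, hP])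
  have hΦ : Function.Injective Φ := by
    rw [← LinearMap.ker_eq_bot, LinearMap.ker_eq_bot']
    intro f hf
    have h := congrArg Subtype.val hf
    funext z
    refine Subtype.ext ?_
    refine eq_zero_of_mulVec_eq_zero ((toK O (Fin d)).toMonoidHom.comp (R' z)) (H' z).schur
      ((toK O (Fin d × Fin d)).toMonoidHom.comp (sq R)) (f z).2.1 (hw z) ?_
    exact images_independent θ hθ (fun z => (toK O (Fin d)).toMonoidHom.comp (R' z)) htr'
      (fun z => (H' z).schur) ((toK O (Fin d × Fin d)).toMonoidHom.comp (sq R))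
      (fun z => (f z : Matrix (Fin d × Fin d) (Fin d) ℂ)) (fun z g => (f z).2.1 g) W h z
  have hh : ∑ z : Q, Module.finrank ℂ (Hsub z) ≤ nr S R true 0 := by
    have h := LinearMap.finrank_le_finrank_of_injective hΦ
    rwa [Module.finrank_pi_fintype] at h
  have hfib : ∑ a : (ZMod p)ˣ, Module.finrank ℂ (Hsub (a : Q)) =
      e * ∑ z : Q, Module.finrank ℂ (Hsub z) := by
    rw [Fintype.sum_equiv (Subgroup.groupEquivQuotientProdSubgroup (s := S.act.range))
      (fun a : (ZMod p)ˣ => Module.finrank ℂ (Hsub (a : Q)))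
      (fun z => Module.finrank ℂ (Hsub z.1)) (fun _ => rfl), Fintype.sum_prod_type,
      Finset.mul_sum]
    refine Finset.sum_congr rfl fun z _ => ?_
    show ∑ _y : S.act.range, Module.finrank ℂ (Hsub z) = _
    rw [Finset.sum_const, Finset.card_univ, smul_eq_mul, he, Nat.card_eq_fintype_card]
  have hsum : K * (p - 1) + nr S R true 0 ≤
      e * nr S R true 0 + ∑ c : ZMod p, nr S R true c := by
    have h1 : K * (p - 1) ≤ ∑ a : (ZMod p)ˣ,
        (Module.finrank ℂ (Hsub (a : Q)) + nr S R true ((a * c₀ : (ZMod p)ˣ) : ZMod p)) := by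
      refine le_trans (le_of_eq ?_) (Finset.sum_le_sum fun a _ => hle a)
      rw [Finset.sum_const, Finset.card_univ, ZMod.card_units, smul_eq_mul, mul_comm]
    rw [Finset.sum_add_distrib, hfib] at h1
    have h2 : ∑ a : (ZMod p)ˣ, nr S R true ((a * c₀ : (ZMod p)ˣ) : ZMod p) + nr S R true 0 =
        ∑ c : ZMod p, nr S R true c := by
      rw [← Finset.add_sum_erase _ _ (Finset.mem_univ (0 : ZMod p)), add_comm]
      congr 1
      refine Finset.sum_bij (fun a _ => ((a * c₀ : (ZMod p)ˣ) : ZMod p)) ?_ ?_ ?_ (fun _ _ => rfl)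
      · exact fun a _ => Finset.mem_erase.2 ⟨Units.ne_zero _, Finset.mem_univ _⟩
      · exact fun a _ a' _ h => mul_right_cancel (Units.ext h)
      · exact fun z hz => ⟨Units.mk0 z (Finset.ne_of_mem_erase hz) * c₀⁻¹, Finset.mem_univ _,
          by simp⟩
    have h3 := Nat.mul_le_mul_left e hh
    omega
  have hn : 2 * (∑ c : ZMod p, nr S R true c) + d = d * d := by
    have h := two_mul_sum_nr S H true
    have : ((2 * (∑ c : ZMod p, nr S R true c) + d : ℕ) : ℂ) = ((d * d : ℕ) : ℂ) := by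
      rw [Nat.cast_add, Nat.cast_mul, Nat.cast_two, h, Nat.cast_mul]
      simp [sgn]
    exact_mod_cast this
  have hn0 : 2 * nr S R true 0 + e + 1 = d := by
    have h := nr_zero_odd S H (by rw [← he]; exact Nat.not_even_iff_odd.2 heodd) true
    rw [← he] at h
    have : ((2 * nr S R true 0 + e + 1 : ℕ) : ℂ) = ((d : ℕ) : ℂ) := by
      rw [Nat.cast_add, Nat.cast_add, Nat.cast_mul, Nat.cast_two, h]
      simp [sgn]
    exact_mod_cast this
  obtain ⟨r, hr⟩ := hdeven
  have hK' : r ≤ K := by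
    refine le_trans (le_of_eq ?_) (le_card_pairs (e := e) (d := d) (w := d - 1) (c := 0) (o := 1)
      he0 (by omega) ⟨t, by rw [mul_comm]; omega⟩ (by norm_num))
    omega
  have := Nat.mul_le_mul_right (p - 1) hK'
  obtain ⟨p', rfl⟩ : ∃ p', p = p' + 1 := ⟨p - 1, by omega⟩
  rw [Nat.add_sub_cancel] at this hsum
  nlinarith

end Cfsg.Agent.H40.SmallDeg
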