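import Mathlib
import Cfsg.Agent.H42.SmallFaithful.Model

/-!
# The invariant form of a regular unipotent operator

In the polynomial model of a regular unipotent operator the lowering and raising operators are
skew for the invariant form.
-/

set_option autoImplicit false
set_option maxHeartbeats 1000000
set_option linter.unusedSectionVars false

namespace Cfsg.Agent.H40.SmallDeg

open Module Polynomial Cfsg.Agent.H42.SmallFaithful

variable {k : Type*} [Field k]

/-- The coefficients of the invariant pairing. -/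
def wt (m i : ℕ) : k := (-1) ^ i * ((m.choose i : ℕ) : k)⁻¹

/-- The invariant pairing of polynomials of degree at most `m`. -/
noncomputable def pair (m : ℕ) : k[X] →ₗ[k] k[X] →ₗ[k] k :=
  ∑ i ∈ Finset.range (m + 1), wt (k := k) m i • (lcoeff k i).smulRight (lcoeff k (m - i))

theorem pair_apply (m : ℕ) (g h : k[X]) :
    pair m g h = ∑ i ∈ Finset.range (m + 1), wt (k := k) m i * (g.coeff i * h.coeff (m - i)) := by
  simp [pair]

theorem opF_coeff (r : k) (g : k[X]) :
    (opF r g).coeff 0 = 0 ∧ ∀ j : ℕ, (opF r g).coeff (j + 1) = (r - j) * g.coeff j := by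
  constructor
  · simp [opF_apply]
  · intro j
    rw [opF_apply, coeff_sub, coeff_C_mul, coeff_X_mul]
    rcases Nat.eq_zero_or_pos j with rfl | hj
    · rw [pow_two, mul_assoc, coeff_X_mul, coeff_X_mul_zero]
      simp
    · obtain ⟨i, rfl⟩ : ∃ i, j = i + 1 := ⟨j - 1, by omega⟩
      rw [show i + 1 + 1 = i + 2 from rfl, coeff_X_pow_mul, coeff_derivative]
      push_cast
      ring

variable {p : ℕ} [hp : Fact p.Prime] [CharP k p]

theorem natCast_ne (n : ℕ) (hn0 : 0 < n) (hn : n < p) : (n : k) ≠ 0 := fun h =>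
  Nat.not_lt.2 (Nat.le_of_dvd hn0 ((CharP.cast_eq_zero_iff k p n).1 h)) hn

theorem choose_ne {m i : ℕ} (hm : m < p) (hi : i ≤ m) : ((m.choose i : ℕ) : k) ≠ 0 := by
  intro h
  rw [CharP.cast_eq_zero_iff k p] at h
  have h1 : p ∣ m.factorial :=
    h.trans ⟨i.factorial * (m - i).factorial, by
      rw [← mul_assoc, Nat.choose_mul_factorial_mul_factorial hi]⟩
  exact Nat.not_lt.2 ((hp.out.dvd_factorial).1 h1) hm

theorem wt_step {m i : ℕ} (hm : m < p) (hi : i < m) :
    wt (k := k) m i * ((i : k) + 1) + wt (k := k) m (i + 1) * ((m : k) - i) = 0 := by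
  have h : ((m.choose (i + 1) : ℕ) : k) * ((i : k) + 1) = ((m.choose i : ℕ) : k) * ((m : k) - i) := by
    have h0 := congrArg (Nat.cast : ℕ → k) (Nat.choose_succ_right_eq m i)
    push_cast [Nat.cast_sub hi.le] at h0
    exact h0
  have h1 := choose_ne (k := k) hm hi.le
  have h2 := choose_ne (k := k) hm (Nat.succ_le_of_lt hi)
  simp only [wt, pow_succ]
  field_simp
  linear_combination (-1 : k) ^ i * h

/-- The derivative is skew. -/
theorem pair_derivative {m : ℕ} (hm : m < p) {g h : k[X]} (hg : g ∈ degreeLT k (m + 1))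
    (hh : h ∈ degreeLT k (m + 1)) :
    pair m (derivative g) h + pair m g (derivative h) = 0 := by
  have hg' : g.coeff (m + 1) = 0 :=
    coeff_eq_zero_of_degree_lt (mem_degreeLT.1 hg)
  have hh' : h.coeff (m + 1) = 0 :=
    coeff_eq_zero_of_degree_lt (mem_degreeLT.1 hh)
  rw [pair_apply, pair_apply, Finset.sum_range_succ, Finset.sum_range_succ' (fun i =>
    wt (k := k) m i * (g.coeff i * (derivative h).coeff (m - i)))]
  simp only [coeff_derivative, hg', hh', Nat.sub_zero, mul_zero, zero_mul, add_zero]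
  rw [← Finset.sum_add_distrib]
  refine Finset.sum_eq_zero fun i hi => ?_
  have hi := Finset.mem_range.1 hi
  rw [show m - (i + 1) + 1 = m - i by omega, Nat.cast_sub (show i + 1 ≤ m by omega)]
  push_cast
  linear_combination (g.coeff (i + 1) * h.coeff (m - i)) * wt_step (k := k) hm hi

/-- The raising operator is skew. -/
theorem pair_opF {m : ℕ} (hm : m < p) (g h : k[X]) :
    pair m (opF (m : k) g) h + pair m g (opF (m : k) h) = 0 := by
  rw [pair_apply, pair_apply, Finset.sum_range_succ' (fun i =>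
    wt (k := k) m i * ((opF (m : k) g).coeff i * h.coeff (m - i))), Finset.sum_range_succ]
  simp only [(opF_coeff _ _).1, (opF_coeff _ _).2, Nat.sub_self, mul_zero, zero_mul, add_zero]
  rw [← Finset.sum_add_distrib]
  refine Finset.sum_eq_zero fun i hi => ?_
  have hi := Finset.mem_range.1 hi
  rw [show m - i = (m - (i + 1)) + 1 by omega, (opF_coeff _ _).2,
    Nat.cast_sub (show i + 1 ≤ m by omega)]
  push_cast
  linear_combination (g.coeff i * h.coeff (m - (i + 1))) * wt_step (k := k) hm hi

theorem pair_swap (m : ℕ) (g h : k[X]) : pair m h g = (-1) ^ m * pair m g h := by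
  rw [pair_apply, pair_apply, ← Finset.sum_range_reflect, Finset.mul_sum]
  refine Finset.sum_congr rfl fun i hi => ?_
  have hi := Finset.mem_range.1 hi
  have e : (-1 : k) ^ (m - i) = (-1) ^ m * (-1) ^ i := by
    rw [← pow_add, neg_one_pow_eq_pow_mod_two, neg_one_pow_eq_pow_mod_two (n := m + i)]
    congr 1
    omega
  rw [show m + 1 - 1 - i = m - i by omega, show m - (m - i) = i by omega]
  simp only [wt, Nat.choose_symm (show i ≤ m by omega), e]
  ring

/-- Translation by Taylor expansion. -/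
theorem taylor_eq_sum {m : ℕ} (hm : m < p) (t : k) {g : k[X]} (hg : g ∈ degreeLT k (m + 1)) :
    taylor t g =
      ∑ j ∈ Finset.range (m + 1), (t ^ j * ((j.factorial : ℕ) : k)⁻¹) • derivative^[j] g := by
  rw [as_sum_range' g (m + 1) (by
    rcases eq_or_ne g 0 with rfl | h0
    · simp
    · exact (natDegree_lt_iff_degree_lt h0).2 (mem_degreeLT.1 hg))]
  simp only [map_sum, iterate_derivative_sum, Finset.smul_sum]
  rw [Finset.sum_comm]
  refine Finset.sum_congr rfl fun a ha => ?_
  have ha := Finset.mem_range.1 ha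
  rw [← C_mul_X_pow_eq_monomial, taylor_apply, mul_comp, C_comp, pow_comp, X_comp,
    add_comm X (C t), add_pow, Finset.mul_sum]
  rw [← Finset.sum_subset (show Finset.range (a + 1) ⊆ Finset.range (m + 1) from
    Finset.range_mono (by omega))]
  · refine Finset.sum_congr rfl fun j hj => ?_
    have hj := Finset.mem_range.1 hj
    have hfac : ((j.factorial : ℕ) : k) ≠ 0 := by
      intro h
      rw [CharP.cast_eq_zero_iff k p] at h
      have := (hp.out.dvd_factorial).1 h
      omega
    rw [iterate_derivative_C_mul, iterate_derivative_X_pow_eq_C_mul, smul_eq_C_mul,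
      Nat.descFactorial_eq_factorial_mul_choose]
    push_cast
    simp only [map_mul, map_pow]
    have hC : C ((j.factorial : k))⁻¹ * C ((j.factorial : k)) = (1 : k[X]) := by
      rw [← map_mul, inv_mul_cancel₀ hfac, map_one]
    calc C (g.coeff a) * (C t ^ j * X ^ (a - j) * ((a.choose j : ℕ) : k[X]))
        = C t ^ j * (C ((j.factorial : k))⁻¹ * C ((j.factorial : k))) *
            (C (g.coeff a) * (C ((a.choose j : ℕ) : k) * X ^ (a - j))) := by
          rw [hC, map_natCast]; ring
      _ = _ := by ring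
  · intro j hj hja
    have : a < j := by
      by_contra h
      exact hja (Finset.mem_range.2 (by omega))
    rw [iterate_derivative_C_mul, iterate_derivative_X_pow_eq_C_mul,
      Nat.descFactorial_eq_zero_iff_lt.2 this]
    simp

/-- The pairing is invariant under translation. -/
theorem pair_tau {m : ℕ} (hm : m < p) {g h : k[X]} (hg : g ∈ degreeLT k (m + 1))
    (hh : h ∈ degreeLT k (m + 1)) : pair m (tau g) (tau h) = pair m g h := by
  have hder : ∀ (j : ℕ) (q : k[X]), q ∈ degreeLT k (m + 1) → derivative^[j] q ∈ degreeLT k (m + 1) := by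
    intro j
    induction j with
    | zero => exact fun q hq => hq
    | succ j ih =>
      intro q hq
      rw [Function.iterate_succ_apply']
      exact (ops_preserve (m + 1) (Nat.succ_pos m) _ (ih q hq)).1
  have hadj : ∀ (j : ℕ) (g h : k[X]), g ∈ degreeLT k (m + 1) → h ∈ degreeLT k (m + 1) →
      pair m (derivative^[j] g) h = (-1) ^ j * pair m g (derivative^[j] h) := by
    intro j
    induction j with
    | zero => intro g h _ _; simp
    | succ j ih =>
      intro g h hg hh
      rw [Function.iterate_succ_apply, ih _ _ ((ops_preserve (m + 1) (Nat.succ_pos m) _ hg).1) hh,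
        eq_neg_of_add_eq_zero_left (pair_derivative hm hg (hder j h hh)),
        ← Function.iterate_succ_apply' (derivative (R := k)), pow_succ]
      ring
  have htau : tau h ∈ degreeLT k (m + 1) := by
    rw [tau, taylor_eq_sum hm 1 hh]
    exact Submodule.sum_mem _ fun j _ => Submodule.smul_mem _ _ (hder j h hh)
  have h1 : pair m (tau g) (tau h) = pair m g (taylor (-1) (tau h)) := by
    rw [show tau g = taylor 1 g from rfl, taylor_eq_sum hm 1 hg, taylor_eq_sum hm (-1) htau,
      map_sum, LinearMap.sum_apply, map_sum]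
    refine Finset.sum_congr rfl fun j _ => ?_
    rw [map_smul, LinearMap.smul_apply, map_smul, hadj j g _ hg htau, smul_eq_mul, smul_eq_mul]
    ring
  rw [h1, show tau h = taylor 1 h from rfl, taylor_taylor]
  simp

theorem eq_zero_of_pair {m : ℕ} (hm : m < p) {g : k[X]} (hg : g ∈ degreeLT k (m + 1))
    (h : ∀ i, i ≤ m → pair m g (X ^ i) = 0) : g = 0 := by
  refine Polynomial.ext fun i => ?_
  rw [coeff_zero]
  rcases Nat.lt_or_ge m i with hi | hi
  · exact coeff_eq_zero_of_degree_lt ((mem_degreeLT.1 hg).trans_le (by exact_mod_cast hi))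
  · have h1 := h (m - i) (Nat.sub_le _ _)
    rw [pair_apply, Finset.sum_eq_single i (fun j hj hji => ?_)
      (fun hn => absurd (Finset.mem_range.2 (by omega)) hn), coeff_X_pow_self, mul_one] at h1
    · refine (mul_eq_zero.1 h1).resolve_left ?_
      simp [wt, choose_ne (k := k) hm hi]
    · have := Finset.mem_range.1 hj
      rw [coeff_X_pow, if_neg (show m - j ≠ m - i by omega), mul_zero, mul_zero]

/-- A closed form for a diagonal sum. -/
theorem thirty_mul_sum (n : ℕ) (t : ℤ) :
    30 * ∑ i ∈ Finset.range n, ((i : ℤ) + 1) * ((i : ℤ) + 2) * (t - i) * (t - 1 - i) =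
      (n : ℤ) * (n + 1) * (2 * n + 1) * (3 * n ^ 2 + 3 * n - 1) - 15 * t * n ^ 2 * (n + 1) ^ 2 +
        5 * (t ^ 2 - t - 1) * n * (n + 1) * (2 * n + 1) + 15 * t * (t + 1) * n * (n + 1) := by
  induction n with
  | zero => simp
  | succ n ih =>
    rw [Finset.sum_range_succ, mul_add, ih]
    push_cast
    ring

variable {U : Type*} [AddCommGroup U] [Module k U] [FiniteDimensional k U]

/-- A regular nilpotent operator has a basis of iterates. -/
theorem block_basis (δ : Module.End k U) {d : ℕ} (hdU : finrank k U = d) (hδ : δ ^ d = 0) {v₀ : U}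
    (hv₀ : (δ ^ (d - 1)) v₀ ≠ 0) : ∃ B : Basis (Fin d) k U, ∀ i, B i = (δ ^ (i : ℕ)) v₀ := by
  classical
  let bv : Fin d → U := fun i => (δ ^ (i : ℕ)) v₀
  have hind : LinearIndependent k bv := by
    rw [Fintype.linearIndependent_iff]
    intro g hg
    by_contra hne
    push Not at hne
    obtain ⟨i, hi⟩ := hne
    obtain ⟨j, hj, hjm⟩ := Finset.exists_min_image (Finset.univ.filter fun j => g j ≠ 0) id
      ⟨i, Finset.mem_filter.2 ⟨Finset.mem_univ _, hi⟩⟩
    have h := congrArg (δ ^ (d - 1 - (j : ℕ))) hg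
    rw [map_sum, map_zero, Finset.sum_eq_single j (fun l _ hlj => ?_)
      (fun h => absurd (Finset.mem_univ _) h)] at h
    · rw [map_smul, ← Module.End.mul_apply, ← pow_add,
        Nat.sub_add_cancel (by have := j.isLt; omega), smul_eq_zero] at h
      exact h.elim (Finset.mem_filter.1 hj).2 hv₀
    · rcases lt_or_gt_of_ne hlj with hlt | hgt
      · have : g l = 0 := by
          by_contra hl
          exact (not_le.2 hlt) (hjm l (Finset.mem_filter.2 ⟨Finset.mem_univ _, hl⟩))
        rw [this, zero_smul, map_zero]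
      · rw [map_smul, ← Module.End.mul_apply, ← pow_add, pow_eq_zero_of_le (by
          have : (j : ℕ) < l := hgt
          omega) hδ, LinearMap.zero_apply, smul_zero]
  have : Nonempty (Fin d) := by
    refine ⟨⟨0, Nat.pos_of_ne_zero fun h => hv₀ ?_⟩⟩
    subst h
    rw [pow_zero] at hδ
    rw [show (δ ^ (0 - 1)) v₀ = (1 : Module.End k U) v₀ by simp, hδ, LinearMap.zero_apply]
  exact ⟨basisOfLinearIndependentOfCardEqFinrank hind (by rw [Fintype.card_fin, hdU]),
    fun i => by simp [bv]⟩

/-- The polynomial model of a regular unipotent operator. -/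
theorem exists_model {m : ℕ} (hdU : finrank k U = m + 1) (hm : m < p) (T : Module.End k U)
    (hT : (T - 1) ^ (m + 1) = 0) {v₀ : U} (hv₀ : ((T - 1) ^ m) v₀ ≠ 0) :
    ∃ Ψ : U ≃ₗ[k] degreeLT k (m + 1), ∀ u, (Ψ (T u) : k[X]) = tau (Ψ u : k[X]) := by
  classical
  set δ := T - 1 with hδ
  obtain ⟨B, hB⟩ := block_basis δ hdU hT (v₀ := v₀) (by rwa [Nat.add_sub_cancel])
  set Φ : U →ₗ[k] k[X] := B.constr k fun i => ((tau - 1) ^ (i : ℕ)) (X ^ m : k[X]) with hΦ
  have hΦB : ∀ i, Φ (B i) = ((tau - 1) ^ (i : ℕ)) (X ^ m : k[X]) := fun i => by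
    rw [hΦ, Basis.constr_basis]
  have hΦpow : ∀ j : ℕ, Φ ((δ ^ j) v₀) = ((tau - 1) ^ j) (X ^ m : k[X]) := by
    intro j
    rcases Nat.lt_or_ge j (m + 1) with h | h
    · rw [← hB ⟨j, h⟩, hΦB]
    · rw [pow_eq_zero_of_le h hT, LinearMap.zero_apply, map_zero,
        ← Nat.sub_add_cancel h, pow_add, Module.End.mul_apply, diff_pow_succ_X_pow, map_zero]
  have hΦδ : ∀ u, Φ (δ u) = (tau - 1) (Φ u) := by
    refine fun u => LinearMap.congr_fun (B.ext (f₁ := Φ ∘ₗ δ) (f₂ := (tau - 1) ∘ₗ Φ)
      fun i => ?_) u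
    rw [LinearMap.comp_apply, LinearMap.comp_apply, hΦB, hB, ← Module.End.mul_apply, ← pow_succ',
      hΦpow, pow_succ', Module.End.mul_apply]
  have hdeg : ∀ j : Fin (m + 1), ((tau - 1) ^ (j : ℕ)) (X ^ m : k[X]) ∈ degreeLT k (m + 1) := by
    intro j
    rw [mem_degreeLT]
    refine lt_of_le_of_lt degree_le_natDegree ?_
    have := (diff_pow_X_pow (k := k) m j (Fin.is_le j)).1
    exact_mod_cast (show _ < m + 1 by omega)
  have hmem : ∀ u, Φ u ∈ degreeLT k (m + 1) := by
    intro u
    rw [← B.sum_repr u, map_sum]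
    refine Submodule.sum_mem _ fun i _ => ?_
    rw [map_smul, hΦB]
    exact Submodule.smul_mem _ _ (hdeg i)
  have hfact : ∀ i : ℕ, i ≤ m → ((m.descFactorial i : ℕ) : k) ≠ 0 := by
    intro i hi h
    rw [CharP.cast_eq_zero_iff k p] at h
    have h1 : m.descFactorial i ∣ m.factorial :=
      ⟨(m - i).factorial, by rw [mul_comm, Nat.factorial_mul_descFactorial hi]⟩
    exact Nat.not_lt.2 ((hp.out.dvd_factorial).1 (h.trans h1)) hm
  have hinj : Function.Injective Φ := by
    refine (injective_iff_map_eq_zero Φ).2 fun u hu => ?_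
    by_contra hne
    obtain ⟨i, hi⟩ : ∃ i, B.repr u i ≠ 0 := by
      by_contra hc
      push Not at hc
      refine hne ?_
      rw [← B.sum_repr u]
      exact Finset.sum_eq_zero fun i _ => by rw [hc i, zero_smul]
    obtain ⟨j, hj, hjm⟩ := Finset.exists_min_image
      (Finset.univ.filter fun j => B.repr u j ≠ 0) id
      ⟨i, Finset.mem_filter.2 ⟨Finset.mem_univ _, hi⟩⟩
    refine (Finset.mem_filter.1 hj).2 ?_
    have h1 := congrArg (fun q : k[X] => q.coeff (m - (j : ℕ))) hu
    simp only [coeff_zero] at h1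
    rw [← B.sum_repr u, map_sum, finset_sum_coeff, Finset.sum_eq_single j (fun l _ hlj => ?_)
      (fun h => absurd (Finset.mem_univ _) h)] at h1
    · rw [map_smul, hΦB, coeff_smul, (diff_pow_X_pow m j (Fin.is_le j)).2, smul_eq_mul,
        mul_eq_zero] at h1
      exact h1.resolve_right (hfact j (Fin.is_le j))
    · rcases lt_or_gt_of_ne hlj with hlt | hgt
      · have : B.repr u l = 0 := by
          by_contra hl
          exact (not_le.2 hlt) (hjm l (Finset.mem_filter.2 ⟨Finset.mem_univ _, hl⟩))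
        rw [this, zero_smul, map_zero, coeff_zero]
      · rw [map_smul, hΦB, coeff_smul, coeff_eq_zero_of_natDegree_lt, smul_zero]
        have := (diff_pow_X_pow (k := k) m l (Fin.is_le l)).1
        have : (j : ℕ) < l := hgt
        have := Fin.is_le l
        omega
  have hinj' : Function.Injective (Φ.codRestrict _ hmem) :=
    fun u v h => hinj (congrArg Subtype.val h)
  refine ⟨LinearEquiv.ofBijective (Φ.codRestrict _ hmem) ⟨hinj',
    (LinearMap.injective_iff_surjective_of_finrank_eq_finrank ?_).1 hinj'⟩, fun u => ?_⟩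
  · rw [hdU, finrank_eq_card_basis (degreeLT.basis k (m + 1)), Fintype.card_fin]
  · show Φ (T u) = tau (Φ u)
    simpa [hδ, LinearMap.sub_apply, map_sub] using hΦδ u

/-- The invariant form, a skew raising operator and its conjugates. -/
theorem exists_skew_triple {m : ℕ} (hdU : finrank k U = m + 1) (hm2 : 2 ≤ m) (hm : m + 3 < p)
    (T : Module.End k U) (hT : (T - 1) ^ (m + 1) = 0) {v₀ : U} (hv₀ : ((T - 1) ^ m) v₀ ≠ 0) :
    ∃ (β : U →ₗ[k] U →ₗ[k] k) (D H F : Module.End k U),
      (∀ u v, β v u = (-1) ^ m * β u v) ∧ (∀ u, (∀ v, β u v = 0) → u = 0) ∧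
      (∀ u v, β (T u) (T v) = β u v) ∧ (∀ u v, β (F u) v = -β u (F v)) ∧
      T * D = D * T ∧ T * H = (H + (2 : k) • D) * T ∧ T * F = (F - H - D) * T ∧
      LinearMap.trace k U (D * F) ≠ 0 ∧ LinearMap.trace k U (D * D * (F * F)) ≠ 0 := by
  classical
  have hm' : m < p := by omega
  obtain ⟨Ψ, hΨT⟩ := exists_model hdU hm' T hT hv₀
  set r : k := (m : k) with hr
  have hpres := fun g => ops_preserve (k := k) (m + 1) (Nat.succ_pos m) g
  rw [Nat.add_sub_cancel] at hpres
  set De : Module.End k (degreeLT k (m + 1)) :=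
    LinearMap.restrict derivative (fun g hg => (hpres g hg).1) with hDe
  set He : Module.End k (degreeLT k (m + 1)) :=
    LinearMap.restrict (opH r) (fun g hg => (hpres g hg).2.1) with hHe
  set Fe : Module.End k (degreeLT k (m + 1)) :=
    LinearMap.restrict (opF r) (fun g hg => (hpres g hg).2.2) with hFe
  set Φ : U →ₗ[k] k[X] := (degreeLT k (m + 1)).subtype ∘ₗ Ψ.toLinearMap with hΦ
  have hΦa : ∀ u, Φ u = (Ψ u : k[X]) := fun u => rfl
  have hinj : Function.Injective Φ := fun u v h => Ψ.injective (Subtype.ext h)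
  have hΦT : ∀ u, Φ (T u) = tau (Φ u) := hΨT
  have hval : ∀ (Q : Module.End k (degreeLT k (m + 1))) u,
      Φ (Ψ.symm.conj Q u) = (Q (Ψ u) : k[X]) := by
    intro Q u
    rw [hΦa, LinearEquiv.conj_apply_apply, LinearEquiv.symm_symm, LinearEquiv.apply_symm_apply]
  have he : ∀ u, Φ (Ψ.symm.conj De u) = derivative (Φ u) := fun u => by rw [hval]; rfl
  have hh : ∀ u, Φ (Ψ.symm.conj He u) = opH r (Φ u) := fun u => by rw [hval]; rfl
  have hf : ∀ u, Φ (Ψ.symm.conj Fe u) = opF r (Φ u) := fun u => by rw [hval]; rfl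
  refine ⟨(pair m).compl₁₂ Φ Φ, Ψ.symm.conj De, Ψ.symm.conj He, Ψ.symm.conj Fe,
    fun u v => pair_swap m _ _, ?_, ?_, ?_, ?_, ?_, ?_, ?_, ?_⟩
  · intro u hu
    refine hinj ?_
    rw [map_zero]
    refine eq_zero_of_pair hm' (Ψ u).2 fun i hi => ?_
    have hX : (X ^ i : k[X]) ∈ degreeLT k (m + 1) := by
      rw [mem_degreeLT, degree_X_pow]; exact_mod_cast Nat.lt_succ_of_le hi
    have h1 := hu (Ψ.symm ⟨_, hX⟩)
    rw [LinearMap.compl₁₂_apply, hΦa (Ψ.symm _), LinearEquiv.apply_symm_apply] at h1
    exact h1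
  · intro u v
    simp only [LinearMap.compl₁₂_apply, hΦT]
    exact pair_tau hm' (Ψ u).2 (Ψ v).2
  · intro u v
    simp only [LinearMap.compl₁₂_apply, hf]
    exact eq_neg_of_add_eq_zero_left (pair_opF hm' _ _)
  · refine LinearMap.ext fun u => hinj ?_
    rw [Module.End.mul_apply, Module.End.mul_apply, hΦT, he, he, hΦT, tau_derivative]
  · refine LinearMap.ext fun u => hinj ?_
    rw [Module.End.mul_apply, Module.End.mul_apply, hΦT, hh, LinearMap.add_apply,
      LinearMap.smul_apply, map_add, map_smul, hh, he, hΦT, tau_opH]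
  · refine LinearMap.ext fun u => hinj ?_
    rw [Module.End.mul_apply, Module.End.mul_apply, hΦT, hf, LinearMap.sub_apply,
      LinearMap.sub_apply, map_sub, map_sub, hf, hh, he, hΦT, tau_opF]
  · rw [show Ψ.symm.conj De * Ψ.symm.conj Fe = Ψ.symm.conj (De * Fe) from
      (LinearEquiv.conj_comp _ _ _).symm, LinearMap.trace_conj',
      LinearMap.trace_eq_matrix_trace k (degreeLT.basis k (m + 1))]
    have hdiag : ∀ i : Fin (m + 1), LinearMap.toMatrix (degreeLT.basis k (m + 1))
        (degreeLT.basis k (m + 1)) (De * Fe) i i =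
        (((i : ℤ) + 1) * (((m + 1 : ℕ) : ℤ) - 1 - i) : ℤ) := by
      intro i
      rw [LinearMap.toMatrix_apply, degreeLT.basis_repr]
      show (derivative (opF r ((degreeLT.basis k (m + 1) i : degreeLT k (m + 1)) : k[X]))).coeff i = _
      rw [degreeLT.basis_val, coeff_derivative, (opF_coeff _ _).2, coeff_X_pow_self, hr]
      push_cast
      ring
    rw [Matrix.trace, Finset.sum_congr rfl fun i _ => by rw [Matrix.diag_apply, hdiag],
      Fin.sum_univ_eq_sum_range (fun i => ((((i : ℤ) + 1) * (((m + 1 : ℕ) : ℤ) - 1 - i) : ℤ) : k))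
        (m + 1), ← Int.cast_sum, Ne, CharP.intCast_eq_zero_iff k p]
    intro hdvd
    have h6 : (p : ℤ) ∣ ((m * (m + 1) * (m + 2) : ℕ) : ℤ) := by
      have := hdvd.mul_left 6
      rw [six_mul_sum] at this
      refine this.trans (dvd_of_eq ?_)
      push_cast
      ring
    rw [Int.natCast_dvd_natCast] at h6
    simp only [Nat.Prime.dvd_mul hp.out] at h6
    rcases h6 with (h | h) | h <;> have := Nat.le_of_dvd (by omega) h <;> omega
  · rw [show Ψ.symm.conj De * Ψ.symm.conj De * (Ψ.symm.conj Fe * Ψ.symm.conj Fe) =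
      Ψ.symm.conj (De * De * (Fe * Fe)) by
        simp only [Module.End.mul_eq_comp, LinearEquiv.conj_comp], LinearMap.trace_conj',
      LinearMap.trace_eq_matrix_trace k (degreeLT.basis k (m + 1))]
    have hdiag : ∀ i : Fin (m + 1), LinearMap.toMatrix (degreeLT.basis k (m + 1))
        (degreeLT.basis k (m + 1)) (De * De * (Fe * Fe)) i i =
        (((i : ℤ) + 1) * ((i : ℤ) + 2) * ((m : ℤ) - i) * ((m : ℤ) - 1 - i) : ℤ) := by
      intro i
      rw [LinearMap.toMatrix_apply, degreeLT.basis_repr]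
      show (derivative (derivative (opF r (opF r
        ((degreeLT.basis k (m + 1) i : degreeLT k (m + 1)) : k[X]))))).coeff i = _
      rw [degreeLT.basis_val, coeff_derivative, coeff_derivative, (opF_coeff _ _).2,
        (opF_coeff _ _).2, coeff_X_pow_self, hr]
      push_cast
      ring
    rw [Matrix.trace, Finset.sum_congr rfl fun i _ => by rw [Matrix.diag_apply, hdiag],
      Fin.sum_univ_eq_sum_range (fun i =>
        ((((i : ℤ) + 1) * ((i : ℤ) + 2) * ((m : ℤ) - i) * ((m : ℤ) - 1 - i) : ℤ) : k)) (m + 1),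
      ← Int.cast_sum, Ne, CharP.intCast_eq_zero_iff k p]
    intro hdvd
    have h30 : (p : ℤ) ∣ (((m - 1) * m * (m + 1) * (m + 2) * (m + 3) : ℕ) : ℤ) := by
      have := hdvd.mul_left 30
      rw [thirty_mul_sum] at this
      refine this.trans (dvd_of_eq ?_)
      push_cast [Nat.cast_sub (show 1 ≤ m by omega)]
      ring
    rw [Int.natCast_dvd_natCast] at h30
    simp only [Nat.Prime.dvd_mul hp.out] at h30
    rcases h30 with (((h | h) | h) | h) | h <;> have := Nat.le_of_dvd (by omega) h <;> omega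

end Cfsg.Agent.H40.SmallDeg
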