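import Mathlib
import Cfsg.Agent.H42.SmallFaithful.Adjoint

/-!
# Transfer of a Jordan block from the normalizer of the Sylow subgroup

A vector generating a Jordan block of size `m` of `x` that is a direct summand gives an invariant
subspace of dimension at most `m` on which the block survives.
-/

set_option autoImplicit false
set_option maxHeartbeats 1000000
set_option linter.unusedSectionVars false

namespace Cfsg.Agent.H40.SmallDeg

open Module Cfsg.Agent.H43.D1

variable {k : Type*} [Field k] [IsAlgClosed k] {G : Type*} [Group G] [Fintype G] {p : ℕ}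
  [hp : Fact p.Prime] [CharP k p] {M : Type*} [AddCommGroup M] [Module k M] [FiniteDimensional k M]

/-- The transferred block. -/
theorem exists_transfer (S : Setup p G) (α : G →* Module.End k M)
    (hnorm : delta α S.x ^ (p - 1) = 0)
    (hscal : ∀ v : S.V, ∃ c : k, α ((v : S.L) : G) = c • 1) {m : ℕ} (hm : 0 < m) (f₀ : M)
    (hf₀ : (delta α S.x ^ m) f₀ = 0)
    (hf₁ : (delta α S.x ^ (m - 1)) f₀ ∉ LinearMap.range (delta α S.x ^ m)) :
    ∃ Y : Submodule k M, (∀ g, ∀ y ∈ Y, α g y ∈ Y) ∧ finrank k Y ≤ m ∧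
      ∃ y ∈ Y, (delta α S.x ^ (m - 1)) y ≠ 0 := by
  classical
  set δ := delta α S.x with hδ
  have hp2 := hp.out.two_le
  obtain ⟨γ, hγ⟩ := IsCyclic.exists_generator (α := S.act.range)
  obtain ⟨l₀, hl₀⟩ := γ.2
  have hgenL : ∀ l : S.L, ∃ (i : ℕ) (v : S.V), l = l₀ ^ i * (v : S.L) := by
    intro l
    obtain ⟨i, hi⟩ := (mem_powers_iff_mem_zpowers).2 (hγ ⟨S.act l, ⟨l, rfl⟩⟩)
    refine ⟨i, ⟨(l₀ ^ i)⁻¹ * l, ?_⟩, by simp⟩
    rw [MonoidHom.mem_ker, map_mul, map_inv, map_pow, hl₀]
    have h1 := congrArg Subtype.val hi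
    simp only [SubmonoidClass.coe_pow] at h1
    rw [h1, inv_mul_cancel]
  -- conjugating the differences by the complement
  have hαinv : ∀ (g : G) (v : M), α g (α g⁻¹ v) = v := fun g v => by
    rw [← Module.End.mul_apply, ← map_mul, mul_inv_cancel, map_one, Module.End.one_apply]
  have hαinv' : ∀ (g : G) (v : M), α g⁻¹ (α g v) = v := fun g v => by
    rw [← Module.End.mul_apply, ← map_mul, inv_mul_cancel, map_one, Module.End.one_apply]
  have hlx : ∀ l : S.L, α (l : G) * α S.x = α S.x ^ (S.act l : ZMod p).val * α (l : G) := by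
    intro l
    rw [← map_pow, ← map_mul, ← map_mul, ← S.act_spec l, inv_mul_cancel_right]
  have hlδ : ∀ (l : S.L) (j : ℕ), α (l : G) * δ ^ j =
      (α S.x ^ (S.act l : ZMod p).val - 1) ^ j * α (l : G) := by
    intro l j
    induction j with
    | zero => simp
    | succ j ih =>
      rw [pow_succ, ← mul_assoc, ih, mul_assoc, hδ, delta, mul_sub, mul_one, hlx, pow_succ,
        mul_assoc, sub_mul, one_mul]
  have hδP : ∀ a : ℕ, ∃ P : Module.End k M,
      α S.x ^ a - 1 = δ * P ∧ Commute δ P ∧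
        ∀ t, δ t = 0 → P t = (a : k) • t := by
    intro a
    refine ⟨∑ i ∈ Finset.range a, α S.x ^ i, ?_, ?_, ?_⟩
    · rw [hδ, delta, mul_geom_sum]
    · rw [hδ, delta]
      exact Commute.sum_right _ _ _ fun i _ =>
        ((Commute.refl (α S.x)).pow_right i).sub_left (Commute.one_left _)
    · intro t ht
      have hfix : ∀ i : ℕ, (α S.x ^ i) t = t := by
        intro i
        induction i with
        | zero => simp
        | succ i ih =>
          have hxt : α S.x t = t := by
            rw [hδ, delta, LinearMap.sub_apply, Module.End.one_apply, sub_eq_zero] at ht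
            exact ht
          rw [pow_succ, Module.End.mul_apply, hxt, ih]
      rw [LinearMap.sum_apply, Finset.sum_congr rfl fun i _ => hfix i, Finset.sum_const,
        Finset.card_range, Nat.cast_smul_eq_nsmul]
  -- the eigenvector
  set K₀ : Submodule k M := LinearMap.ker (δ ^ m) with hK₀
  have hK₀inv : ∀ l : S.L, ∀ w ∈ K₀, α (l : G) w ∈ K₀ := by
    intro l w hw
    rw [hK₀, LinearMap.mem_ker] at hw ⊢
    have hw' : α S.x w ∈ LinearMap.ker (δ ^ m) := by
      rw [LinearMap.mem_ker, ← Module.End.mul_apply,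
        show Commute (δ ^ m) (α S.x) from
          (((Commute.refl (α S.x)).sub_left (Commute.one_left _) :
            Commute δ (α S.x))).pow_left m,
        Module.End.mul_apply, hw, map_zero]
    obtain ⟨P, hP, hcP, -⟩ := hδP (S.act l⁻¹ : ZMod p).val
    have h1 := LinearMap.congr_fun (hlδ l⁻¹ m) (α (l : G) w)
    rw [Module.End.mul_apply, Module.End.mul_apply,
      show ((l⁻¹ : S.L) : G) = (l : G)⁻¹ from rfl, hαinv', hP, hcP.mul_pow, hcP.pow_pow m m,
      Module.End.mul_apply, hw, map_zero] at h1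
    have h2 := congrArg (α (l : G)) h1
    rwa [hαinv, map_zero] at h2
  let A : Module.End k K₀ := (α (l₀ : G)).restrict (hK₀inv l₀)
  set R := LinearMap.range (δ ^ m) with hR
  set D : Submodule k K₀ := (R.comap (δ ^ (m - 1))).comap K₀.subtype with hD
  have hDtop : D ≠ ⊤ := fun h => hf₁ (show (⟨f₀, hf₀⟩ : K₀) ∈ D from h ▸ Submodule.mem_top)
  have hApow : ∀ (j : ℕ) (w : K₀), (((A ^ j) w : K₀) : M) = α ((l₀ : G) ^ j) w := by
    intro j
    induction j with
    | zero => intro w; simp
    | succ j ih =>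
      intro w
      rw [pow_succ, Module.End.mul_apply, ih, pow_succ, map_mul, Module.End.mul_apply]
      rfl
  obtain ⟨lam, ⟨f, hfK⟩, hAf, hfD⟩ := H42.SmallFaithful.exists_eigenvector_not_mem A
    (S.not_dvd_orderOf_L l₀) (LinearMap.ext fun w => Subtype.ext (by
      rw [hApow, pow_orderOf_eq_one, map_one]; rfl)) D hDtop
  have hlf : α (l₀ : G) f = lam • f := congrArg Subtype.val hAf
  have hfm : (δ ^ m) f = 0 := hfK
  set top := (δ ^ (m - 1)) f with htopdef
  have htopR : top ∉ R := hfD
  have hδtop : δ top = 0 := by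
    rw [htopdef, ← Module.End.mul_apply, ← pow_succ', Nat.sub_add_cancel hm, hfm]
  -- the block
  set W : Submodule k M := Submodule.span k (Set.range fun i : Fin m => (δ ^ (i : ℕ)) f) with hW
  have hpowW : ∀ i : ℕ, (δ ^ i) f ∈ W := by
    intro i
    rcases Nat.lt_or_ge i m with h | h
    · exact Submodule.subset_span ⟨⟨i, h⟩, rfl⟩
    · rw [← Nat.sub_add_cancel h, pow_add, Module.End.mul_apply, hfm, map_zero]
      exact W.zero_mem
  have hfW : f ∈ W := by simpa using hpowW 0
  have htopW : top ∈ W := hpowW _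
  have hδW : ∀ w ∈ W, δ w ∈ W := by
    intro w hw
    induction hw using Submodule.span_induction with
    | mem a ha =>
      obtain ⟨i, rfl⟩ := ha
      rw [← Module.End.mul_apply, ← pow_succ']
      exact hpowW _
    | zero => rw [map_zero]; exact W.zero_mem
    | add a b _ _ ha hb => rw [map_add]; exact W.add_mem ha hb
    | smul c a _ ha => rw [map_smul]; exact W.smul_mem c ha
  have hδWpow : ∀ (i : ℕ), ∀ w ∈ W, (δ ^ i) w ∈ W := by
    intro i
    induction i with
    | zero => exact fun w hw => hw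
    | succ i ih =>
      intro w hw
      rw [pow_succ, Module.End.mul_apply]
      exact ih _ (hδW w hw)
  have hδmW : ∀ w ∈ W, (δ ^ m) w = 0 := by
    intro w hw
    induction hw using Submodule.span_induction with
    | mem a ha =>
      obtain ⟨i, rfl⟩ := ha
      rw [← Module.End.mul_apply, ← pow_add, add_comm, pow_add, Module.End.mul_apply, hfm, map_zero]
    | zero => rw [map_zero]
    | add a b _ _ ha hb => rw [map_add, ha, hb, add_zero]
    | smul c a _ ha => rw [map_smul, ha, smul_zero]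
  let St : Submonoid G :=
    { carrier := {g | ∀ w ∈ W, α g w ∈ W}
      one_mem' := fun w hw => by rwa [map_one, Module.End.one_apply]
      mul_mem' := fun {g g'} hg hg' w hw => by
        rw [map_mul, Module.End.mul_apply]; exact hg _ (hg' w hw) }
  have hxSt : S.x ∈ St := fun w hw => by
    have : α S.x w = δ w + w := by rw [hδ, delta]; simp
    rw [this]
    exact W.add_mem (hδW w hw) hw
  have hWdiff : ∀ (a j : ℕ), ∀ w ∈ W, ((α S.x ^ a - 1) ^ j) w ∈ W := by
    intro a j
    induction j with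
    | zero => exact fun w hw => hw
    | succ j ih =>
      intro w hw
      rw [pow_succ, Module.End.mul_apply]
      refine ih _ ?_
      rw [LinearMap.sub_apply, Module.End.one_apply, ← map_pow]
      exact W.sub_mem ((St.pow_mem hxSt a) w hw) hw
  have hlf' : ∀ l : S.L, ∃ μ : k, α (l : G) f = μ • f := by
    intro l
    obtain ⟨i, v, hiv⟩ := hgenL l
    obtain ⟨cv, hcv⟩ := hscal v
    refine ⟨cv * lam ^ i, ?_⟩
    have hpow : ∀ j : ℕ, (α (l₀ : G) ^ j) f = lam ^ j • f := by
      intro j
      induction j with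
      | zero => simp
      | succ j ih => rw [pow_succ, Module.End.mul_apply, hlf, map_smul, ih, smul_smul, pow_succ']
    rw [show (l : G) = (l₀ : G) ^ i * ((v : S.L) : G) from congrArg Subtype.val hiv, map_mul,
      map_pow, hcv, Module.End.mul_apply, LinearMap.smul_apply, Module.End.one_apply, map_smul,
      hpow, smul_smul]
  have hlW : ∀ l : S.L, ∀ w ∈ W, α (l : G) w ∈ W := by
    intro l w hw
    obtain ⟨μ, hμ⟩ := hlf' l
    induction hw using Submodule.span_induction with
    | mem a ha =>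
      obtain ⟨i, rfl⟩ := ha
      rw [← Module.End.mul_apply, hlδ, Module.End.mul_apply, hμ, map_smul]
      exact W.smul_mem _ (hWdiff _ _ f hfW)
    | zero => rw [map_zero]; exact W.zero_mem
    | add a b _ _ ha hb => rw [map_add]; exact W.add_mem ha hb
    | smul c a _ ha => rw [map_smul]; exact W.smul_mem c ha
  have hltop : ∀ l : S.L, ∃ c : k, α (l : G) top = c • top := by
    intro l
    obtain ⟨μ, hμ⟩ := hlf' l
    obtain ⟨P, hP, hcP, hPt⟩ := hδP (S.act l : ZMod p).val
    refine ⟨μ * ((S.act l : ZMod p).val : k) ^ (m - 1), ?_⟩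
    have hPpow : ∀ j : ℕ, (P ^ j) top = ((S.act l : ZMod p).val : k) ^ j • top := by
      intro j
      induction j with
      | zero => simp
      | succ j ih => rw [pow_succ, Module.End.mul_apply, hPt _ hδtop, map_smul, ih, smul_smul, pow_succ']
    rw [htopdef, ← Module.End.mul_apply, hlδ, Module.End.mul_apply, hμ, map_smul, hP, hcP.mul_pow,
      (hcP.pow_pow (m - 1) (m - 1)), Module.End.mul_apply, ← htopdef, hPpow, smul_smul]
  -- a projection commuting with `x`
  obtain ⟨φ, hφ1, hφR⟩ : ∃ φ : M →ₗ[k] k, φ top = 1 ∧ ∀ z ∈ R, φ z = 0 := by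
    obtain ⟨φ, hφ, hφR⟩ := Submodule.exists_dual_map_eq_bot_of_notMem htopR inferInstance
    refine ⟨(φ top)⁻¹ • φ, by simp [hφ], fun z hz => ?_⟩
    have : φ z ∈ R.map φ := ⟨z, hz, rfl⟩
    rw [hφR, Submodule.mem_bot] at this
    simp [this]
  set π₀ : Module.End k M :=
    ∑ i ∈ Finset.range m, (φ.comp (δ ^ (m - 1 - i))).smulRight ((δ ^ i) f) with hπ₀
  have hπ₀a : ∀ a, π₀ a = ∑ i ∈ Finset.range m, φ ((δ ^ (m - 1 - i)) a) • (δ ^ i) f := fun a => by
    simp [hπ₀]
  have hπ₀W : ∀ a, π₀ a ∈ W := fun a => by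
    rw [hπ₀a]; exact W.sum_mem fun i _ => W.smul_mem _ (hpowW i)
  have hπ₀δ : Commute π₀ δ := by
    refine LinearMap.ext fun a => ?_
    rw [Module.End.mul_apply, Module.End.mul_apply, hπ₀a, hπ₀a, map_sum]
    simp only [map_smul, ← Module.End.mul_apply, ← pow_succ, ← pow_succ']
    obtain ⟨j, rfl⟩ : ∃ j, m = j + 1 := ⟨m - 1, by omega⟩
    rw [Finset.sum_range_succ', Finset.sum_range_succ (fun i => φ _ • (δ ^ (i + 1)) f), hfm,
      smul_zero, add_zero, hφR _ (show _ ∈ R by rw [Nat.add_sub_cancel, Nat.sub_zero]; exact ⟨a, rfl⟩),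
      zero_smul, add_zero]
    refine Finset.sum_congr rfl fun i hi => ?_
    have := Finset.mem_range.1 hi
    rw [show j + 1 - 1 - (i + 1) + 1 = j + 1 - 1 - i by omega]
  have hπ₀top : π₀ top = top := by
    rw [hπ₀a, Finset.sum_eq_single (m - 1) (fun i hi hi0 => ?_)
      (fun h => absurd (Finset.mem_range.2 (by omega)) h)]
    · rw [Nat.sub_self, pow_zero, Module.End.one_apply, hφ1, one_smul]
    · have := Finset.mem_range.1 hi
      rw [show m - 1 - i = m - 1 - i - 1 + 1 by omega, pow_succ, Module.End.mul_apply, hδtop,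
        map_zero, map_zero, zero_smul]
  -- averaging over the complement
  let _ : Fintype S.L := Fintype.ofFinite _
  have hcL : (Fintype.card S.L : k) ≠ 0 := fun h =>
    S.not_dvd (Nat.card_eq_fintype_card (α := S.L) ▸ (CharP.cast_eq_zero_iff k p _).1 h)
  set π : Module.End k M := (Fintype.card S.L : k)⁻¹ •
    ∑ l : S.L, α (l : G) * π₀ * α (l : G)⁻¹ with hπ
  have hπW : ∀ a, π a ∈ W := by
    intro a
    rw [hπ, LinearMap.smul_apply, LinearMap.sum_apply]
    exact W.smul_mem _ (W.sum_mem fun l _ => hlW l _ (hπ₀W _))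
  have hπtop : π top = top := by
    have h1 : ∀ l : S.L, (α (l : G) * π₀ * α (l : G)⁻¹) top = top := by
      intro l
      obtain ⟨c, hc⟩ := hltop l⁻¹
      have hc' : α (l : G)⁻¹ top = c • top := hc
      rw [Module.End.mul_apply, Module.End.mul_apply, hc', map_smul, hπ₀top, ← hc', hαinv]
    rw [hπ, LinearMap.smul_apply, LinearMap.sum_apply, Finset.sum_congr rfl fun l _ => h1 l,
      Finset.sum_const, Finset.card_univ, ← Nat.cast_smul_eq_nsmul k, smul_smul, inv_mul_cancel₀ hcL,
      one_smul]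
  have hπ₀x : Commute π₀ (α S.x) := by
    have h : α S.x = δ + 1 := by rw [hδ, delta, sub_add_cancel]
    rw [h]
    exact hπ₀δ.add_right (Commute.one_right _)
  have hπx : Commute π (α S.x) := by
    refine Commute.smul_left (Commute.sum_left _ _ _ fun l _ => ?_) _
    set a := ((S.act l⁻¹ : (ZMod p)ˣ) : ZMod p).val
    have h1 : α (l : G)⁻¹ * α S.x = α S.x ^ a * α (l : G)⁻¹ := hlx l⁻¹
    have hαc : α (l : G) * α (l : G)⁻¹ = 1 := by rw [← map_mul, mul_inv_cancel, map_one]
    show α (l : G) * π₀ * α (l : G)⁻¹ * α S.x = α S.x * (α (l : G) * π₀ * α (l : G)⁻¹)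
    calc α (l : G) * π₀ * α (l : G)⁻¹ * α S.x
        = α (l : G) * (π₀ * α S.x ^ a) * α (l : G)⁻¹ := by
          rw [mul_assoc (α (l : G) * π₀), h1]; simp only [mul_assoc]
      _ = α (l : G) * α S.x ^ a * (π₀ * α (l : G)⁻¹) := by
          rw [(hπ₀x.pow_right a).eq]; simp only [mul_assoc]
      _ = _ := by
          have h2 : α (l : G) * α S.x ^ a = α S.x * α (l : G) := by
            calc α (l : G) * α S.x ^ a = α (l : G) * (α S.x ^ a * α (l : G)⁻¹) * α (l : G) := by
                  rw [mul_assoc, mul_assoc, ← map_mul α (l : G)⁻¹, inv_mul_cancel, map_one, mul_one]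
              _ = α S.x * α (l : G) := by rw [← h1, ← mul_assoc, hαc, one_mul]
          rw [h2]; simp only [mul_assoc]
  have hπL : ∀ l₁ : S.L, α (l₁ : G) * π * α (l₁ : G)⁻¹ = π := by
    intro l₁
    rw [hπ, mul_smul_comm, smul_mul_assoc, Finset.mul_sum, Finset.sum_mul]
    congr 1
    refine Fintype.sum_equiv (Equiv.mulLeft l₁) _ _ fun l => ?_
    simp [map_mul, mul_assoc]
  have hπN : ∀ g ∈ S.N, α g * π * α g⁻¹ = π := by
    intro g hg
    obtain ⟨l, hl, u, hu, rfl⟩ := S.mem_N_iff.1 hg
    obtain ⟨j, rfl⟩ := (mem_powers_iff_mem_zpowers (x := S.x)).2 hu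
    calc α (l * S.x ^ j) * π * α (l * S.x ^ j)⁻¹
        = α l * (α S.x ^ j * π) * α ((l * S.x ^ j)⁻¹) := by
          rw [map_mul, map_pow]; simp only [mul_assoc]
      _ = α l * π * (α (S.x ^ j) * α ((l * S.x ^ j)⁻¹)) := by
          rw [← (hπx.pow_right j).eq, map_pow]; simp only [mul_assoc]
      _ = _ := by
          rw [← map_mul, mul_inv_rev, mul_inv_cancel_left]; exact hπL ⟨l, hl⟩
  -- the transfer
  let F : G ⧸ S.N → Module.End k M := fun q => α q.out * π * α q.out⁻¹
  have hFact : ∀ (g : G) (q : G ⧸ S.N), F (g • q) = α g * F q * α g⁻¹ := by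
    intro g q
    obtain ⟨n, hn⟩ := QuotientGroup.mk_out_eq_mul S.N (g * q.out)
    have hgc : g • q = QuotientGroup.mk (g * q.out) := by
      conv_lhs => rw [← QuotientGroup.out_eq' q]
      rfl
    show α (g • q).out * π * α (g • q).out⁻¹ = _
    rw [hgc, hn]
    simp only [F, map_mul, mul_inv_rev]
    calc α g * α q.out * α (n : G) * π * (α (n : G)⁻¹ * (α q.out⁻¹ * α g⁻¹))
        = α g * α q.out * (α (n : G) * π * α (n : G)⁻¹) * (α q.out⁻¹ * α g⁻¹) := by
          simp only [mul_assoc]
      _ = _ := by rw [hπN n n.2]; simp only [mul_assoc]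
  set E : Module.End k M := ∑ q : G ⧸ S.N, F q with hE
  have hEcomm : ∀ g, α g * E = E * α g := by
    intro g
    have h : α g * E * α g⁻¹ = E := by
      rw [hE, Finset.mul_sum, Finset.sum_mul]
      exact Fintype.sum_equiv (MulAction.toPerm g) _ _ fun q => (hFact g q).symm
    conv_rhs => rw [← h]
    rw [mul_assoc, ← map_mul, inv_mul_cancel, map_one, mul_one]
  have hEmod : ∀ a, ∃ a', E a = π a + δ a' := by
    intro a
    suffices E a - π a ∈ LinearMap.range δ by
      obtain ⟨a', ha'⟩ := this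
      exact ⟨a', by rw [ha', add_sub_cancel]⟩
    set q₀ : G ⧸ S.N := QuotientGroup.mk (1 : G)
    have hF0 : F q₀ = π := hπN _ (by
      obtain ⟨n, hn⟩ := QuotientGroup.mk_out_eq_mul S.N (1 : G)
      rw [hn, one_mul]; exact n.2)
    rw [hE, ← Finset.add_sum_erase _ _ (Finset.mem_univ q₀), LinearMap.add_apply, hF0,
      add_sub_cancel_left]
    refine sum_free_mem α _ (fun u q hq => ?_) (fun u q hq huq => ?_) _
      (fun u q _ => hFact (u : G) q) (by rw [normP_eq_pow α S.orderOf_x, hnorm, LinearMap.zero_apply])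
    · refine Finset.mem_erase.2 ⟨fun h => (Finset.mem_erase.1 hq).1 ?_, Finset.mem_univ _⟩
      rw [← inv_smul_smul u q, h]
      exact QuotientGroup.eq.2 (by simpa using S.P_le_N u.2)
    · induction q using QuotientGroup.induction_on with
      | H g =>
        by_contra hu
        have hg : g ∈ S.N := by
          refine S.mem_N_of_fix u.2 (fun h => hu (Subtype.ext h)) ?_
          have h2 : (QuotientGroup.mk g : G ⧸ S.N) = QuotientGroup.mk ((u : G) * g) := huq.symm
          rw [QuotientGroup.eq] at h2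
          simpa [mul_assoc] using h2
        exact (Finset.mem_erase.1 hq).1 (QuotientGroup.eq.2 (by simpa using hg))
  have hEδ : Commute E δ := by
    rw [hδ, delta]
    exact (show Commute E (α S.x) from (hEcomm S.x).symm).sub_right (Commute.one_right _)
  have hEδ' : ∀ (i : ℕ) a, E ((δ ^ i) a) = (δ ^ i) (E a) := fun i a => by
    rw [← Module.End.mul_apply, (hEδ.pow_right i).eq, Module.End.mul_apply]
  have hEpow : ∀ (i : ℕ) a, ∃ a', E ((δ ^ i) a) = (δ ^ i) (π a) + (δ ^ (i + 1)) a' := by
    intro i a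
    obtain ⟨a', ha'⟩ := hEmod a
    refine ⟨a', ?_⟩
    rw [hEδ', ha', map_add, pow_succ, Module.End.mul_apply]
  have hiter : ∀ (n i : ℕ) a, ∃ a', (E ^ n) ((δ ^ (i + m)) a) = (δ ^ (i + m + n)) a' := by
    intro n
    induction n with
    | zero => exact fun i a => ⟨a, rfl⟩
    | succ n ih =>
      intro i a
      obtain ⟨a', ha'⟩ := hEpow (i + m) a
      rw [pow_add δ i m, Module.End.mul_apply _ _ (π a), hδmW _ (hπW a), map_zero, zero_add,
        ← pow_add] at ha'
      obtain ⟨a'', ha''⟩ := ih (i + 1) a'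
      exact ⟨a'', by rw [pow_succ, Module.End.mul_apply, ha', show i + m + 1 = i + 1 + m by ring,
        ha'', show i + 1 + m + n = i + m + (n + 1) by ring]⟩
  obtain ⟨n, hn, hcompl⟩ : ∃ n, p ≤ n ∧
      IsCompl (LinearMap.ker (E ^ n)) (LinearMap.range (E ^ n)) :=
    (Filter.eventually_atTop.1 E.eventually_isCompl_ker_pow_range_pow).elim
      fun n h => ⟨max n p, le_max_right _ _, h _ (le_max_left _ _)⟩
  have hFm : ∀ a, (E ^ n) ((δ ^ m) a) = 0 := by
    intro a
    obtain ⟨a', ha'⟩ := hiter n 0 a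
    rw [zero_add] at ha'
    rw [ha', pow_eq_zero_of_le (by omega) (delta_pow_eq_zero α S.orderOf_x), LinearMap.zero_apply]
  set Y := LinearMap.range (E ^ n) with hY
  set Q : ℕ → Submodule k M := fun i => (LinearMap.range (δ ^ i)).map (E ^ n) with hQ
  have hQY : ∀ i, Q i ≤ Y := fun i => LinearMap.map_le_range
  have hQE : ∀ i, Q i = (Q i).map E := by
    intro i
    symm
    refine Submodule.eq_of_le_of_finrank_le ?_ ?_
    · rintro _ ⟨_, ⟨_, ⟨a, rfl⟩, rfl⟩, rfl⟩
      refine ⟨(δ ^ i) (E a), ⟨E a, rfl⟩, ?_⟩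
      rw [← hEδ', ← Module.End.mul_apply (E ^ n), ← pow_succ, pow_succ', Module.End.mul_apply]
    · rw [← LinearMap.range_domRestrict]
      refine (LinearMap.finrank_range_of_inj ?_).ge
      refine (injective_iff_map_eq_zero _).2 fun z hz => Subtype.ext ?_
      refine Submodule.disjoint_def.1 hcompl.disjoint _ (LinearMap.mem_ker.2 ?_) (hQY i z.2)
      rw [← Nat.sub_add_cancel (show 1 ≤ n by omega), pow_add, pow_one, Module.End.mul_apply,
        show E (z : M) = 0 from hz, map_zero]
  have hQstep : ∀ i, Q i ≤ W.map (E ^ n) ⊔ Q (i + 1) := by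
    intro i
    rw [hQE i]
    rintro _ ⟨_, ⟨_, ⟨a, rfl⟩, rfl⟩, rfl⟩
    obtain ⟨a', ha'⟩ := hEpow i a
    rw [← Module.End.mul_apply E, ← pow_succ', pow_succ, Module.End.mul_apply, ha', map_add]
    exact add_mem (Submodule.mem_sup_left ⟨_, hδWpow i _ (hπW a), rfl⟩)
      (Submodule.mem_sup_right ⟨_, ⟨a', rfl⟩, rfl⟩)
  have hdown : ∀ j i, i + j = m → Q i ≤ W.map (E ^ n) := by
    intro j
    induction j with
    | zero =>
      intro i hi
      rw [show i = m by omega]
      rintro _ ⟨_, ⟨a, rfl⟩, rfl⟩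
      rw [hFm]; exact zero_mem _
    | succ j ih => exact fun i hi => (hQstep i).trans (sup_le le_rfl (ih (i + 1) (by omega)))
  have hYW : Y ≤ W.map (E ^ n) := by
    rintro _ ⟨a, rfl⟩
    exact hdown m 0 (zero_add m) ⟨a, ⟨a, rfl⟩, rfl⟩
  have hdim : finrank k Y ≤ m := by
    refine (Submodule.finrank_mono hYW).trans ((Submodule.finrank_map_le _ _).trans ?_)
    exact (finrank_range_le_card _).trans (Fintype.card_fin m).le
  have hEtop : ∀ j : ℕ, ∃ a, (E ^ j) top = top + (δ ^ m) a := by
    intro j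
    induction j with
    | zero => exact ⟨0, by simp⟩
    | succ j ih =>
      obtain ⟨a, ha⟩ := ih
      obtain ⟨a₁, ha₁⟩ := hEpow (m - 1) f
      have hπf : (δ ^ (m - 1)) (π f) = top := by
        have hc : Commute π δ := by
          rw [hδ, delta]; exact hπx.sub_right (Commute.one_right _)
        rw [← Module.End.mul_apply, ← (hc.pow_right _).eq, Module.End.mul_apply, ← htopdef, hπtop]
      rw [← htopdef, hπf, Nat.sub_add_cancel hm] at ha₁
      refine ⟨a₁ + E a, ?_⟩
      rw [pow_succ', Module.End.mul_apply, ha, map_add, ha₁, hEδ', map_add, add_assoc]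
  refine ⟨Y, ?_, hdim, (E ^ n) f, ⟨f, rfl⟩, ?_⟩
  · rintro g _ ⟨a, rfl⟩
    exact ⟨α g a, (LinearMap.congr_fun ((show Commute (α g) E from hEcomm g).pow_right n).eq a).symm⟩
  · intro h0
    obtain ⟨a, ha⟩ := hEtop n
    rw [← Module.End.mul_apply, ← ((hEδ.pow_left n).pow_right (m - 1)).eq, Module.End.mul_apply,
      ← htopdef, ha] at h0
    exact htopR ⟨-a, by rw [map_neg]; exact (eq_neg_of_add_eq_zero_left h0).symm⟩

end Cfsg.Agent.H40.SmallDeg
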