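import Mathlib
import Cfsg.Agent.H43.D1.Existence
import Cfsg.Agent.H40.SmallDeg.HalfTransfer
import Cfsg.Agent.H40.SmallDeg.HalfModel

/-!
# Alternating forms on a single Jordan block of size `(p + 1) / 2`

The alternating forms contain a summand of `x` that is a Jordan block of size `3` or `5`; its
transfer gives a representation of dimension less than `p / 2` on which `x` is nontrivial.
-/

set_option autoImplicit false
set_option maxHeartbeats 1000000
set_option linter.unusedSectionVars false

namespace Cfsg.Agent.H40.SmallDeg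

open Module Cfsg.Agent.H43.D1 Cfsg.Agent.H42.SmallFaithful

variable {k : Type} [Field k] {G : Type*} [Group G] {U : Type} [AddCommGroup U] [Module k U]

/-- Composition in the first argument of a form. -/
def formLeft (f : Module.End k U) : Module.End k (U →ₗ[k] U →ₗ[k] k) where
  toFun B := B.compl₁₂ f LinearMap.id
  map_add' B B' := LinearMap.ext₂ fun u v => rfl
  map_smul' c B := LinearMap.ext₂ fun u v => rfl

/-- Composition in the second argument of a form. -/
def formRight (f : Module.End k U) : Module.End k (U →ₗ[k] U →ₗ[k] k) where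
  toFun B := B.compl₁₂ LinearMap.id f
  map_add' B B' := LinearMap.ext₂ fun u v => rfl
  map_smul' c B := LinearMap.ext₂ fun u v => rfl

theorem formLeft_apply (f : Module.End k U) (B : U →ₗ[k] U →ₗ[k] k) (u v : U) :
    formLeft f B u v = B (f u) v := rfl

theorem formRight_apply (f : Module.End k U) (B : U →ₗ[k] U →ₗ[k] k) (u v : U) :
    formRight f B u v = B u (f v) := rfl

theorem formLeft_pow (f : Module.End k U) (j : ℕ) : formLeft f ^ j = formLeft (f ^ j) := by
  induction j with
  | zero => rfl
  | succ j ih => rw [pow_succ, ih, pow_succ' f]; rfl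

theorem formRight_pow (f : Module.End k U) (j : ℕ) : formRight f ^ j = formRight (f ^ j) := by
  induction j with
  | zero => rfl
  | succ j ih => rw [pow_succ, ih, pow_succ' f]; rfl

/-- The representation on bilinear forms. -/
def formRep (σ : G →* Module.End k U) : G →* Module.End k (U →ₗ[k] U →ₗ[k] k) where
  toFun g :=
    { toFun := fun B => B.compl₁₂ (σ g⁻¹) (σ g⁻¹)
      map_add' := fun B B' => LinearMap.ext₂ fun u v => rfl
      map_smul' := fun c B => LinearMap.ext₂ fun u v => rfl }
  map_one' := LinearMap.ext fun B => LinearMap.ext₂ fun u v => by simp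
  map_mul' g h := LinearMap.ext fun B => LinearMap.ext₂ fun u v => by simp [mul_inv_rev]

theorem formRep_apply (σ : G →* Module.End k U) (g : G) (B : U →ₗ[k] U →ₗ[k] k) (u v : U) :
    formRep σ g B u v = B (σ g⁻¹ u) (σ g⁻¹ v) := rfl

/-- The alternating forms. -/
def altForms (k : Type) [Field k] (U : Type) [AddCommGroup U] [Module k U] :
    Submodule k (U →ₗ[k] U →ₗ[k] k) where
  carrier := {B | ∀ u, B u u = 0}
  zero_mem' u := rfl
  add_mem' {B B'} hB hB' u := by simp [hB u, hB' u]
  smul_mem' c B hB u := by simp [hB u]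

instance : AddCommGroup (altForms k U) :=
  @Submodule.addCommGroup k (U →ₗ[k] U →ₗ[k] k) _ _ _ (altForms k U)

theorem formRep_altForms (σ : G →* Module.End k U) :
    ∀ g, ∀ B ∈ altForms k U, formRep σ g B ∈ altForms k U := fun g _ hB u => hB (σ g⁻¹ u)

variable [Fintype G] [IsAlgClosed k] {p : ℕ} [hp : Fact p.Prime] [CharP k p] [FiniteDimensional k U]

/-- An operator of order prime to `p` commuting with a single Jordan block is scalar. -/
theorem block_scalar (δ : Module.End k U) {d : ℕ} (hdU : finrank k U = d) (hδ : δ ^ d = 0)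
    (hne : δ ^ (d - 1) ≠ 0) (A : Module.End k U) {n : ℕ} (hn : ¬ p ∣ n) (hA : A ^ n = 1)
    (hc : Commute A δ) : ∃ c : k, A = c • 1 := by
  have hD : LinearMap.ker (δ ^ (d - 1)) ≠ ⊤ := fun h => hne (LinearMap.ker_eq_top.1 h)
  obtain ⟨c, v, hv, hvD⟩ := exists_eigenvector_not_mem A hn hA _ hD
  obtain ⟨B, hB⟩ := block_basis δ hdU hδ (v₀ := v) hvD
  refine ⟨c, B.ext fun i => ?_⟩
  rw [hB, ← Module.End.mul_apply, (hc.pow_right _).eq, Module.End.mul_apply, hv, map_smul,
    LinearMap.smul_apply, Module.End.one_apply]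

/-- The norm of `x` vanishes on alternating forms on a single block. -/
theorem altForms_delta_pow (σ : G →* Module.End k U) (x : G) {e : ℕ} (hdU : finrank k U = e + 1)
    (hδ : delta σ x ^ (e + 1) = 0) (hne : delta σ x ^ e ≠ 0) {B : U →ₗ[k] U →ₗ[k] k}
    (hB : B ∈ altForms k U) : (delta (V := U →ₗ[k] U →ₗ[k] k) (formRep σ) x ^ (2 * e)) B = 0 := by
  set y := σ x⁻¹ with hy
  set η := y - 1 with hη
  have hyx : y * σ x = 1 := by rw [hy, ← map_mul, inv_mul_cancel, map_one]
  have hxy : σ x * y = 1 := by rw [hy, ← map_mul, mul_inv_cancel, map_one]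
  have hηeq : η = -(y * delta σ x) := by rw [hη, delta, mul_sub, hyx, mul_one, neg_sub]
  have hcy : Commute y (delta σ x) :=
    (show Commute y (σ x) from hyx.trans hxy.symm).sub_right (Commute.one_right _)
  have hηpow : ∀ j : ℕ, η ^ j = (-1) ^ j * (y ^ j * delta σ x ^ j) := by
    intro j
    rw [hηeq, neg_pow, hcy.mul_pow]
  have hηz : η ^ (e + 1) = 0 := by rw [hηpow, hδ, mul_zero, mul_zero]
  have hηy : ∀ j : ℕ, η ^ e * y ^ j = η ^ e := by
    intro j
    induction j with
    | zero => rw [pow_zero, mul_one]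
    | succ j ih =>
      have h1 : η ^ e * y = η ^ e := by
        have := hηz
        rw [pow_succ, hη, mul_sub, mul_one, sub_eq_zero] at this
        rw [hη]; exact this
      rw [pow_succ, ← mul_assoc, ih, h1]
  obtain ⟨v₀, hv₀⟩ : ∃ v₀, (delta σ x ^ e) v₀ ≠ 0 := by
    by_contra hc
    push Not at hc
    exact hne (LinearMap.ext hc)
  obtain ⟨Bv, hBv⟩ := block_basis (delta σ x) hdU hδ (v₀ := v₀) (by rwa [Nat.add_sub_cancel])
  set z := (η ^ e) v₀ with hz
  have hrank : ∀ u, ∃ c : k, (η ^ e) u = c • z := by
    intro u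
    refine ⟨Bv.repr u 0, ?_⟩
    conv_lhs => rw [← Bv.sum_repr u]
    rw [map_sum, Finset.sum_eq_single 0 (fun i _ hi => ?_) (fun h => absurd (Finset.mem_univ _) h)]
    · rw [map_smul, hBv, Fin.val_zero, pow_zero, Module.End.one_apply]
    · rw [map_smul, hBv, ← Module.End.mul_apply, hηpow, mul_assoc, mul_assoc, ← pow_add,
        pow_eq_zero_of_le (by
          have : (i : ℕ) ≠ 0 := fun h => hi (Fin.ext h)
          omega) hδ, mul_zero, mul_zero, LinearMap.zero_apply, smul_zero]
  set a := formLeft (k := k) η * formRight y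
  set b := formRight (k := k) η
  have hsum : delta (V := U →ₗ[k] U →ₗ[k] k) (formRep σ) x = a + b := by
    refine LinearMap.ext fun B => LinearMap.ext₂ fun u v => ?_
    show formRep σ x B u v - B u v = B (η u) (y v) + B u (η v)
    rw [formRep_apply, ← hy, hη]
    simp only [LinearMap.sub_apply, Module.End.one_apply, map_sub]
    abel
  have hlr : ∀ f g : Module.End k U, Commute (formLeft f) (formRight g) := fun f g => rfl
  have hrr : Commute (formRight (k := k) y) (formRight η) := by
    refine LinearMap.ext fun B => LinearMap.ext₂ fun u v => ?_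
    show B u (η (y v)) = B u (y (η v))
    rw [← Module.End.mul_apply, ← Module.End.mul_apply,
      show η * y = y * η by rw [hη, sub_mul, mul_sub, one_mul, mul_one]]
  have hab : Commute a b := (hlr η η).mul_left hrr
  rw [hsum, hab.add_pow, LinearMap.sum_apply, Finset.sum_eq_single e (fun j hj hje => ?_)
    (fun h => absurd (Finset.mem_range.2 (by omega)) h)]
  · rw [show 2 * e - e = e by omega, ← Nat.cast_comm, Module.End.mul_apply,
      show (a ^ e * b ^ e) B = 0 from ?_, map_zero]
    rw [(hlr η y).mul_pow, formLeft_pow, formRight_pow, formRight_pow, Module.End.mul_apply,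
      Module.End.mul_apply]
    refine LinearMap.ext₂ fun u v => ?_
    rw [formLeft_apply, formRight_apply, formRight_apply, LinearMap.zero_apply,
      LinearMap.zero_apply, ← Module.End.mul_apply (η ^ e) (y ^ e), hηy]
    obtain ⟨c₁, hc₁⟩ := hrank u
    obtain ⟨c₂, hc₂⟩ := hrank v
    rw [hc₁, hc₂, map_smul, map_smul, LinearMap.smul_apply, hB z, smul_zero, smul_zero]
  · have := Finset.mem_range.1 hj
    rcases lt_or_gt_of_ne hje with h | h
    · have h0 : b ^ (2 * e - j) = 0 := by
        rw [formRight_pow, pow_eq_zero_of_le (by omega) hηz]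
        exact LinearMap.ext fun B => LinearMap.ext₂ fun u v => by simp [formRight_apply]
      rw [h0, mul_zero, zero_mul, LinearMap.zero_apply]
    · have h0 : a ^ j = 0 := by
        rw [(hlr η y).mul_pow, formLeft_pow, pow_eq_zero_of_le (by omega) hηz,
          show formLeft (k := k) (0 : Module.End k U) = 0 from
            LinearMap.ext fun B => LinearMap.ext₂ fun u v => by simp [formLeft_apply],
          zero_mul]
      rw [h0, zero_mul, zero_mul, LinearMap.zero_apply]

/-- A small representation with nontrivial `x`. -/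
theorem exists_small_rep (S : Setup p G) (σ : G →* Module.End k U) {e : ℕ}
    (hdU : finrank k U = e + 1) (he : 2 * e + 1 = p) (h5 : 5 ≤ e) (hne : delta σ S.x ^ e ≠ 0) :
    ∃ (W : Type) (_ : AddCommGroup W) (_ : Module k W) (_ : FiniteDimensional k W)
      (τ : G →* Module.End k W), 2 * finrank k W ≤ p ∧ τ S.x ≠ 1 := by
  classical
  have hδ : delta σ S.x ^ (e + 1) = 0 := hdU ▸ delta_pow_finrank σ S.orderOf_x
  have hcast : ∀ n : ℕ, 0 < n → n < p → (n : k) ≠ 0 := natCast_ne
  have hscal : ∀ v : S.V, ∃ c : k, σ ((v : S.L) : G) = c • 1 := fun v =>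
    block_scalar (delta σ S.x) hdU hδ (by rwa [Nat.add_sub_cancel]) _
      (S.not_dvd_orderOf_L (v : S.L)) (by rw [← map_pow, pow_orderOf_eq_one, map_one])
      ((Commute.map (S.commute_of_mem_V v.2) σ).sub_right (Commute.one_right _))
  obtain ⟨v₀, hv₀⟩ : ∃ v₀, (delta σ S.x ^ e) v₀ ≠ 0 := by
    by_contra hc
    push Not at hc
    exact hne (LinearMap.ext hc)
  obtain ⟨β, D, H, F, hsym, hnd, hinv, hskew, hTD, hTH, hTF, htr1, htr2⟩ :=
    exists_skew_triple (p := p) hdU (by omega) (by omega) (σ S.x) hδ hv₀
  set α := adjRep σ with hα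
  set ω := formRep σ with hω
  set δ := delta α S.x with hδa
  set δf := delta (V := U →ₗ[k] U →ₗ[k] k) ω S.x with hδf
  have hxi : σ S.x * σ S.x⁻¹ = 1 := by rw [← map_mul, mul_inv_cancel, map_one]
  -- the forms are the operators
  let Φ : Module.End k U →ₗ[k] (U →ₗ[k] U →ₗ[k] k) :=
    { toFun := fun A => β.comp A
      map_add' := fun A A' => LinearMap.ext₂ fun u v => by simp
      map_smul' := fun c A => LinearMap.ext₂ fun u v => by simp }
  have hΦ : ∀ A u v, Φ A u v = β (A u) v := fun A u v => rfl
  have hΦinj : Function.Injective Φ := by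
    refine (injective_iff_map_eq_zero Φ).2 fun A hA => LinearMap.ext fun u => hnd _ fun v => ?_
    rw [← hΦ, hA]; rfl
  have hfr : finrank k (Module.End k U) = finrank k (U →ₗ[k] U →ₗ[k] k) := by
    rw [Module.finrank_linearMap, Module.finrank_linearMap, Module.finrank_linearMap,
      Module.finrank_self, mul_one]
  have hΦsurj : Function.Surjective Φ :=
    (LinearMap.injective_iff_surjective_of_finrank_eq_finrank (K := k) (V := Module.End k U) (V₂ := U →ₗ[k] U →ₗ[k] k) hfr (f := Φ)).1 hΦinj
  have hΦx : ∀ A, δf (Φ A) = Φ (δ A) := by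
    intro A
    refine LinearMap.ext₂ fun u v => ?_
    show ω S.x (Φ A) u v - Φ A u v = Φ (α S.x A - A) u v
    simp only [map_sub, LinearMap.sub_apply, hω, hα, formRep_apply, hΦ, adjRep_apply,
      Module.End.mul_apply]
    congr 1
    rw [← hinv (A (σ S.x⁻¹ u)) (σ S.x⁻¹ v), ← Module.End.mul_apply (σ S.x) (σ S.x⁻¹) v, hxi,
      Module.End.one_apply]
  have hΦpow : ∀ (j : ℕ) A, (δf ^ j) (Φ A) = Φ ((δ ^ j) A) := by
    intro j
    induction j with
    | zero => intro A; simp
    | succ j ih => intro A; rw [pow_succ, Module.End.mul_apply, hΦx, ih, pow_succ, Module.End.mul_apply]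
  -- conjugation by `x`
  have hcmul : ∀ a b : Module.End k U, α S.x (a * b) = α S.x a * α S.x b := by
    intro a b
    rw [hα, adjRep_apply, adjRep_apply, adjRep_apply,
      show σ S.x * a * σ S.x⁻¹ * (σ S.x * b * σ S.x⁻¹) =
        σ S.x * a * (σ S.x⁻¹ * σ S.x) * b * σ S.x⁻¹ by simp only [mul_assoc],
      ← map_mul σ S.x⁻¹ S.x, inv_mul_cancel, map_one, mul_one]
    simp only [mul_assoc]
  have hconj : ∀ a b : Module.End k U, σ S.x * a = b * σ S.x → α S.x a = b := fun a b h => by
    rw [hα, adjRep_apply, h, mul_assoc, hxi, mul_one]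
  have hcD : α S.x D = D := hconj _ _ hTD
  have hcH : α S.x H = H + (2 : k) • D := hconj _ _ hTH
  have hcF : α S.x F = F - H - D := hconj _ _ hTF
  obtain ⟨m, r, hm, hm2, hr, hbot, htop⟩ : ∃ (m r : ℕ), m ≤ 5 ∧ 2 ≤ m ∧ (r + e) % 2 = 1 ∧
      (δ ^ m) (F ^ r) = 0 ∧ LinearMap.trace k U ((δ ^ (m - 1)) (F ^ r) * F ^ r) ≠ 0 := by
    rcases Nat.even_or_odd e with ⟨j, hj⟩ | ⟨j, hj⟩
    · refine ⟨3, 1, by omega, by omega, by omega, ?_, ?_⟩
      · rw [pow_one]
        simp only [hδa, delta, pow_succ, pow_zero, one_mul, Module.End.mul_apply, LinearMap.sub_apply,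
          Module.End.one_apply, hcF, hcH, hcD, map_sub, map_add, map_smul]
        module
      · have h2 : (δ ^ (3 - 1)) (F ^ 1) = -((2 : k) • D) := by
          rw [pow_one, show (3 : ℕ) - 1 = 2 from rfl]
          simp only [hδa, delta, pow_succ, pow_zero, one_mul, Module.End.mul_apply,
            LinearMap.sub_apply, Module.End.one_apply, hcF, hcH, hcD, map_sub, map_add, map_smul]
          module
        rw [h2, pow_one, neg_mul, map_neg, smul_mul_assoc, map_smul, neg_ne_zero, smul_eq_mul]
        exact mul_ne_zero (by exact_mod_cast hcast 2 (by omega) (by omega)) htr1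
    · refine ⟨5, 2, le_rfl, by omega, by omega, ?_, ?_⟩
      · rw [pow_two]
        simp only [hδa, delta, pow_succ, pow_zero, one_mul, Module.End.mul_apply, LinearMap.sub_apply,
          Module.End.one_apply, hcmul, hcF, hcH, hcD, map_sub, map_add, map_smul]
        simp only [sub_mul, mul_sub, add_mul, mul_add, smul_mul_assoc, mul_smul_comm]
        module
      · have h4 : (δ ^ (5 - 1)) (F ^ 2) = (24 : k) • (D * D) := by
          rw [pow_two, show (5 : ℕ) - 1 = 4 from rfl]
          simp only [hδa, delta, pow_succ, pow_zero, one_mul, Module.End.mul_apply,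
            LinearMap.sub_apply, Module.End.one_apply, hcmul, hcF, hcH, hcD, map_sub, map_add,
            map_smul]
          simp only [sub_mul, mul_sub, add_mul, mul_add, smul_mul_assoc, mul_smul_comm]
          module
        rw [h4, pow_two, smul_mul_assoc, map_smul, smul_eq_mul]
        refine mul_ne_zero ?_ htr2
        intro h
        have h24 : p ∣ 2 * 2 * 2 * 3 :=
          (CharP.cast_eq_zero_iff k p _).1 (by norm_num; exact h)
        simp only [Nat.Prime.dvd_mul hp.out] at h24
        rcases h24 with ((h | h) | h) | h <;> have := Nat.le_of_dvd (by omega) h <;> omega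
  -- the form is alternating
  have hskewpow : ∀ (j : ℕ) u v, β ((F ^ j) u) v = (-1) ^ j * β u ((F ^ j) v) := by
    intro j
    induction j with
    | zero => intro u v; simp
    | succ j ih =>
      intro u v
      rw [pow_succ, Module.End.mul_apply, ih, hskew, ← Module.End.mul_apply F, ← pow_succ',
        pow_succ' (-1 : k), pow_succ (F)]
      ring
  have halt : Φ (F ^ r) ∈ altForms k U := by
    intro u
    have h1 := hskewpow r u u
    rw [hsym ((F ^ r) u) u, ← mul_assoc, ← pow_add, ← Nat.div_add_mod (r + e) 2, hr, pow_succ,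
      pow_mul, neg_one_sq, one_pow, one_mul, neg_one_mul] at h1
    rw [hΦ]
    have h2 : (2 : k) * β ((F ^ r) u) u = 0 := by linear_combination h1
    exact (mul_eq_zero.1 h2).resolve_left (by exact_mod_cast hcast 2 (by omega) (by omega))
  -- the restriction to alternating forms
  set M := altForms k U
  set τ := restrictRep (V := U →ₗ[k] U →ₗ[k] k) ω M (formRep_altForms σ) with hτ
  have hτd : ∀ (j : ℕ) (B : M), (((delta (V := M) τ S.x ^ j) B : M) : U →ₗ[k] U →ₗ[k] k) =
      (δf ^ j) B := by
    intro j
    induction j with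
    | zero => intro B; rfl
    | succ j ih =>
      intro B
      rw [pow_succ, Module.End.mul_apply, ih, pow_succ, Module.End.mul_apply]
      rfl
  obtain ⟨Y, hY, hYdim, y, hy, hyne⟩ := exists_transfer (M := M) S τ
    (LinearMap.ext fun B => Subtype.ext (by
      rw [hτd, show p - 1 = 2 * e by omega]
      exact altForms_delta_pow σ S.x hdU hδ hne B.2))
    (fun v => by
      obtain ⟨c, hc⟩ := hscal (v⁻¹)
      refine ⟨c * c, LinearMap.ext fun B => Subtype.ext (LinearMap.ext₂ fun u w => ?_)⟩
      have hc' : σ ((v : S.L) : G)⁻¹ = c • 1 := hc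
      show formRep σ ((v : S.L) : G) B u w = ((c * c) • (B : U →ₗ[k] U →ₗ[k] k)) u w
      rw [formRep_apply, hc']
      simp [mul_assoc])
    (show 0 < m by omega) ⟨Φ (F ^ r), halt⟩
    (Subtype.ext (by rw [hτd, hΦpow, hbot, map_zero]; rfl))
    (fun ⟨B, hB⟩ => by
      refine htop ?_
      obtain ⟨A, hA⟩ := hΦsurj B
      have h1 := congrArg Subtype.val hB
      rw [hτd, hτd, ← hA, hΦpow, hΦpow] at h1
      rw [← hΦinj h1]
      have hadj : ∀ (j : ℕ) a b, LinearMap.trace k U ((δ ^ j) a * b) =
          LinearMap.trace k U (a * (delta α S.x⁻¹ ^ j) b) := by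
        intro j
        induction j with
        | zero => intro a b; simp
        | succ j ih =>
          intro a b
          rw [pow_succ, Module.End.mul_apply, ih, pow_succ', Module.End.mul_apply]
          simp only [hδa, delta, LinearMap.sub_apply, Module.End.one_apply, sub_mul, mul_sub,
            map_sub]
          congr 1
          rw [hα, ← trace_adjRep σ S.x⁻¹, ← Module.End.mul_apply (adjRep σ S.x⁻¹), ← map_mul,
            inv_mul_cancel, map_one, Module.End.one_apply]
      have hinv₂ : α S.x⁻¹ * α S.x = 1 := by rw [← map_mul, inv_mul_cancel, map_one]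
      have hneg : delta α S.x⁻¹ = (0 - α S.x⁻¹) * δ := by
        rw [hδa, delta, delta]
        simp only [sub_mul, mul_sub, zero_mul, mul_one, hinv₂]
        abel
      have hcomm : Commute (0 - α S.x⁻¹) δ :=
        (Commute.zero_left _).sub_left
          ((show Commute (α S.x⁻¹) (α S.x) from (Commute.inv_left (Commute.refl S.x)).map α).sub_right
            (Commute.one_right _))
      rw [hadj, hneg, hcomm.mul_pow, Module.End.mul_apply, hbot, map_zero, mul_zero, map_zero])
  refine ⟨Y, inferInstance, inferInstance, inferInstance, restrictRep τ Y hY, by omega, fun h => hyne ?_⟩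
  have h1 : delta τ S.x y = 0 := by
    have h2 := congrArg Subtype.val (LinearMap.congr_fun h ⟨y, hy⟩)
    rw [delta, LinearMap.sub_apply, Module.End.one_apply, sub_eq_zero]
    exact h2
  rw [show m - 1 = m - 2 + 1 by omega, pow_succ, Module.End.mul_apply, h1, map_zero]

end Cfsg.Agent.H40.SmallDeg
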