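import Mathlib
import Cfsg.Agent.H42.SmallFaithful.Main
import Cfsg.Agent.H40.SmallDeg.HalfForms

/-!
# Degree `(p + 1) / 2` with automizer of order `(p - 1) / 2` and a full block
-/

set_option autoImplicit false
set_option maxHeartbeats 1000000
set_option linter.unusedSectionVars false

namespace Cfsg.Agent.H40.SmallDeg

open Module Cfsg.Agent.H43.D1 Cfsg.Agent.H42.SmallFaithful

attribute [local instance] Fintype.ofFinite

/-- A power of a single block prime to `p` is a single block. -/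
theorem block_pow {k : Type*} [Field k] {U : Type*} [AddCommGroup U] [Module k U]
    [FiniteDimensional k U] (A : Module.End k U) {d : ℕ} (hdU : finrank k U = d)
    (hA : (A - 1) ^ finrank k U = 0) (hne : (A - 1) ^ (d - 1) ≠ 0) {n : ℕ} (hn : (n : k) ≠ 0) :
    (A ^ n - 1) ^ (d - 1) ≠ 0 := by
  obtain ⟨v, hv⟩ : ∃ v, ((A - 1) ^ (d - 1)) v ≠ 0 := by
    by_contra hc
    push Not at hc
    exact hne (LinearMap.ext hc)
  have hd0 : 0 < d := by
    by_contra h
    rw [hdU, show d = 0 by omega, pow_zero] at hA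
    rw [show d - 1 = 0 by omega, pow_zero, hA] at hne
    exact hne rfl
  set t := ((A - 1) ^ (d - 1)) v with ht
  have hfix : ∀ i : ℕ, (A ^ i) t = t := by
    intro i
    induction i with
    | zero => simp
    | succ i ih =>
      have h1 : (A - 1) t = 0 := by
        rw [ht, ← Module.End.mul_apply, ← pow_succ', Nat.sub_add_cancel hd0, ← hdU, hA,
          LinearMap.zero_apply]
      rw [LinearMap.sub_apply, Module.End.one_apply, sub_eq_zero] at h1
      rw [pow_succ, Module.End.mul_apply, h1, ih]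
  set P : Module.End k U := ∑ i ∈ Finset.range n, A ^ i with hP
  have hPt : P t = (n : k) • t := by
    rw [hP, LinearMap.sum_apply, Finset.sum_congr rfl fun i _ => hfix i, Finset.sum_const,
      Finset.card_range, Nat.cast_smul_eq_nsmul]
  have hPj : ∀ j : ℕ, (P ^ j) t = (n : k) ^ j • t := by
    intro j
    induction j with
    | zero => simp
    | succ j ih => rw [pow_succ, Module.End.mul_apply, hPt, map_smul, ih, smul_smul, pow_succ']
  intro h0
  have hc : Commute P (A - 1) :=
    Commute.sum_left _ _ _ fun i _ =>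
      ((Commute.refl A).pow_left i).sub_right (Commute.one_right _)
  rw [← geom_sum_mul, ← hP, hc.mul_pow] at h0
  have h1 := LinearMap.congr_fun h0 v
  rw [Module.End.mul_apply, ← ht, hPj, LinearMap.zero_apply, smul_eq_zero] at h1
  exact h1.elim (pow_ne_zero _ hn) hv

section Core

variable {p : ℕ} [hp : Fact p.Prime] {G : Type*} [Group G] [Finite G]

/-- The group generated by the elements of order `p`, given a small modular representation. -/
theorem half_core (S : Setup p G) (hgen : ∀ H : Subgroup G, H.Normal → S.x ∈ H → H = ⊤)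
    (hperf : commutator G = ⊤)
    (hcent : ∀ H : Subgroup G, H.Normal → S.x ∉ H → H ≤ Subgroup.center G) (h5 : 5 ≤ p)
    (hrange : 2 * Nat.card S.act.range + 1 ≤ p) {k : Type} [Field k] [IsAlgClosed k] [CharP k p]
    {W : Type} [AddCommGroup W] [Module k W] [FiniteDimensional k W] (τ₀ : G →* Module.End k W)
    (hW : 2 * finrank k W ≤ p) (hτ₀ : τ₀ S.x ≠ 1) :
    Nat.card (Sylow p G) = p + 1 ∧ 2 * Nat.card S.act.range + 1 = p ∧
      Nonempty ((G ⧸ Subgroup.center G) ≃* Matrix.ProjectiveSpecialLinearGroup (Fin 2) (ZMod p)) := by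
  classical
  obtain ⟨U, _, _, _, τ, hirr, hUd, hτx⟩ := exists_irred S hgen hperf _ W τ₀ rfl hτ₀
  have hUp : 2 * finrank k U ≤ p := by omega
  have hscal : ∀ v : S.V, ∃ c : k, τ ((v : S.L) : G) = c • 1 := fun v =>
    scalar_of_mem S τ hirr hUp hgen S.V (fun w hw => S.commute_of_mem_V hw) v
  obtain ⟨Y, hYinv, hYdim, hYnd, y₀, hy₀, hy₀2⟩ := exists_three S τ hirr hUp hτx hscal
  set σ₃ : G →* Module.End k Y := restrictRep (adjRep τ) Y hYinv with hσ₃
  have hσ₃a : ∀ g (y : Y), ((σ₃ g y : Y) : Module.End k U) = adjRep τ g y := fun g y => rfl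
  set K := σ₃.ker with hK
  have hxK : S.x ∉ K := by
    intro h
    refine hy₀2 ?_
    have h1 := congrArg Subtype.val (LinearMap.congr_fun (MonoidHom.mem_ker.1 h) ⟨y₀, hy₀⟩)
    rw [hσ₃a] at h1
    have h2 : delta (adjRep τ) S.x y₀ = 0 := by
      rw [delta, LinearMap.sub_apply, Module.End.one_apply]
      exact sub_eq_zero.2 h1
    rw [sq, Module.End.mul_apply, h2, map_zero]
  have hKc : K ≤ Subgroup.center G := hcent K inferInstance hxK
  set π := QuotientGroup.mk' K with hπ
  have hπs : Function.Surjective π := QuotientGroup.mk'_surjective K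
  have hxo : orderOf (π S.x) = p := by
    refine orderOf_eq_prime (by rw [← map_pow, S.x_pow_p, map_one]) fun h => hxK ?_
    exact (QuotientGroup.eq_one_iff _).1 h
  -- the setup of the quotient
  have hexists : ∀ g : G, π g * π S.x * (π g)⁻¹ ∈ Subgroup.zpowers (π S.x) →
      g * S.x * g⁻¹ ∈ S.P := by
    intro g hg
    obtain ⟨i, hi⟩ := Subgroup.mem_zpowers_iff.1 hg
    rw [← map_zpow, ← map_inv, ← map_mul, ← map_mul] at hi
    have hz : (S.x ^ i)⁻¹ * (g * S.x * g⁻¹) ∈ K := QuotientGroup.eq.1 hi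
    set z := (S.x ^ i)⁻¹ * (g * S.x * g⁻¹) with hz'
    have hzc : ∀ a, Commute z a := fun a => (Subgroup.mem_center_iff.1 (hKc hz) a).symm
    have hzp : z ^ p = 1 := by
      have h1 : (g * S.x * g⁻¹) ^ p = 1 := by
        rw [conj_pow, S.x_pow_p, mul_one, mul_inv_cancel]
      rw [show g * S.x * g⁻¹ = S.x ^ i * z by rw [hz']; group, ((hzc _).symm).mul_pow,
        ← zpow_natCast (S.x ^ i), ← zpow_mul, mul_comm, zpow_mul, zpow_natCast, S.x_pow_p, one_zpow,
        one_mul] at h1
      exact h1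
    have hz1 : z = 1 := by
      by_contra hne
      have hK' : p ∣ Nat.card K := by
        have h := orderOf_dvd_natCard (⟨z, hz⟩ : K)
        rwa [← Subgroup.orderOf_coe, orderOf_eq_prime hzp hne] at h
      exact hxK (x_mem_of_dvd S K hK')
    have heq : g * S.x * g⁻¹ = S.x ^ i := by
      have := eq_of_inv_mul_eq_one (hz'.symm.trans hz1)
      exact this.symm
    rw [heq]
    exact Subgroup.zpow_mem _ (Subgroup.mem_zpowers _) i
  let T : Setup p (G ⧸ K) :=
    { x := π S.x
      L := S.L.map π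
      orderOf_x := hxo
      not_sq := fun h => S.not_sq (h.trans K.card_quotient_dvd_card)
      le_norm := by
        rintro _ ⟨l, hl, rfl⟩
        obtain ⟨i, hi⟩ := Subgroup.mem_zpowers_iff.1 (S.le_norm l hl)
        refine Subgroup.mem_zpowers_iff.2 ⟨i, ?_⟩
        rw [← map_zpow, hi, map_mul, map_mul, map_inv]
      not_dvd := fun h => S.not_dvd (h.trans (Subgroup.card_map_dvd _ _))
      exists_mul := fun q hq => by
        obtain ⟨g, rfl⟩ := hπs q
        obtain ⟨l, hl, u, hu, rfl⟩ := S.exists_mul g (hexists g hq)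
        refine ⟨π l, ⟨l, hl, rfl⟩, π u, ?_, map_mul _ _ _⟩
        obtain ⟨i, rfl⟩ := Subgroup.mem_zpowers_iff.1 hu
        rw [map_zpow]
        exact Subgroup.zpow_mem _ (Subgroup.mem_zpowers _) i }
  have hTx : T.x = π S.x := rfl
  have hQperf : commutator (G ⧸ K) = ⊤ := by
    rw [commutator_def, ← Subgroup.map_top_of_surjective π hπs, ← Subgroup.map_commutator,
      ← commutator_def, hperf]
  have hTP : ¬ T.P.Normal := by
    intro hn
    have htop := hgen (T.P.comap π) (hn.comap _) (Subgroup.mem_zpowers _)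
    have hall : ∀ q : G ⧸ K, q ∈ T.P := fun q => by
      obtain ⟨g, rfl⟩ := hπs q
      exact Subgroup.mem_comap.1 (htop ▸ Subgroup.mem_top g)
    have hbot : commutator (G ⧸ K) = ⊥ := by
      rw [commutator_def, Subgroup.commutator_eq_bot_iff_le_centralizer]
      intro a _
      rw [Subgroup.mem_centralizer_iff]
      intro b _
      obtain ⟨i, rfl⟩ := Subgroup.mem_zpowers_iff.1 (hall a)
      obtain ⟨j, rfl⟩ := Subgroup.mem_zpowers_iff.1 (hall b)
      exact (Commute.zpow_zpow_self T.x j i).eq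
    have h1 : T.x ∈ (⊤ : Subgroup (G ⧸ K)) := Subgroup.mem_top _
    rw [← hQperf, hbot, Subgroup.mem_bot] at h1
    exact T.x_ne_one h1
  have hTL : Nat.card T.L ≤ Nat.card S.act.range := by
    have hV : ∀ v : S.V, ((v : S.L) : G) ∈ K := by
      intro v
      obtain ⟨c, hc⟩ := hscal v
      refine MonoidHom.mem_ker.2 (LinearMap.ext fun y => Subtype.ext ?_)
      rw [hσ₃a, adjRep_apply, Module.End.one_apply, hc, smul_mul_assoc, one_mul, smul_mul_assoc,
        show c • ((y : Module.End k U) * τ ((v : S.L) : G)⁻¹) =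
          (y : Module.End k U) * (τ ((v : S.L) : G) * τ ((v : S.L) : G)⁻¹) by
            rw [hc, smul_mul_assoc, one_mul, mul_smul_comm],
        ← map_mul, mul_inv_cancel, map_one, mul_one]
    let f : S.L →* T.L := (π.comp S.L.subtype).codRestrict T.L fun l => ⟨l, l.2, rfl⟩
    have hf : Function.Surjective f := by
      rintro ⟨_, l, hl, rfl⟩
      exact ⟨⟨l, hl⟩, rfl⟩
    have hker : S.V ≤ f.ker := fun v hv => MonoidHom.mem_ker.2 (Subtype.ext
      ((QuotientGroup.eq_one_iff _).2 (hV ⟨v, hv⟩)))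
    have h1 := Nat.card_le_card_of_surjective _
      (QuotientGroup.lift_surjective_of_surjective S.V f hf hker)
    rwa [Nat.card_congr (QuotientGroup.quotientKerEquivRange S.act).toEquiv] at h1
  -- the geometry
  set σQ : G ⧸ K →* Module.End k Y := QuotientGroup.lift σ₃.ker σ₃ le_rfl with hσQ
  have hσQπ : ∀ g, σQ (π g) = σ₃ g := fun g => rfl
  set B : Y →ₗ[k] Y →ₗ[k] k :=
    ((LinearMap.mul k (Module.End k U)).compr₂ (LinearMap.trace k U)).compl₁₂ Y.subtype Y.subtype with hB
  have h2k : (2 : k) ≠ 0 := fun h2 => by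
    have := Nat.le_of_dvd (by omega) ((CharP.cast_eq_zero_iff k p 2).1 (by exact_mod_cast h2))
    omega
  have hquad : IsQuad B := ⟨h2k, hYdim, fun v w => LinearMap.trace_mul_comm k _ _,
    fun v hv => Subtype.ext (hYnd v v.2 fun z hz => hv ⟨z, hz⟩)⟩
  have hinv : ∀ q v w, B (σQ q v) (σQ q w) = B v w := by
    intro q v w
    obtain ⟨g, rfl⟩ := hπs q
    exact trace_adjRep τ g v w
  have hx2 : (σQ T.x - 1) ^ 2 ≠ 0 := by
    intro h
    refine hy₀2 ?_
    have h1 := congrArg Subtype.val (LinearMap.congr_fun h ⟨y₀, hy₀⟩)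
    rw [sq, Module.End.mul_apply] at h1
    rw [sq, Module.End.mul_apply]
    simpa [delta, hTx, hσQπ, hσ₃a] using h1
  obtain ⟨h1, h2, h3, h4⟩ := rotation_group σQ (lift_ker_injective σ₃) B hquad hinv hQperf T h5 hx2
    (by omega) hTP
  obtain ⟨φ⟩ := psl_of_count hQperf T h5 h1 h2 h3 h4
  have hcardR : 2 * Nat.card S.act.range + 1 = p := by omega
  -- the centre
  have hZ : Subgroup.center G = K := by
    refine le_antisymm (fun z hz => ?_) hKc
    have hzc : π z ∈ Subgroup.center (G ⧸ K) := by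
      rw [Subgroup.mem_center_iff]
      intro q
      obtain ⟨g, rfl⟩ := hπs q
      rw [← map_mul, ← map_mul, Subgroup.mem_center_iff.1 hz g]
    have hle : Subgroup.center (G ⧸ K) ≤ T.P := h4 ▸ Subgroup.center_le_centralizer _
    refine (QuotientGroup.eq_one_iff z).1 ?_
    have : Fact (Nat.card T.P).Prime := ⟨T.card_P.symm ▸ hp.out⟩
    rcases Subgroup.eq_bot_or_eq_top_of_prime_card ((Subgroup.center (G ⧸ K)).subgroupOf T.P)
      with h | h
    · have h6 : (⟨π z, hle hzc⟩ : T.P) ∈ (⊥ : Subgroup T.P) := by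
        rw [← h]; exact hzc
      exact congrArg Subtype.val (Subgroup.mem_bot.1 h6)
    · exfalso
      refine hTP ?_
      have : T.P = Subgroup.center (G ⧸ K) := le_antisymm (fun u hu => by
        have h6 : (⟨u, hu⟩ : T.P) ∈ (Subgroup.center (G ⧸ K)).subgroupOf T.P := by
          rw [h]; exact Subgroup.mem_top _
        exact h6) hle
      rw [this]; infer_instance
  -- the Sylow count
  have hsyl : Nat.card (Sylow p G) = p + 1 := by
    have hfac : ∀ {X : Type _} [Group X] [Finite X] (R : Setup p X),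
        ∃ PS : Sylow p X, (PS : Subgroup X) = R.P := by
      intro X _ _ R
      have hfac : (Nat.card X).factorization p = 1 := by
        refine le_antisymm ?_ (hp.out.factorization_pos_of_dvd Nat.card_pos.ne' (setup_dvd R))
        by_contra h
        exact R.not_sq ((hp.out.pow_dvd_iff_le_factorization Nat.card_pos.ne').2 (by omega))
      exact ⟨Sylow.ofCard R.P (by rw [R.card_P, hfac, pow_one]), rfl⟩
    obtain ⟨PS, hPS⟩ := hfac S
    obtain ⟨PT, hPT⟩ := hfac T
    rw [← h1, Sylow.card_eq_index_normalizer PS, Sylow.card_eq_index_normalizer PT,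
      show (PS : Set G) = (S.P : Set G) from congrArg SetLike.coe hPS,
      show (PT : Set (G ⧸ K)) = (T.P : Set (G ⧸ K)) from congrArg SetLike.coe hPT,
      ← S.N_eq_normalizer, ← T.N_eq_normalizer, ← Subgroup.index_comap_of_surjective T.N hπs]
    congr 1
    ext g
    rw [Subgroup.mem_comap]
    constructor
    · intro hg
      obtain ⟨l, hl, u, hu, rfl⟩ := S.mem_N_iff.1 hg
      rw [map_mul]
      refine T.N.mul_mem (T.L_le_N ⟨l, hl, rfl⟩) (T.P_le_N ?_)
      obtain ⟨i, rfl⟩ := Subgroup.mem_zpowers_iff.1 hu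
      rw [map_zpow]
      exact Subgroup.zpow_mem _ (Subgroup.mem_zpowers _) i
    · intro hg
      exact S.mem_N_of_conj_mem (hexists g ((hg T.x).1 (Subgroup.mem_zpowers _)))
  exact ⟨hsyl, hcardR, ⟨(QuotientGroup.quotientMulEquivOfEq hZ).trans φ⟩⟩

end Core

/-- A group with a faithful representation of degree `(p + 1) / 2` whose reduction has a full
Jordan block at `x`, with automizer of order `(p - 1) / 2` and central `V`, is `PSL(2, p)` modulo
its centre. -/
theorem psl_of_half_succ {p : ℕ} [hp : Fact p.Prime] {G : Type*} [Group G] [Finite G]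
    (S : Setup p G) (hnn : ¬ S.P.Normal) (h7 : 7 < p) {d : ℕ} (hd : 2 * d = p + 1)
    (hrange : 2 * Nat.card S.act.range + 1 = p)
    (hV : ∀ v : S.V, ((v : S.L) : G) ∈ Subgroup.center G)
    (ρ : Representation ℂ G (Fin d → ℂ)) (hinj : Function.Injective ρ) {k : Type} [Field k]
    [IsAlgClosed k] [CharP k p] (σ : G →* Module.End k (Fin d → k))
    (hσ : (σ S.x - 1) ^ (d - 1) ≠ 0) :
    Nonempty ((G ⧸ Subgroup.center G) ≃*
      Matrix.ProjectiveSpecialLinearGroup (Fin 2) (ZMod p)) := by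
  classical
  set G₀ : Subgroup G := Subgroup.normalClosure {S.x} with hG₀
  have hx₀mem : S.x ∈ G₀ := Subgroup.subset_normalClosure rfl
  set y : G₀ := ⟨S.x, hx₀mem⟩ with hy
  have hyo : orderOf y = p := by rw [hy, Subgroup.orderOf_mk, S.orderOf_x]
  have hsq₀ : ¬ p ^ 2 ∣ Nat.card G₀ := fun h => S.not_sq (h.trans G₀.card_subgroup_dvd_card)
  have hdiv₀ : p ∣ Nat.card G₀ := by
    have := orderOf_dvd_natCard y
    rwa [hyo] at this
  obtain ⟨T, hT⟩ := exists_setup hdiv₀ hsq₀ (P := Subgroup.zpowers y) (by rw [Nat.card_zpowers, hyo])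
  have hyT : y ∈ T.P := hT ▸ Subgroup.mem_zpowers y
  have hgen : ∀ H : Subgroup G₀, H.Normal → T.x ∈ H → H = ⊤ := by
    intro H hH hxH
    have hPH : T.P ≤ H := Subgroup.zpowers_le.2 hxH
    have hall : ∀ z : G₀, orderOf z = p → z ∈ H := by
      intro z hz
      obtain ⟨c, hc⟩ := exists_conj_mem T hz
      have := hH.conj_mem _ (hPH hc) c⁻¹
      simpa [mul_assoc] using this
    have hle : G₀ ≤ H.map G₀.subtype := by
      refine le_trans (le_of_eq hG₀) ((Subgroup.closure_le _).2 fun z hz => ?_)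
      obtain ⟨a, rfl, ha⟩ := Group.mem_conjugatesOfSet_iff.1 hz
      obtain ⟨c, rfl⟩ := isConj_iff.1 ha
      have hzmem : c * S.x * c⁻¹ ∈ G₀ := Subgroup.Normal.conj_mem inferInstance _ hx₀mem c
      refine ⟨⟨_, hzmem⟩, hall _ ?_, rfl⟩
      rw [Subgroup.orderOf_mk, show orderOf (c * S.x * c⁻¹) = orderOf S.x from
        (MulAut.conj c).orderOf_eq _, S.orderOf_x]
    rw [eq_top_iff]
    rintro z -
    obtain ⟨z', hz', e⟩ := hle z.2
    rwa [← Subtype.ext e]
  have hTP : ¬ T.P.Normal := by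
    intro hn
    have htop := hgen T.P hn (Subgroup.mem_zpowers _)
    have hc : Nat.card G₀ = p := by rw [← Subgroup.card_top (G := G₀), ← htop, T.card_P]
    have heq : S.P = G₀ :=
      Subgroup.eq_of_le_of_card_ge (Subgroup.zpowers_le.2 hx₀mem) (by rw [hc, S.card_P])
    exact hnn (heq ▸ (inferInstance : G₀.Normal))
  let ρ₀ : Representation ℂ G₀ (Fin d → ℂ) :=
    (ρ : G →* Module.End ℂ (Fin d → ℂ)).comp G₀.subtype
  have hρ₀ : Function.Injective ρ₀ := fun a b h => Subtype.ext (hinj h)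
  obtain ⟨k', _, _, _, σ', hσ'⟩ := exists_faithful_reduction T hgen hTP ρ₀ hρ₀
  obtain ⟨hperf, hcent⟩ := perfect_and_central T hgen hTP (d := d) (by omega) σ' hσ'
  -- compare the automizers
  have hpowT : ∀ (g : G) (u : (ZMod p)ˣ), g * S.x * g⁻¹ = S.x ^ (u : ZMod p).val →
      u ∈ S.act.range := by
    intro g u hg
    obtain ⟨l, hl, w, hw, rfl⟩ := S.exists_mul g (by
      rw [hg]; exact Subgroup.pow_mem _ (Subgroup.mem_zpowers _) _)
    refine ⟨⟨l, hl⟩, Units.ext (S.x_pow_val_inj ?_)⟩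
    rw [← S.act_spec, ← hg]
    obtain ⟨n, rfl⟩ := Subgroup.mem_zpowers_iff.1 hw
    group
  obtain ⟨n₀, hn₀⟩ := (mem_powers_iff_mem_zpowers).2 (show T.x ∈ Subgroup.zpowers y by
    rw [← hT]; exact Subgroup.mem_zpowers _)
  change y ^ n₀ = T.x at hn₀
  obtain ⟨m₀, hm₀⟩ := (mem_powers_iff_mem_zpowers).2 hyT
  change T.x ^ m₀ = y at hm₀
  have hsub : T.act.range ≤ S.act.range := by
    rintro _ ⟨l, rfl⟩
    refine hpowT ((l : G₀) : G) _ ?_
    have h1 := T.conj_x_pow l m₀
    rw [mul_comm, pow_mul, hm₀] at h1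
    exact congrArg Subtype.val h1
  -- the restriction of the modular representation is a single block
  have hblock : delta (σ.comp G₀.subtype) T.x ^ (d - 1) ≠ 0 := by
    rw [delta, MonoidHom.comp_apply, show G₀.subtype T.x = S.x ^ n₀ from
      (congrArg Subtype.val hn₀).symm, map_pow]
    exact block_pow (σ S.x) (d := d) (finrank_fin_fun k) (delta_pow_finrank σ S.orderOf_x) hσ
      (fun h => T.x_ne_one (by
        obtain ⟨j, rfl⟩ := (CharP.cast_eq_zero_iff k p n₀).1 h
        rw [← hn₀, pow_mul, ← hyo, pow_orderOf_eq_one, one_pow]))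
  obtain ⟨W, _, _, _, τ₀, hW, hτ₀⟩ := exists_small_rep T (σ.comp G₀.subtype) (e := d - 1)
    (by rw [finrank_fin_fun]; omega) (by omega)
    (by have := hp.out.two_le; have hodd := hp.out.odd_of_ne_two (by omega)
        obtain ⟨j, hj⟩ := hodd
        have h9 : p ≠ 9 := fun h => absurd (h ▸ hp.out) (by norm_num)
        omega) hblock
  have hcardle : Nat.card T.act.range ≤ Nat.card S.act.range :=
    Subgroup.card_le_of_le hsub
  obtain ⟨hsyl, hrange₀, ⟨iso⟩⟩ := half_core T hgen hperf hcent (by omega) (by omega) τ₀ hW hτ₀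
  have hrangeEq : T.act.range = S.act.range :=
    Subgroup.eq_of_le_of_card_ge hsub (by omega)
  -- `G₀` and the centre generate
  have hgenG : ∀ g : G, g ∈ G₀ ⊔ Subgroup.center G := by
    intro g
    have hgxo : orderOf (⟨g * S.x * g⁻¹, Subgroup.Normal.conj_mem inferInstance _ hx₀mem g⟩ : G₀) = p := by
      rw [Subgroup.orderOf_mk, show orderOf (g * S.x * g⁻¹) = orderOf S.x from
        (MulAut.conj g).orderOf_eq _, S.orderOf_x]
    obtain ⟨h, hh⟩ := exists_conj_mem T hgxo
    rw [hT] at hh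
    obtain ⟨i, hi⟩ := Subgroup.mem_zpowers_iff.1 hh
    have hconj : ((h : G) * g) * S.x * ((h : G) * g)⁻¹ = S.x ^ i := by
      have h1 := congrArg Subtype.val hi
      simp only [Subgroup.coe_mul, Subgroup.coe_inv, SubgroupClass.coe_zpow, hy] at h1
      rw [h1]; group
    obtain ⟨l, hl, u, hu, hlu⟩ := S.exists_mul ((h : G) * g) (by
      rw [hconj]; exact Subgroup.zpow_mem _ (Subgroup.mem_zpowers _) i)
    obtain ⟨l₀, hl₀⟩ : S.act ⟨l, hl⟩ ∈ T.act.range := hrangeEq ▸ ⟨⟨l, hl⟩, rfl⟩
    set w := ((l₀ : G₀) : G)⁻¹ * l with hw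
    have h1 : ((l₀ : G₀) : G) * S.x * ((l₀ : G₀) : G)⁻¹ = l * S.x * l⁻¹ := by
      have h2 := T.conj_x_pow l₀ m₀
      rw [mul_comm, pow_mul, hm₀] at h2
      have h3 : ((l₀ : G₀) : G) * S.x * ((l₀ : G₀) : G)⁻¹ = S.x ^ (T.act l₀ : ZMod p).val :=
        congrArg Subtype.val h2
      rw [h3, hl₀]
      exact (S.act_spec ⟨l, hl⟩).symm
    have hwx : Commute w S.x := by
      rw [commute_iff_eq, hw, ← mul_inv_eq_iff_eq_mul,
        show ((l₀ : G₀) : G)⁻¹ * l * S.x * (((l₀ : G₀) : G)⁻¹ * l)⁻¹ =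
          ((l₀ : G₀) : G)⁻¹ * (l * S.x * l⁻¹) * ((l₀ : G₀) : G) by group, ← h1]
      group
    obtain ⟨l₁, hl₁, u₁, hu₁, hw'⟩ := S.exists_mul w (by
      rw [hwx.eq, mul_inv_cancel_right]; exact Subgroup.mem_zpowers _)
    have hl₁V : (⟨l₁, hl₁⟩ : S.L) ∈ S.V := by
      refine MonoidHom.mem_ker.2 (Units.ext (S.x_pow_val_inj ?_))
      rw [← S.act_spec, Units.val_one, ZMod.val_one, pow_one]
      obtain ⟨n, rfl⟩ := Subgroup.mem_zpowers_iff.1 hu₁
      have hcw : w * S.x * w⁻¹ = S.x := by rw [hwx.eq, mul_inv_cancel_right]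
      rw [hw'] at hcw
      conv_rhs => rw [← hcw]
      group
    have hPG : ∀ u ∈ S.P, u ∈ G₀ := fun u hu => Subgroup.zpowers_le.2 hx₀mem hu
    have hwmem : w ∈ G₀ ⊔ Subgroup.center G := by
      rw [hw']
      exact Subgroup.mul_mem _ (Subgroup.mem_sup_right (hV ⟨_, hl₁V⟩))
        (Subgroup.mem_sup_left (hPG _ hu₁))
    have hl' : l ∈ G₀ ⊔ Subgroup.center G := by
      rw [show l = ((l₀ : G₀) : G) * w by rw [hw]; group]
      exact Subgroup.mul_mem _ (Subgroup.mem_sup_left (Subtype.coe_prop _)) hwmem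
    rw [show g = (h : G)⁻¹ * (l * u) by rw [← hlu]; group]
    exact Subgroup.mul_mem _ (Subgroup.mem_sup_left (G₀.inv_mem h.2))
      (Subgroup.mul_mem _ hl' (Subgroup.mem_sup_left (hPG _ hu)))
  -- transport
  let f : G₀ →* G ⧸ Subgroup.center G := (QuotientGroup.mk' (Subgroup.center G)).comp G₀.subtype
  have hf : Function.Surjective f := by
    intro q
    obtain ⟨g, rfl⟩ := QuotientGroup.mk'_surjective _ q
    obtain ⟨a, ha, z, hz, rfl⟩ := Subgroup.mem_sup_of_normal_right.1 (hgenG g)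
    refine ⟨⟨a, ha⟩, ?_⟩
    show QuotientGroup.mk' _ a = _
    rw [map_mul, show QuotientGroup.mk' (Subgroup.center G) z = 1 from (QuotientGroup.eq_one_iff z).2 hz,
      mul_one]
  have hker : f.ker = Subgroup.center G₀ := by
    ext a
    rw [MonoidHom.mem_ker]
    show QuotientGroup.mk' _ (a : G) = 1 ↔ _
    rw [QuotientGroup.mk'_apply, QuotientGroup.eq_one_iff]
    constructor
    · intro ha
      rw [Subgroup.mem_center_iff]
      exact fun b => Subtype.ext (Subgroup.mem_center_iff.1 ha b)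
    · intro ha
      rw [Subgroup.mem_center_iff]
      intro g
      obtain ⟨b, hb, z, hz, rfl⟩ := Subgroup.mem_sup_of_normal_right.1 (hgenG g)
      have h1 : b * (a : G) = (a : G) * b :=
        congrArg Subtype.val (Subgroup.mem_center_iff.1 ha ⟨b, hb⟩)
      have h2 := Subgroup.mem_center_iff.1 hz (a : G)
      rw [mul_assoc, ← h2, ← mul_assoc, h1, mul_assoc]
  exact ⟨((QuotientGroup.quotientKerEquivOfSurjective f hf).symm.trans
    (QuotientGroup.quotientMulEquivOfEq hker)).trans iso⟩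

end Cfsg.Agent.H40.SmallDeg
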