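import Mathlib
import Cfsg.Agent.H40.SmallDeg.Count
import Cfsg.Agent.H40.SmallDeg.HalfMain
import Cfsg.Agent.H42.SmallFaithful.Main
import Cfsg.Agent.S4503

/-!
A faithful irreducible character of degree below `p - 2` when the centre has odd order.
-/

set_option autoImplicit false
set_option maxHeartbeats 1000000
set_option linter.unusedSectionVars false

namespace Cfsg.Agent.H40.SmallDeg

open Matrix IsLocalRing Cfsg.Agent.H43.D1
open Cfsg.Agent.H31.Defect (red toK)
open Cfsg.Agent.H43 (irr_charDegree_spec irr_charDegree_pos)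

attribute [local instance] Fintype.ofFinite

theorem main {p : ℕ} [hp : Fact p.Prime] {G : Type*} [Group G] [Finite G]
    (hZ : Odd (Nat.card (Subgroup.center G))) (h7 : 7 < p) (P : Sylow p G) (hP : Nat.card P = p)
    (hnn : ¬ (P : Subgroup G).Normal) (χ : Cfsg.IrrCharacter G)
    (hfaith : ∀ g, χ.1 g = χ.1 1 → g = 1) (hd : Cfsg.charDegree χ.1 + 2 < p) :
    Nonempty ((G ⧸ Subgroup.center G) ≃*
      Matrix.ProjectiveSpecialLinearGroup (Fin 2) (ZMod p)) ∧
      (2 * Cfsg.charDegree χ.1 = p + 1 ∨ 2 * Cfsg.charDegree χ.1 = p - 1) := by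
  classical
  set d := Cfsg.charDegree χ.1 with hdd
  have hdiv : p ∣ Nat.card G := hP ▸ Subgroup.card_subgroup_dvd_card _
  have hsq : ¬ p ^ 2 ∣ Nat.card G := fun h => by
    have h2 := P.pow_dvd_card_of_pow_dvd_card h
    rw [hP] at h2
    have := Nat.le_of_dvd hp.out.pos h2
    nlinarith
  have hno : ∀ H : Subgroup G, H.Normal → Nat.card H ≠ p := by
    intro H hH hc
    refine hnn ?_
    have hHp : IsPGroup p H := IsPGroup.of_card (n := 1) (by rw [hc, pow_one])
    have := P.is_maximal' (P.isPGroup'.to_sup_of_normal_right hHp) le_sup_left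
    rw [← Subgroup.eq_of_le_of_card_ge (le_sup_right.trans this.le) (le_of_eq (hP.trans hc.symm))]
    exact hH
  have hchar : Cfsg.IsCharacter G χ.1 := H26.irr_isCharacter χ
  have hlo := Cfsg.Agent.S4503.result p hp.out hdiv hsq hno χ.1 hchar hfaith
  rw [← hdd] at hlo
  rcases Nat.lt_or_ge (2 * d) p with hlt | hge
  · exact ⟨H42.SmallFaithful.main hdiv hsq hno χ.1 hchar hfaith (by omega), Or.inr (by omega)⟩
  obtain ⟨S, hS⟩ := exists_setup hdiv hsq (P := (P : Subgroup G)) hP
  have hSnn : ¬ S.P.Normal := by rwa [hS]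
  obtain ⟨hV, hde, c₀, hmult⟩ := shape S hSnn χ hfaith hge (by omega)
  obtain ⟨O, hO⟩ := H44.exists_valuationSubring_natCast_mem p
  obtain ⟨d', R, htr, -⟩ := H31.Defect.exists_complex_lattice O χ
  have hd' : d' = d := by
    have h := htr 1
    rw [map_one, map_one, Matrix.trace_one, Fintype.card_fin, irr_charDegree_spec] at h
    exact_mod_cast h
  subst hd'
  have H : Piece S O R c₀ :=
    ⟨hO, fun Φ hΦ => H31.Defect.schur_of_char χ ((toK O (Fin _)).toMonoidHom.comp R) htr hΦ,
      hde, by omega, fun c => hmult ((toK O (Fin _)).toMonoidHom.comp R) htr c⟩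
  have he : Even (Nat.card S.act.range) := by
    by_contra hodd
    refine Piece.odd_case S H χ htr ?_
    rw [← S.act.ker.card_mul_index, Subgroup.index_ker]
    refine Odd.mul ?_ (Nat.not_even_iff_odd.1 hodd)
    let f : S.V →* Subgroup.center G :=
      (S.L.subtype.comp S.V.subtype).codRestrict _ fun v => hV v
    refine Odd.of_dvd_nat hZ (Subgroup.card_dvd_of_injective f fun a b h => ?_)
    exact Subtype.ext (Subtype.ext (congrArg (fun z : Subgroup.center G => (z : G)) h))
  rcases Piece.even_case S H χ htr hV he with h2 | h1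
  · omega
  refine ⟨?_, Or.inl (by omega)⟩
  haveI := isAlgClosed_residueField O
  haveI : CharP (ResidueField O) p := (CharP.charP_iff_prime_eq_zero hp.out).2 (by
    rw [← map_natCast (residue O), residue_eq_zero_iff]; exact hO)
  obtain ⟨n, ρ, -, hρ⟩ := χ.2
  have hn : n = d := by
    have h := irr_charDegree_spec χ
    rw [← congrFun hρ 1, Representation.char_one] at h
    simpa using (show Module.finrank ℂ (Fin n → ℂ) = d by exact_mod_cast h)
  subst hn
  have hinj : Function.Injective ρ := by
    refine (injective_iff_map_eq_one (ρ : G →* Module.End ℂ _)).2 fun g hg => hfaith g ?_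
    rw [← congrFun hρ g, ← congrFun hρ 1, Representation.character, Representation.character, hg,
      map_one ρ]
  refine psl_of_half_succ S hSnn h7 (by omega) (by omega) hV ρ hinj
    (Matrix.toLinAlgEquiv'.toMonoidHom.comp ((red O (Fin _)).toMonoidHom.comp R)) ?_
  intro h0
  refine Piece.red_pow_pred S H (Matrix.toLinAlgEquiv'.injective ?_)
  rw [map_pow, map_sub, map_one, map_zero]
  exact h0

end Cfsg.Agent.H40.SmallDeg
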