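import Mathlib
import Cfsg.Agent.H40.SmallDeg.Main

/-!
The number of classes of elements of order `p` when `p` divides the group order once, and the
automizer for a faithful character of degree `(p - 1) / 2`.
-/

set_option autoImplicit false
set_option maxHeartbeats 1000000
set_option linter.unusedSectionVars false

namespace Cfsg.Agent.H40.SmallDeg

open Module Cfsg.Agent.H43.D1

attribute [local instance] Fintype.ofFinite

variable {p : ℕ} [hp : Fact p.Prime] {G : Type*} [Group G] [Finite G] (S : Setup p G)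

/-- An element carrying a power of `x` to another one gives an element of the automizer. -/
theorem mem_range_of_conj {g : G} {i j : (ZMod p)ˣ}
    (h : g * S.x ^ (i : ZMod p).val * g⁻¹ = S.x ^ (j : ZMod p).val) : j * i⁻¹ ∈ S.act.range := by
  have hx : S.x ^ ((i : ZMod p).val * ((i⁻¹ : (ZMod p)ˣ) : ZMod p).val) = S.x := by
    conv_rhs => rw [← pow_one S.x]
    rw [S.x_pow_eq_iff, Nat.cast_mul, ZMod.natCast_zmod_val, ZMod.natCast_zmod_val, Units.mul_inv,
      Nat.cast_one]
  have hg : g * S.x * g⁻¹ = S.x ^ ((j * i⁻¹ : (ZMod p)ˣ) : ZMod p).val := by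
    conv_lhs => rw [← hx, pow_mul, ← conj_pow, h, ← pow_mul]
    rw [S.x_pow_eq_iff, Nat.cast_mul, ZMod.natCast_zmod_val, ZMod.natCast_zmod_val,
      ZMod.natCast_zmod_val, Units.val_mul]
  obtain ⟨l, hl, w, hw, rfl⟩ := S.exists_mul g (by
    rw [hg]; exact Subgroup.pow_mem _ (Subgroup.mem_zpowers _) _)
  refine ⟨⟨l, hl⟩, Units.ext (S.x_pow_val_inj ?_)⟩
  rw [← S.act_spec, ← hg]
  obtain ⟨n, rfl⟩ := Subgroup.mem_zpowers_iff.1 hw
  group

/-- The classes of elements of order `p` correspond to the cosets of the automizer. -/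
theorem card_classes_mul_card_range :
    Nat.card {c : ConjClasses G // ∃ g : G, ConjClasses.mk g = c ∧ orderOf g = p} *
      Nat.card S.act.range = p - 1 := by
  classical
  let f : (ZMod p)ˣ → {c : ConjClasses G // ∃ g : G, ConjClasses.mk g = c ∧ orderOf g = p} :=
    fun i => ⟨ConjClasses.mk (S.x ^ (i : ZMod p).val), _, rfl, S.orderOf_x_pow i⟩
  have hf : ∀ i j : (ZMod p)ˣ, f i = f j ↔ i⁻¹ * j ∈ S.act.range := by
    intro i j
    rw [Subtype.ext_iff]
    show ConjClasses.mk _ = ConjClasses.mk _ ↔ _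
    rw [ConjClasses.mk_eq_mk_iff_isConj, isConj_iff]
    constructor
    · rintro ⟨g, hg⟩
      rw [mul_comm]
      exact mem_range_of_conj S hg
    · rintro ⟨l, hl⟩
      refine ⟨(l : G), ?_⟩
      rw [S.conj_x_pow, S.x_pow_eq_iff, Nat.cast_mul, ZMod.natCast_zmod_val, ZMod.natCast_zmod_val,
        ZMod.natCast_zmod_val, hl, ← Units.val_mul, mul_comm, mul_inv_cancel_left]
  have hsurj : Function.Surjective f := by
    rintro ⟨c, g, hg, hgo⟩
    obtain ⟨w, i, v, hw⟩ := S.exists_conj_sing (show p ∣ orderOf g by rw [hgo])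
    refine ⟨i, Subtype.ext ?_⟩
    show ConjClasses.mk (S.x ^ (i : ZMod p).val) = c
    have hcomm : Commute (S.x ^ (i : ZMod p).val) ((v : S.L) : G) :=
      ((S.commute_of_mem_V v.2).symm).pow_left _
    have hsp : S.sing i v ^ p = 1 := by
      have h1 : g ^ p = 1 := by rw [← hgo]; exact pow_orderOf_eq_one g
      rw [← hw, conj_pow] at h1
      exact conj_eq_one_iff.1 h1
    rw [Setup.sing, hcomm.mul_pow, ← pow_mul, mul_comm (i : ZMod p).val p, pow_mul, S.x_pow_p,
      one_pow, one_mul] at hsp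
    have hv : ((v : S.L) : G) = 1 := by
      rcases (Nat.dvd_prime hp.out).1 (orderOf_dvd_of_pow_eq_one hsp) with h | h
      · exact orderOf_eq_one_iff.1 h
      · exact absurd (dvd_of_eq h.symm) (S.not_dvd_orderOf_L _)
    rw [← hg, ← hw, Setup.sing, hv, mul_one, ConjClasses.mk_eq_mk_iff_isConj, isConj_iff]
    exact ⟨w, rfl⟩
  let e : (ZMod p)ˣ ⧸ S.act.range ≃
      {c : ConjClasses G // ∃ g : G, ConjClasses.mk g = c ∧ orderOf g = p} := by
    refine Equiv.ofBijective (Quotient.lift f fun a b hab => (hf a b).2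
      (QuotientGroup.leftRel_apply.1 hab)) ⟨?_, fun c => ?_⟩
    · rintro ⟨a⟩ ⟨b⟩ hab
      exact Quotient.sound (QuotientGroup.leftRel_apply.2 ((hf a b).1 hab))
    · obtain ⟨i, hi⟩ := hsurj c
      exact ⟨Quotient.mk'' i, hi⟩
  rw [← Nat.card_congr e, ← Subgroup.index, Subgroup.index_mul_card, Nat.card_eq_fintype_card,
    ZMod.card_units]

/-- A faithful character of degree `(p - 1) / 2` makes the automizer of index two. -/
theorem card_range_of_half_pred (hnn : ¬ S.P.Normal) {χ : G → ℂ} (hχ : Cfsg.IsCharacter G χ)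
    (hfaith : ∀ g : G, χ g = χ 1 → g = 1) (hdeg : 2 * Cfsg.charDegree χ + 1 = p) :
    2 * Nat.card S.act.range + 1 = p := by
  classical
  obtain ⟨d, ρ, rfl⟩ := hχ
  have hinj : Function.Injective ρ := by
    refine (injective_iff_map_eq_one (ρ : G →* Module.End ℂ (Fin d → ℂ))).2 fun g hg => hfaith g ?_
    show LinearMap.trace ℂ _ (ρ g) = LinearMap.trace ℂ _ (ρ 1)
    rw [hg, map_one ρ]
  have hdd : Cfsg.charDegree ρ.character = d := by
    rw [Cfsg.charDegree, ρ.char_one]; simp
  rw [hdd] at hdeg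
  set G₀ : Subgroup G := Subgroup.normalClosure {S.x} with hG₀
  have hxmem : S.x ∈ G₀ := Subgroup.subset_normalClosure rfl
  set y : G₀ := ⟨S.x, hxmem⟩ with hy
  have hyo : orderOf y = p := by rw [hy, Subgroup.orderOf_mk, S.orderOf_x]
  have hsq₀ : ¬ p ^ 2 ∣ Nat.card G₀ := fun h => S.not_sq (h.trans G₀.card_subgroup_dvd_card)
  have hdiv₀ : p ∣ Nat.card G₀ := by
    have := orderOf_dvd_natCard y
    rwa [hyo] at this
  obtain ⟨T, hT⟩ := exists_setup hdiv₀ hsq₀ (P := Subgroup.zpowers y)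
    (by rw [Nat.card_zpowers, hyo])
  have hyT : y ∈ T.P := hT ▸ Subgroup.mem_zpowers y
  have hgen : ∀ H : Subgroup G₀, H.Normal → T.x ∈ H → H = ⊤ := by
    intro H hH hxH
    have hPH : T.P ≤ H := Subgroup.zpowers_le.2 hxH
    have hall : ∀ z : G₀, orderOf z = p → z ∈ H := by
      intro z hz
      obtain ⟨c, hc⟩ := H42.SmallFaithful.exists_conj_mem T hz
      have := hH.conj_mem _ (hPH hc) c⁻¹
      simpa [mul_assoc] using this
    have hle : G₀ ≤ H.map G₀.subtype := by
      refine le_trans (le_of_eq hG₀) ((Subgroup.closure_le _).2 fun z hz => ?_)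
      obtain ⟨a, rfl, ha⟩ := Group.mem_conjugatesOfSet_iff.1 hz
      obtain ⟨c, rfl⟩ := isConj_iff.1 ha
      have hzmem : c * S.x * c⁻¹ ∈ G₀ := Subgroup.Normal.conj_mem inferInstance _ hxmem c
      refine ⟨⟨_, hzmem⟩, hall _ ?_, rfl⟩
      rw [Subgroup.orderOf_mk, show orderOf (c * S.x * c⁻¹) = orderOf S.x from
        (MulAut.conj c).orderOf_eq _, S.orderOf_x]
    rw [eq_top_iff]
    rintro z -
    obtain ⟨z', hz', e⟩ := hle z.2
    rwa [← Subtype.ext e]
  have hTP : ¬ T.P.Normal := by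
    intro hn
    have htop := hgen T.P hn (Subgroup.mem_zpowers _)
    refine hnn ?_
    have hc : Nat.card G₀ = p := by rw [← Subgroup.card_top (G := G₀), ← htop, T.card_P]
    rw [show S.P = G₀ from Subgroup.eq_of_le_of_card_ge (Subgroup.zpowers_le.2 hxmem)
      (by rw [hc, S.card_P])]
    infer_instance
  obtain ⟨-, -, -, hrange₀, -⟩ := H42.SmallFaithful.core T hgen hTP
    ((ρ : G →* Module.End ℂ (Fin d → ℂ)).comp G₀.subtype) (fun a b h => Subtype.ext (hinj h)) hdeg
  obtain ⟨m₀, hm₀⟩ := (mem_powers_iff_mem_zpowers).2 hyT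
  change T.x ^ m₀ = y at hm₀
  have hsub : T.act.range ≤ S.act.range := by
    rintro _ ⟨l, rfl⟩
    have h1 := T.conj_x_pow l m₀
    rw [mul_comm, pow_mul, hm₀] at h1
    have h2 : ((l : G₀) : G) * S.x ^ ((1 : (ZMod p)ˣ) : ZMod p).val * ((l : G₀) : G)⁻¹ =
        S.x ^ (T.act l : ZMod p).val := by
      rw [Units.val_one, ZMod.val_one, pow_one]
      exact congrArg Subtype.val h1
    have h3 := mem_range_of_conj S h2
    rwa [inv_one, mul_one] at h3
  have hle : Nat.card S.act.range ≤ d := by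
    have := H42.SmallFaithful.act_card_le S (ρ : G →* Module.End ℂ (Fin d → ℂ))
      (fun h => S.x_ne_one (hinj (by rw [h, map_one])))
    rwa [finrank_fin_fun] at this
  have hge : d ≤ Nat.card S.act.range := hrange₀ ▸ Subgroup.card_le_of_le hsub
  omega

end Cfsg.Agent.H40.SmallDeg
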