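import Mathlib
import Cfsg.Agent.H40.SmallDeg.ClassCount

/-!
A faithful character of degree below `p - 1`: the cases, given the bound for an automizer of odd
order.
-/

set_option autoImplicit false
set_option maxHeartbeats 1000000
set_option linter.unusedSectionVars false

namespace Cfsg.Agent.H40.SmallDeg

open Matrix IsLocalRing Cfsg.Agent.H43.D1
open Cfsg.Agent.H31.Defect (red toK)
open Cfsg.Agent.H43 (irr_charDegree_spec irr_charDegree_pos)

attribute [local instance] Fintype.ofFinite

/-- The bound for an automizer of odd order. -/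
def OddGap (p : ℕ) (G : Type*) [Group G] [Finite G] [Fact p.Prime] : Prop :=
  ∀ (S : Setup p G) (O : ValuationSubring ℂ) (d : ℕ) (R : G →* Matrix (Fin d) (Fin d) O)
    (c₀ : (ZMod p)ˣ), ¬ S.P.Normal → Piece S O R c₀ → ∀ χ : Cfsg.IrrCharacter G,
      (∀ g, χ.1 g = χ.1 1 → g = 1) → Cfsg.charDegree χ.1 = d →
      (∀ g, (toK O (Fin d) (R g)).trace = χ.1 g) →
      (∀ v : S.V, ((v : S.L) : G) ∈ Subgroup.center G) → ¬ Even (Nat.card S.act.range) →
      ∀ t : ℕ, Nat.card S.act.range * t = p - 1 → 2 < t → Nat.card S.act.range + 3 ≤ t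

/-- The two inequalities from `e + 3 ≤ t`. -/
theorem bounds_of_gap {p d e t : ℕ} (hp : 1 < p) (hd : d + e = p) (ht : e * t = p - 1)
    (hgap : e + 3 ≤ t) :
    (p : ℝ) + 3 / 2 - Real.sqrt ((p : ℝ) + 5 / 4) ≤ (d : ℝ) ∧
      (p : ℤ) ≤ (t : ℤ) ^ 2 - 3 * t + 1 := by
  have hp' : (p : ℝ) = (e : ℝ) * t + 1 := by
    have : p = e * t + 1 := by omega
    exact_mod_cast this
  have hd' : (d : ℝ) + e = p := by exact_mod_cast hd
  refine ⟨?_, ?_⟩
  · have hs : (e : ℝ) + 3 / 2 ≤ Real.sqrt ((p : ℝ) + 5 / 4) := by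
      refine Real.le_sqrt_of_sq_le ?_
      have hg : (e : ℝ) + 3 ≤ t := by exact_mod_cast hgap
      have := mul_le_mul_of_nonneg_left hg (Nat.cast_nonneg (α := ℝ) e)
      nlinarith
    linarith
  · have hpz : (p : ℤ) = (e : ℤ) * t + 1 := by
      have : p = e * t + 1 := by omega
      exact_mod_cast this
    have hg : (e : ℤ) + 3 ≤ t := by exact_mod_cast hgap
    have := mul_le_mul_of_nonneg_right hg (Int.natCast_nonneg t)
    nlinarith

/-- All cases of the classification by the number of classes of elements of order `p`. -/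
theorem bound {p : ℕ} [hp : Fact p.Prime] {G : Type*} [Group G] [Finite G] (gap : OddGap p G)
    (h7 : 7 < p) (P : Sylow p G) (hP : Nat.card P = p)
    (hnn : ¬ (P : Subgroup G).Normal) (χ : Cfsg.IrrCharacter G)
    (hfaith : ∀ g, χ.1 g = χ.1 1 → g = 1) (hd : Cfsg.charDegree χ.1 + 1 < p) (t : ℕ)
    (ht : Nat.card {c : ConjClasses G // ∃ g : G, ConjClasses.mk g = c ∧ orderOf g = p} = t) :
    (Nonempty ((G ⧸ Subgroup.center G) ≃*
      Matrix.ProjectiveSpecialLinearGroup (Fin 2) (ZMod p)) ∧
      (2 * Cfsg.charDegree χ.1 = p + 1 ∨ 2 * Cfsg.charDegree χ.1 = p - 1) ∧ t = 2) ∨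
    ((p : ℝ) + 3 / 2 - Real.sqrt ((p : ℝ) + 5 / 4) ≤ (Cfsg.charDegree χ.1 : ℝ) ∧
      (p : ℤ) ≤ (t : ℤ) ^ 2 - 3 * t + 1) := by
  classical
  set d := Cfsg.charDegree χ.1 with hdd
  have hdiv : p ∣ Nat.card G := hP ▸ Subgroup.card_subgroup_dvd_card _
  have hsq : ¬ p ^ 2 ∣ Nat.card G := fun h => by
    have h2 := P.pow_dvd_card_of_pow_dvd_card h
    rw [hP] at h2
    have := Nat.le_of_dvd hp.out.pos h2
    nlinarith
  have hno : ∀ H : Subgroup G, H.Normal → Nat.card H ≠ p := by
    intro H hH hc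
    refine hnn ?_
    have hHp : IsPGroup p H := IsPGroup.of_card (n := 1) (by rw [hc, pow_one])
    have := P.is_maximal' (P.isPGroup'.to_sup_of_normal_right hHp) le_sup_left
    rw [← Subgroup.eq_of_le_of_card_ge (le_sup_right.trans this.le) (le_of_eq (hP.trans hc.symm))]
    exact hH
  obtain ⟨S, hS⟩ := exists_setup hdiv hsq (P := (P : Subgroup G)) hP
  have hSnn : ¬ S.P.Normal := by rwa [hS]
  have hte : Nat.card S.act.range * t = p - 1 := by
    rw [← ht, mul_comm]
    exact card_classes_mul_card_range S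
  have hchar : Cfsg.IsCharacter G χ.1 := H26.irr_isCharacter χ
  have hlo := Cfsg.Agent.S4503.result p hp.out hdiv hsq hno χ.1 hchar hfaith
  rw [← hdd] at hlo
  rcases Nat.lt_or_ge (2 * d) p with hlt | hge
  · refine Or.inl ⟨H42.SmallFaithful.main hdiv hsq hno χ.1 hchar hfaith (by omega),
      Or.inr (by omega), ?_⟩
    have he := card_range_of_half_pred S hSnn hchar hfaith (by omega)
    refine Nat.eq_of_mul_eq_mul_left (Nat.card_pos (α := S.act.range)) ?_
    omega
  obtain ⟨hV, hde, c₀, hmult⟩ := shape S hSnn χ hfaith hge (by omega)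
  obtain ⟨O, hO⟩ := H44.exists_valuationSubring_natCast_mem p
  obtain ⟨d', R, htr, -⟩ := H31.Defect.exists_complex_lattice O χ
  have hd' : d' = d := by
    have h := htr 1
    rw [map_one, map_one, Matrix.trace_one, Fintype.card_fin, irr_charDegree_spec] at h
    exact_mod_cast h
  subst hd'
  have H : Piece S O R c₀ :=
    ⟨hO, fun Φ hΦ => H31.Defect.schur_of_char χ ((toK O (Fin _)).toMonoidHom.comp R) htr hΦ,
      hde, by omega, fun c => hmult ((toK O (Fin _)).toMonoidHom.comp R) htr c⟩
  have hcases : ((p : ℝ) + 3 / 2 - Real.sqrt ((p : ℝ) + 5 / 4) ≤ (d : ℝ) ∧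
      (p : ℤ) ≤ (t : ℤ) ^ 2 - 3 * t + 1) ∨ Nat.card S.act.range * 2 = p - 1 := by
    by_cases he : Even (Nat.card S.act.range)
    · rcases Piece.even_case S H χ htr hV he with h2 | h1
      · rw [h2] at hte
        have h9 : p ≠ 9 := fun h => absurd hp.out (by rw [h]; norm_num)
        exact Or.inl (bounds_of_gap (e := 2) hp.out.one_lt (by omega) hte (by omega))
      · exact Or.inr (by omega)
    · rcases Nat.lt_or_ge 2 t with h3 | h2
      · exact Or.inl (bounds_of_gap hp.out.one_lt hde hte
          (gap S O d R c₀ hSnn H χ hfaith rfl htr hV he t hte h3))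
      · interval_cases t
        · omega
        · refine absurd ?_ he
          rw [show Nat.card S.act.range = p - 1 by omega]
          exact hp.out.even_sub_one (by omega)
        · exact Or.inr hte
  rcases hcases with hb | h1
  · exact Or.inr hb
  refine Or.inl ⟨?_, Or.inl (by omega), ?_⟩
  swap
  · refine Nat.eq_of_mul_eq_mul_left (Nat.card_pos (α := S.act.range)) ?_
    omega
  haveI := isAlgClosed_residueField O
  haveI : CharP (ResidueField O) p := (CharP.charP_iff_prime_eq_zero hp.out).2 (by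
    rw [← map_natCast (residue O), residue_eq_zero_iff]; exact hO)
  obtain ⟨n, ρ, -, hρ⟩ := χ.2
  have hn : n = d := by
    have h := irr_charDegree_spec χ
    rw [← congrFun hρ 1, Representation.char_one] at h
    simpa using (show Module.finrank ℂ (Fin n → ℂ) = d by exact_mod_cast h)
  subst hn
  have hinj : Function.Injective ρ := by
    refine (injective_iff_map_eq_one (ρ : G →* Module.End ℂ _)).2 fun g hg => hfaith g ?_
    rw [← congrFun hρ g, ← congrFun hρ 1, Representation.character, Representation.character, hg,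
      map_one ρ]
  refine psl_of_half_succ S hSnn h7 (by omega) (by omega) hV ρ hinj
    (Matrix.toLinAlgEquiv'.toMonoidHom.comp ((red O (Fin _)).toMonoidHom.comp R)) ?_
  intro h0
  refine Piece.red_pow_pred S H (Matrix.toLinAlgEquiv'.injective ?_)
  rw [map_pow, map_sub, map_one, map_zero]
  exact h0

end Cfsg.Agent.H40.SmallDeg
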