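import Mathlib
import Cfsg.Agent.H40.SmallDeg.Shape
import Cfsg.Agent.H42.SmallFaithful.Complex

/-!
With a faithful character of degree below `p - 1`, a character of degree at most `(p - 2) / 2` is
constant on the Sylow `p`-subgroup.
-/

set_option autoImplicit false
set_option maxHeartbeats 1000000
set_option linter.unusedSectionVars false

namespace Cfsg.Agent.H40.SmallDeg

open Cfsg.Agent.H43.D1
open Cfsg.Agent.H43 (irr_charDegree_spec)

attribute [local instance] Fintype.ofFinite

/-- A character of small degree is trivial on `x`. -/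
theorem no_deg_e {p : ℕ} [hp : Fact p.Prime] {G : Type*} [Group G] [Finite G] (S : Setup p G)
    (hnn : ¬ S.P.Normal) (χ : Cfsg.IrrCharacter G) (hfaith : ∀ g, χ.1 g = χ.1 1 → g = 1)
    (hd : Cfsg.charDegree χ.1 + 1 < p) (ψ : Cfsg.IrrCharacter G) (hx : ψ.1 S.x ≠ ψ.1 1)
    (hψ : 2 * Cfsg.charDegree ψ.1 + 2 ≤ p) : False := by
  classical
  set G₀ : Subgroup G := Subgroup.normalClosure {S.x} with hG₀
  have hx₀ : S.x ∈ G₀ := Subgroup.subset_normalClosure rfl
  set T := subSetup S G₀ hx₀
  obtain ⟨hgen, hTP⟩ := subSetup_gen S hnn G₀ hG₀ hx₀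
  obtain ⟨n, ρ, -, hρ⟩ := χ.2
  have hn : n = Cfsg.charDegree χ.1 := by
    have h1 := irr_charDegree_spec χ
    rw [← congrFun hρ 1, Representation.char_one] at h1
    simpa using (show Module.finrank ℂ (Fin n → ℂ) = Cfsg.charDegree χ.1 by exact_mod_cast h1)
  let ρ₀ : Representation ℂ G₀ (Fin n → ℂ) :=
    (ρ : G →* Module.End ℂ (Fin n → ℂ)).comp G₀.subtype
  have hρ₀ : Function.Injective ρ₀ := by
    intro a b h
    have h' : ρ (a : G) = ρ (b : G) := h
    have h2 : ρ ((a : G)⁻¹ * b) = 1 := by rw [map_mul, ← h', ← map_mul, inv_mul_cancel, map_one]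
    refine Subtype.ext (inv_mul_eq_one.1 (hfaith _ ?_))
    rw [← hρ, Representation.character, Representation.character, h2, map_one ρ]
  obtain ⟨k, _, _, _, σ, hσ⟩ := H42.SmallFaithful.exists_faithful_reduction T hgen hTP ρ₀ hρ₀
  obtain ⟨hperf, -⟩ :=
    H42.SmallFaithful.perfect_and_central T hgen hTP (d := n) (by omega) σ hσ
  obtain ⟨m, τ, -, hτ⟩ := ψ.2
  have hm : m = Cfsg.charDegree ψ.1 := by
    have h1 := irr_charDegree_spec ψ
    rw [← congrFun hτ 1, Representation.char_one] at h1
    simpa using (show Module.finrank ℂ (Fin m → ℂ) = Cfsg.charDegree ψ.1 by exact_mod_cast h1)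
  have h1 := H42.SmallFaithful.small_rep_trivial T hgen hperf
    ((τ : G →* Module.End ℂ (Fin m → ℂ)).comp G₀.subtype)
    (by rw [Module.finrank_fin_fun]; omega)
  refine hx ?_
  rw [← congrFun hτ S.x, ← congrFun hτ 1, Representation.character, Representation.character,
    show τ S.x = 1 from h1, map_one τ]

end Cfsg.Agent.H40.SmallDeg
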