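import Mathlib
import Cfsg.Agent.H40.SmallDeg.Count

/-!
The counting argument for an automizer of odd order, with given targets of the square weight.
-/

set_option autoImplicit false
set_option maxHeartbeats 1000000
set_option linter.unusedSectionVars false

namespace Cfsg.Agent.H40.SmallDeg

open Matrix IsLocalRing Cfsg.Agent.H43.D1
open Cfsg.Agent.H31.Defect (red toK)
open Cfsg.Agent.H39.SmallDeg (rt eProj mult)
open scoped Kronecker

attribute [local instance] Fintype.ofFinite Classical.propDecidable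

variable {p : ℕ} [hp : Fact p.Prime] {G : Type*} [Group G] [Finite G] (S : Setup p G)
  {O : ValuationSubring ℂ} {d : ℕ} {R : G →* Matrix (Fin d) (Fin d) O} {c₀ : (ZMod p)ˣ}

/-- The weight on the fixed line of `x` is an average of the character. -/
theorem Piece.weight_eq {R₁ : G →* Matrix (Fin d) (Fin d) O} {c₁ : (ZMod p)ˣ}
    (H₁ : Piece S O R₁ c₁) {T₁ : S.L →* O} {φ : G → ℂ}
    (htr₁ : ∀ g, (toK O (Fin d) (R₁ g)).trace = φ g) (l : S.L)
    (hE₁ : toK O (Fin d) (R₁ (l : G)) *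
        eProj S.x ((toK O (Fin d)).toMonoidHom.comp R₁) (0 : ZMod p) =
      (T₁ l : ℂ) • eProj S.x ((toK O (Fin d)).toMonoidHom.comp R₁) (0 : ZMod p)) :
    (T₁ l : ℂ) = (p : ℂ)⁻¹ * ∑ i : ZMod p, φ ((l : G) * S.x ^ i.val) := by
  have h := congrArg Matrix.trace hE₁
  rw [Matrix.trace_smul, H31.Defect.trace_idem (H39.SmallDeg.eProj_idem S.orderOf_x 0)] at h
  have hr1 := H₁.mult 0
  rw [if_neg (zero_not_mem_coset S c₁)] at hr1
  rw [show (eProj S.x ((toK O (Fin d)).toMonoidHom.comp R₁) (0 : ZMod p)).rank = 1 from hr1,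
    Nat.cast_one, smul_eq_mul, mul_one] at h
  rw [← h, eProj, mul_smul_comm, Matrix.trace_smul, smul_eq_mul, Finset.mul_sum, Matrix.trace_sum]
  congr 1
  refine Finset.sum_congr rfl fun i _ => ?_
  rw [mul_zero, neg_zero, H39.SmallDeg.rt_zero, one_smul, ← htr₁, map_mul, map_mul]
  rfl

/-- The automizer cannot have odd order when all the targets of square weight exist. -/
theorem Piece.odd_case_of_targets (H : Piece S O R c₀) (χ : Cfsg.IrrCharacter G)
    (htr : ∀ g, (toK O (Fin d) (R g)).trace = χ.1 g)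
    (heodd : Odd (Nat.card S.act.range)) (θ₀ : (ZMod p)ˣ → Cfsg.IrrCharacter G)
    (hψdeg : ∀ a, Cfsg.charDegree (θ₀ a).1 = d)
    (hmv : ∀ (a : (ZMod p)ˣ) (A : G →* Matrix (Fin d) (Fin d) ℂ),
      (∀ g, (A g).trace = (θ₀ a).1 g) →
        ∀ c, H39.SmallDeg.mult S.x A c = if c ∈ coset S (a * c₀) then 0 else 1)
    (hT : ∀ (a : (ZMod p)ˣ) (l : S.L),
      (p : ℂ)⁻¹ * ∑ i : ZMod p, (θ₀ a).1 ((l : G) * S.x ^ i.val) =
        ((p : ℂ)⁻¹ * ∑ i : ZMod p, χ.1 ((l : G) * S.x ^ i.val)) ^ 2) : False := by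
  have hsrc : ∀ (a : (ZMod p)ˣ) (T : S.L →* O),
      (∀ l : S.L, toK O (Fin d) (R (l : G)) *
          eProj S.x ((toK O (Fin d)).toMonoidHom.comp R) (0 : ZMod p) =
        (T l : ℂ) • eProj S.x ((toK O (Fin d)).toMonoidHom.comp R) (0 : ZMod p)) →
      ∃ (R' : G →* Matrix (Fin d) (Fin d) O) (T' : S.L →* O) (u' : Fin d → O),
        Piece S O R' (a * c₀) ∧ (∀ g, (toK O (Fin d) (R' g)).trace = (θ₀ a).1 g) ∧
        (∀ l : S.L, R' (l : G) *ᵥ u' = T' l • u') ∧
        ((red O (Fin d) (R' S.x) - 1) ^ (d - 1)) *ᵥ (residue O ∘ u') ≠ 0 ∧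
        (∀ l : S.L, toK O (Fin d) (R' (l : G)) *
            eProj S.x ((toK O (Fin d)).toMonoidHom.comp R') (0 : ZMod p) =
          (T' l : ℂ) • eProj S.x ((toK O (Fin d)).toMonoidHom.comp R') (0 : ZMod p)) ∧
        ∀ l : S.L, residue O (T' l) = residue O (T l) ^ 2 := by
    intro a T hE
    obtain ⟨d', R', htr', -⟩ := H31.Defect.exists_complex_lattice O (θ₀ a)
    have hd' : d' = d := by
      have h := htr' 1
      rw [map_one, map_one, Matrix.trace_one, Fintype.card_fin, H43.irr_charDegree_spec, hψdeg] at h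
      exact_mod_cast h
    subst hd'
    have H' : Piece S O R' (a * c₀) :=
      ⟨H.mem, fun Φ hΦ => H31.Defect.schur_of_char (θ₀ a) ((toK O (Fin d')).toMonoidHom.comp R')
        htr' hΦ, H.range, H.two, hmv a _ htr'⟩
    obtain ⟨T', u', hu', hu1', hE', -⟩ := H'.exists_weight
    refine ⟨R', T', u', H', htr', hu', hu1', hE', fun l => ?_⟩
    have e : T' l = T l ^ 2 := Subtype.ext (by
      rw [SubmonoidClass.coe_pow, Piece.weight_eq S H' htr' l (hE' l),
        Piece.weight_eq S H htr l (hE l), hT])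
    rw [e, map_pow]
  classical
  obtain ⟨T, u, hu, hu1, hE, -⟩ := H.exists_weight
  set e := Nat.card S.act.range with he
  have hrange := H.range
  rw [← he] at hrange
  have hd2 := H.two
  have hp2 := H.two_lt
  have he0 : 0 < e := Nat.card_pos
  obtain ⟨t, ht⟩ : e ∣ p - 1 := card_range_dvd S
  have hpodd : Odd p := hp.out.odd_of_ne_two (by omega)
  have ht0 : 0 < t := Nat.pos_of_ne_zero fun h => by rw [h, mul_zero] at ht; omega
  obtain ⟨t, rfl⟩ : ∃ t', t = t' + 1 := ⟨t - 1, by omega⟩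
  have hd : d = t * e + 1 := by
    rw [mul_add, mul_one, mul_comm] at ht
    omega
  have hdeven : Even d := by
    obtain ⟨a, ha⟩ := heodd
    obtain ⟨b, hb⟩ := hpodd
    exact ⟨b - a, by omega⟩
  set K := (((Finset.range e) ×ˢ (Finset.range d)).filter fun q =>
    q.1 + q.2 < d ∧ (q.2 % 2 = if (true : Bool) then 1 else 0) ∧ e ∣ q.1 + q.2 + 0).card with hK
  set Q := (ZMod p)ˣ ⧸ S.act.range
  choose R' T' u' H' htr' hu' hu1' hE' hres using fun z : Q => hsrc z.out T hE
  set θ : Q → Cfsg.IrrCharacter G := fun z => θ₀ z.out with hθdef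
  have hbound : ∀ (a : (ZMod p)ˣ), ∃ Hs : Submodule ℂ (Matrix (Fin d × Fin d) (Fin d) ℂ),
      (∀ Ψ ∈ Hs, (∀ g, toK O (Fin d × Fin d) (sq R g) * Ψ = Ψ * toK O (Fin d) (R' (a : Q) g)) ∧
        toK O (Fin d × Fin d) (part O d true) * Ψ = Ψ) ∧
      K ≤ Module.finrank ℂ Hs + nr S R true ((a * c₀ : (ZMod p)ˣ) : ZMod p) := by
    intro a
    have hmem : a * c₀ * ((a : Q).out * c₀)⁻¹ ∈ S.act.range := by
      obtain ⟨w, hw⟩ := QuotientGroup.mk_out_eq_mul S.act.range a
      rw [hw, show a * c₀ * (a * (w : (ZMod p)ˣ) * c₀)⁻¹ = (w : (ZMod p)ˣ)⁻¹ by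
        rw [mul_right_comm a _ c₀, _root_.mul_inv_rev, mul_comm (w : (ZMod p)ˣ)⁻¹, ← mul_assoc,
          mul_inv_cancel, one_mul]]
      exact inv_mem w.2
    exact H.bound S T u hu hu1 ((H' (a : Q)).congr_rep S hmem) (T' a) (u' a) (hu' a) (hu1' a) 0
      (fun l => by rw [hres, pow_zero, mul_one]) true
  -- all intertwiners of one target
  let Hsub : Q → Submodule ℂ (Matrix (Fin d × Fin d) (Fin d) ℂ) := fun z =>
    { carrier := {Ψ | (∀ g, toK O (Fin d × Fin d) (sq R g) * Ψ = Ψ * toK O (Fin d) (R' z g)) ∧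
        toK O (Fin d × Fin d) (part O d true) * Ψ = Ψ}
      add_mem' := fun {x y} hx hy => ⟨fun g => by rw [Matrix.mul_add, Matrix.add_mul, hx.1, hy.1],
        by rw [Matrix.mul_add, hx.2, hy.2]⟩
      zero_mem' := ⟨fun g => by rw [Matrix.mul_zero, Matrix.zero_mul], Matrix.mul_zero _⟩
      smul_mem' := fun c x hx => ⟨fun g => by rw [Matrix.mul_smul, Matrix.smul_mul, hx.1],
        by rw [Matrix.mul_smul, hx.2]⟩ }
  have hle : ∀ a : (ZMod p)ˣ,
      K ≤ Module.finrank ℂ (Hsub (a : Q)) + nr S R true ((a * c₀ : (ZMod p)ˣ) : ZMod p) := by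
    intro a
    obtain ⟨Hs, hHs, h⟩ := hbound a
    refine h.trans (Nat.add_le_add_right (Submodule.finrank_mono fun Ψ hΨ => ?_) _)
    exact hHs Ψ hΨ
  have hθ : Function.Injective θ := by
    intro z z' hzz
    have hm : ∀ c : ZMod p, H39.SmallDeg.mult S.x ((toK O (Fin d)).toMonoidHom.comp (R' z)) c =
        H39.SmallDeg.mult S.x ((toK O (Fin d)).toMonoidHom.comp (R' z')) c := by
      intro c
      refine Nat.cast_injective (R := ℂ) ?_
      rw [H39.SmallDeg.mult_eq S.orderOf_x (htr' z), H39.SmallDeg.mult_eq S.orderOf_x (htr' z'),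
        show θ₀ z.out = θ₀ z'.out from hzz]
    have hc := hm ((z.out * c₀ : (ZMod p)ˣ) : ZMod p)
    rw [(H' z).mult, (H' z').mult, if_pos ((mem_coset S).2 (by rw [mul_inv_cancel]; exact one_mem _))]
      at hc
    have hin : ((z.out * c₀ : (ZMod p)ˣ) : ZMod p) ∈ coset S (z'.out * c₀) := by
      by_contra h
      rw [if_neg h] at hc
      exact zero_ne_one hc
    rw [mem_coset, _root_.mul_inv_rev, mul_assoc, mul_inv_cancel_left] at hin
    rw [← QuotientGroup.out_eq' z, ← QuotientGroup.out_eq' z', QuotientGroup.eq]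
    have := inv_mem hin
    rw [_root_.mul_inv_rev, inv_inv, mul_comm] at this
    exact this
  have hE0 : ∀ z : Q, ∃ w, (eProj S.x ((toK O (Fin d)).toMonoidHom.comp (R' z)) (0 : ZMod p)) *ᵥ w ≠ 0 := by
    intro z
    by_contra hc
    push Not at hc
    have h := (H' z).mult 0
    rw [if_neg (zero_not_mem_coset S _), H39.SmallDeg.mult,
      show eProj S.x ((toK O (Fin d)).toMonoidHom.comp (R' z)) (0 : ZMod p) = 0 from
        Matrix.ext fun i j => by simpa using congrFun (hc (Pi.single j 1)) i, Matrix.rank_zero] at h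
    exact zero_ne_one h
  choose w hw using hE0
  set W : Q → Fin d → ℂ := fun z =>
    eProj S.x ((toK O (Fin d)).toMonoidHom.comp (R' z)) (0 : ZMod p) *ᵥ w z with hW
  let Φ : (∀ z : Q, Hsub z) →ₗ[ℂ]
      LinearMap.range (toK O (Fin d × Fin d) (part O d true) * eig S (sq R) 0).mulVecLin :=
    LinearMap.codRestrict _
      { toFun := fun f => ∑ z, (f z : Matrix (Fin d × Fin d) (Fin d) ℂ) *ᵥ W z
        map_add' := fun f g => by
          simp [Matrix.add_mulVec, Finset.sum_add_distrib]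
        map_smul' := fun c f => by
          simp [Matrix.smul_mulVec, Finset.smul_sum] }
      (fun f => by
        refine Submodule.sum_mem _ fun z _ => ?_
        refine ⟨(f z : Matrix (Fin d × Fin d) (Fin d) ℂ) *ᵥ W z, ?_⟩
        obtain ⟨hint, hP⟩ := (f z).2
        set v := (f z : Matrix (Fin d × Fin d) (Fin d) ℂ) *ᵥ W z with hv
        have h1 : ∀ i : ZMod p, toK O (Fin d × Fin d) (sq R (S.x ^ i.val)) *ᵥ v = v := fun i => by
          rw [hv, Matrix.mulVec_mulVec, hint, ← Matrix.mulVec_mulVec, hW]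
          simp only
          rw [Matrix.mulVec_mulVec (w z),
            show toK O (Fin d) (R' z (S.x ^ i.val)) *
                eProj S.x ((toK O (Fin d)).toMonoidHom.comp (R' z)) (0 : ZMod p) =
              eProj S.x ((toK O (Fin d)).toMonoidHom.comp (R' z)) (0 : ZMod p) by
              have := H39.SmallDeg.zpow_mul_eProj (A := (toK O (Fin d)).toMonoidHom.comp (R' z))
                S.orderOf_x i 0
              rw [mul_zero, H39.SmallDeg.rt_zero, one_smul] at this
              exact this]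
        rw [Matrix.mulVecLin_apply, ← Matrix.mulVec_mulVec, eig, Matrix.smul_mulVec,
          Matrix.sum_mulVec, Finset.sum_congr rfl fun i _ => by
            rw [Matrix.smul_mulVec, h1, mul_zero, neg_zero, H39.SmallDeg.rt_zero, one_smul],
          Finset.sum_const, Finset.card_univ, ZMod.card, ← Nat.cast_smul_eq_nsmul ℂ, smul_smul,
          inv_mul_cancel₀ H39.SmallDeg.p_ne_zero, one_smul, hv, Matrix.mulVec_mulVec, hP])
  have hΦ : Function.Injective Φ := by
    rw [← LinearMap.ker_eq_bot, LinearMap.ker_eq_bot']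
    intro f hf
    have h := congrArg Subtype.val hf
    funext z
    refine Subtype.ext ?_
    refine eq_zero_of_mulVec_eq_zero ((toK O (Fin d)).toMonoidHom.comp (R' z)) (H' z).schur
      ((toK O (Fin d × Fin d)).toMonoidHom.comp (sq R)) (f z).2.1 (hw z) ?_
    exact images_independent θ hθ (fun z => (toK O (Fin d)).toMonoidHom.comp (R' z)) htr'
      (fun z => (H' z).schur) ((toK O (Fin d × Fin d)).toMonoidHom.comp (sq R))
      (fun z => (f z : Matrix (Fin d × Fin d) (Fin d) ℂ)) (fun z g => (f z).2.1 g) W h z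
  have hh : ∑ z : Q, Module.finrank ℂ (Hsub z) ≤ nr S R true 0 := by
    have h := LinearMap.finrank_le_finrank_of_injective hΦ
    rwa [Module.finrank_pi_fintype] at h
  have hfib : ∑ a : (ZMod p)ˣ, Module.finrank ℂ (Hsub (a : Q)) =
      e * ∑ z : Q, Module.finrank ℂ (Hsub z) := by
    rw [Fintype.sum_equiv (Subgroup.groupEquivQuotientProdSubgroup (s := S.act.range))
      (fun a : (ZMod p)ˣ => Module.finrank ℂ (Hsub (a : Q)))
      (fun z => Module.finrank ℂ (Hsub z.1)) (fun _ => rfl), Fintype.sum_prod_type,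
      Finset.mul_sum]
    refine Finset.sum_congr rfl fun z _ => ?_
    show ∑ _y : S.act.range, Module.finrank ℂ (Hsub z) = _
    rw [Finset.sum_const, Finset.card_univ, smul_eq_mul, he, Nat.card_eq_fintype_card]
  have hsum : K * (p - 1) + nr S R true 0 ≤
      e * nr S R true 0 + ∑ c : ZMod p, nr S R true c := by
    have h1 : K * (p - 1) ≤ ∑ a : (ZMod p)ˣ,
        (Module.finrank ℂ (Hsub (a : Q)) + nr S R true ((a * c₀ : (ZMod p)ˣ) : ZMod p)) := by
      refine le_trans (le_of_eq ?_) (Finset.sum_le_sum fun a _ => hle a)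
      rw [Finset.sum_const, Finset.card_univ, ZMod.card_units, smul_eq_mul, mul_comm]
    rw [Finset.sum_add_distrib, hfib] at h1
    have h2 : ∑ a : (ZMod p)ˣ, nr S R true ((a * c₀ : (ZMod p)ˣ) : ZMod p) + nr S R true 0 =
        ∑ c : ZMod p, nr S R true c := by
      rw [← Finset.add_sum_erase _ _ (Finset.mem_univ (0 : ZMod p)), add_comm]
      congr 1
      refine Finset.sum_bij (fun a _ => ((a * c₀ : (ZMod p)ˣ) : ZMod p)) ?_ ?_ ?_ (fun _ _ => rfl)
      · exact fun a _ => Finset.mem_erase.2 ⟨Units.ne_zero _, Finset.mem_univ _⟩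
      · exact fun a _ a' _ h => mul_right_cancel (Units.ext h)
      · exact fun z hz => ⟨Units.mk0 z (Finset.ne_of_mem_erase hz) * c₀⁻¹, Finset.mem_univ _,
          by simp⟩
    have h3 := Nat.mul_le_mul_left e hh
    omega
  have hn : 2 * (∑ c : ZMod p, nr S R true c) + d = d * d := by
    have h := two_mul_sum_nr S H true
    have : ((2 * (∑ c : ZMod p, nr S R true c) + d : ℕ) : ℂ) = ((d * d : ℕ) : ℂ) := by
      rw [Nat.cast_add, Nat.cast_mul, Nat.cast_two, h, Nat.cast_mul]
      simp [sgn]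
    exact_mod_cast this
  have hn0 : 2 * nr S R true 0 + e + 1 = d := by
    have h := nr_zero_odd S H (by rw [← he]; exact Nat.not_even_iff_odd.2 heodd) true
    rw [← he] at h
    have : ((2 * nr S R true 0 + e + 1 : ℕ) : ℂ) = ((d : ℕ) : ℂ) := by
      rw [Nat.cast_add, Nat.cast_add, Nat.cast_mul, Nat.cast_two, h]
      simp [sgn]
    exact_mod_cast this
  obtain ⟨r, hr⟩ := hdeven
  have hK' : r ≤ K := by
    refine le_trans (le_of_eq ?_) (le_card_pairs (e := e) (d := d) (w := d - 1) (c := 0) (o := 1)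
      he0 (by omega) ⟨t, by rw [mul_comm]; omega⟩ (by norm_num))
    omega
  have := Nat.mul_le_mul_right (p - 1) hK'
  obtain ⟨p', rfl⟩ : ∃ p', p = p' + 1 := ⟨p - 1, by omega⟩
  rw [Nat.add_sub_cancel] at this hsum
  nlinarith

end Cfsg.Agent.H40.SmallDeg
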